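import Mathlib.GroupTheory.Transfer
import Mathlib.GroupTheory.GroupAction.MultipleTransitivity
import Mathlib.RingTheory.IntegralDomain
import Cfsg.Prelude.Def_LieExceptional
import Cfsg.Agent.Chars.Induced
import Cfsg.Agent.Chars.Linear
import Cfsg.Agent.Chars.Orth

/-!
Characters induced from a point stabiliser of a simple Zassenhaus group.
-/

set_option autoImplicit false
set_option linter.unusedSectionVars false

open scoped Classical ComplexConjugate

namespace Cfsg.Agent.OddChar

open MulAction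

universe u v

variable {G : Type u} {Ω : Type v} [Group G] [Fintype G] [MulAction G Ω]

/-- The transfer relation between the values at the two fixed points. -/
theorem zass_transfer {A : Type*} [CommGroup A] [IsPretransitive G Ω]
    (h3 : ∀ g : G, ∀ a b c : Ω, a ≠ b → b ≠ c → a ≠ c → g • a = a → g • b = b → g • c = c → g = 1)
    {a : Ω} (φ : stabilizer G a →* A) (hV : ∀ x : G, MonoidHom.transfer φ x = 1)
    {x g : G} (hga : g • a ≠ a) (hx : x • a = a) (hxg : x • g • a = g • a)
    (hmem : g⁻¹ * x * g ∈ stabilizer G a) :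
    φ ⟨x, hx⟩ * φ ⟨g⁻¹ * x * g, hmem⟩ = 1 := by
  by_cases hx1 : x = 1
  · subst hx1
    rw [show (⟨1, hx⟩ : stabilizer G a) = 1 from rfl, show (⟨g⁻¹ * 1 * g, hmem⟩ : stabilizer G a) = 1 from
      Subtype.ext (by simp), map_one, one_mul]
  set Q := G ⧸ stabilizer G a
  let pt : Q → Ω := fun q => q.out • a
  have hpt : ∀ k : G, pt (k : Q) = k • a := fun k => by
    have h : ((k : Q).out)⁻¹ * k ∈ stabilizer G a :=
      QuotientGroup.eq.mp (Quotient.out_eq (k : Q))
    have h' : ((k : Q).out)⁻¹ • k • a = a := by rw [← mul_smul]; exact h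
    exact (inv_smul_eq_iff.mp h').symm
  have hinj : Function.Injective pt := by
    intro q r h
    induction q using QuotientGroup.induction_on with
    | _ k =>
    induction r using QuotientGroup.induction_on with
    | _ l =>
    rw [hpt, hpt] at h
    refine QuotientGroup.eq.mpr ?_
    rw [mem_stabilizer_iff, mul_smul, ← h, inv_smul_smul]
  have hequiv : ∀ (y : G) (q : Q), pt (y • q) = y • pt q := by
    intro y q
    induction q using QuotientGroup.induction_on with
    | _ k =>
    show pt ((y * k : G) : Q) = y • pt (k : Q)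
    rw [hpt, hpt, mul_smul]
  -- the two fixed cosets
  have hfix : ∀ q : Q, x • q = q → q = ((1 : G) : Q) ∨ q = ((g : G) : Q) := by
    intro q hq
    by_contra hne
    push Not at hne
    refine hx1 (h3 x a (g • a) (pt q) (Ne.symm hga) (fun h => hne.2 (hinj ?_)) (fun h => hne.1 (hinj ?_))
      hx hxg (by rw [← hequiv, hq]))
    · rw [hpt, h]
    · rw [hpt, one_smul, h]
  have hf1 : x • ((1 : G) : Q) = ((1 : G) : Q) := hinj (by rw [hequiv, hpt, one_smul]; exact hx)
  have hfg : x • ((g : G) : Q) = ((g : G) : Q) := hinj (by rw [hequiv, hpt]; exact hxg)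
  letI : Fintype (Quotient (orbitRel (Subgroup.zpowers x) Q)) := Fintype.ofFinite _
  have h := hV x
  rw [MonoidHom.transfer_eq_prod_quotient_orbitRel_zpowers_quot] at h
  set o₁ : Quotient (orbitRel (Subgroup.zpowers x) Q) := Quotient.mk'' ((1 : G) : Q)
  set o₂ : Quotient (orbitRel (Subgroup.zpowers x) Q) := Quotient.mk'' ((g : G) : Q)
  have hout : ∀ q : Q, x • q = q →
      (Quotient.mk'' q : Quotient (orbitRel (Subgroup.zpowers x) Q)).out = q := by
    intro q hq
    have h1 : (orbitRel (Subgroup.zpowers x) Q).r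
        (Quotient.mk'' q : Quotient (orbitRel (Subgroup.zpowers x) Q)).out q :=
      Quotient.exact' (Quotient.out_eq' _)
    obtain ⟨⟨_, i, rfl⟩, hi⟩ := h1
    rw [← hi]
    exact mem_stabilizer_iff.mp ((stabilizer G q).zpow_mem (mem_stabilizer_iff.mpr hq) i)
  have ho : o₁ ≠ o₂ := fun e => by
    have := congrArg Quotient.out e
    rw [hout _ hf1, hout _ hfg] at this
    have h2 := congrArg pt this
    rw [hpt, hpt, one_smul] at h2
    exact hga h2.symm
  rw [Finset.prod_eq_mul o₁ o₂ ho (fun q _ hq => ?_) (by simp) (by simp)] at h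
  · have hper : ∀ q : Q, x • q = q → Function.minimalPeriod (x • ·) q = 1 := fun q hq =>
      Function.minimalPeriod_eq_one_iff_isFixedPt.mpr hq
    convert h using 2
    · obtain ⟨k, hk⟩ : ∃ k : stabilizer G a, o₁.out.out = (k : G) := by
        refine ⟨⟨o₁.out.out, ?_⟩, rfl⟩
        have : ((o₁.out.out : G) : Q) = ((1 : G) : Q) := by
          rw [show ((o₁.out.out : G) : Q) = o₁.out from Quotient.out_eq _]; exact hout _ hf1
        have := QuotientGroup.eq.mp this.symm
        simpa using this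
      rw [show φ ⟨x, hx⟩ = φ (k⁻¹ * ⟨x, hx⟩ * k) by
        rw [map_mul, map_mul, map_inv, mul_comm, mul_inv_cancel_left]]
      refine congrArg φ (Subtype.ext ?_)
      show (k : G)⁻¹ * x * k = _
      have hp := hper _ hf1
      simp only [o₁, hout _ hf1] at hk ⊢
      rw [hk]
      erw [hp]
      rw [pow_one]
    · obtain ⟨k, hk⟩ : ∃ k : stabilizer G a, o₂.out.out = g * (k : G) := by
        refine ⟨⟨g⁻¹ * o₂.out.out, ?_⟩, by simp⟩
        have : ((o₂.out.out : G) : Q) = ((g : G) : Q) := by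
          rw [show ((o₂.out.out : G) : Q) = o₂.out from Quotient.out_eq _]; exact hout _ hfg
        exact QuotientGroup.eq.mp this.symm
      rw [show φ ⟨g⁻¹ * x * g, hmem⟩ = φ (k⁻¹ * ⟨g⁻¹ * x * g, hmem⟩ * k) by
        rw [map_mul, map_mul, map_inv, mul_comm, mul_inv_cancel_left]]
      refine congrArg φ (Subtype.ext ?_)
      show (k : G)⁻¹ * (g⁻¹ * x * g) * k = _
      have hp := hper _ hfg
      simp only [o₂, hout _ hfg] at hk ⊢
      rw [hk]
      erw [hp]
      rw [pow_one]
      group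
  · refine (congrArg φ (Subtype.ext ?_)).trans (map_one φ)
    show q.out.out⁻¹ * x ^ Function.minimalPeriod (x • ·) q.out * q.out.out = 1
    set m := Function.minimalPeriod (x • ·) q.out
    have hnf : x • q.out ≠ q.out := fun he => by
      rcases hfix _ he with h1 | h1
      · exact hq.1 (by rw [← Quotient.out_eq' q, h1])
      · exact hq.2 (by rw [← Quotient.out_eq' q, h1])
    have hm : (x ^ m) • q.out = q.out := by
      rw [← smul_iterate_apply]
      exact Function.isPeriodicPt_minimalPeriod _ _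
    have hx_pow : x ^ m = 1 := by
      refine h3 (x ^ m) a (g • a) (pt q.out) (Ne.symm hga) (fun h1 => hnf ?_) (fun h1 => hnf ?_) ?_ ?_ ?_
      · exact hinj (by rw [hequiv, ← h1]; exact hxg)
      · exact hinj (by rw [hequiv, ← h1]; exact hx)
      · exact (stabilizer G a).pow_mem hx m
      · exact (stabilizer G (g • a)).pow_mem hxg m
      · rw [← hequiv, hm]
    rw [hx_pow, mul_one, inv_mul_cancel]

theorem zass_induced [Fintype Ω] (hZ : Cfsg.IsZassenhausGroup G Ω) {a b : Ω} (hab : a ≠ b)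
    [IsSimpleGroup G]
    (hodd : Odd (Nat.card ↥(stabilizer G a ⊓ stabilizer G b : Subgroup G)))
    (H : Subgroup G) (hHa : H ≤ stabilizer G a) (hHcard : Nat.card H + 1 = Fintype.card Ω)
    (hHfix : ∀ u ∈ H, u ≠ 1 → ∀ c : Ω, u • c = c → c = a) (μ : stabilizer G a → ℂ)
    (hμ : Cfsg.IsCharacter (stabilizer G a) μ ∧ μ 1 = 1)
    (hμH : ∀ u : stabilizer G a, (u : G) ∈ H → μ u = 1) (hμne : μ ≠ fun _ => 1) :
    Cfsg.IsIrrCharacter G (Cfsg.indFun (stabilizer G a) μ) ∧
      ∀ u ∈ H, u ≠ 1 → Cfsg.indFun (stabilizer G a) μ u = 1 := by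
  obtain ⟨hfaith, h2t, h3, hex, -⟩ := hZ
  have hmap : ∀ {x y z w : Ω}, x ≠ y → z ≠ w → ∃ g : G, g • x = z ∧ g • y = w :=
    is_two_pretransitive_iff.1 h2t
  haveI : IsPretransitive G Ω := isPretransitive_of_is_two_pretransitive
  set A := stabilizer G a with hA
  obtain ⟨φ, rfl⟩ := Chars.exists_hom_of_degree_one hμ.1 hμ.2
  have hcl : ∀ (y k : A), φ (k⁻¹ * y * k) = φ y := fun y k => by
    rw [map_mul, map_mul, map_inv, mul_comm, mul_inv_cancel_left]
  have hext : ∀ z : G, Cfsg.extendByZero A (fun y => (φ y : ℂ)) z =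
      if h : z ∈ A then (φ ⟨z, h⟩ : ℂ) else 0 := fun z => Chars.extendByZero_eq_ite _ _ _
  have hAC : (Nat.card A : ℂ) ≠ 0 := Chars.subgroup_card_ne_zero A
  have hcardA : ((Finset.univ : Finset G).filter (· ∈ A)).card = Nat.card A := by
    rw [← Fintype.card_subtype, ← Nat.card_eq_fintype_card]
  -- the transfer is trivial
  have hV : ∀ x : G, MonoidHom.transfer φ x = 1 := by
    rcases IsSimpleGroup.eq_bot_or_eq_top_of_normal (MonoidHom.transfer φ).ker inferInstance with h | h
    · exfalso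
      obtain ⟨g₀, hg₀, a₀, b₀, -, ha₀, -⟩ := hex
      have hi : Function.Injective (MonoidHom.transfer φ) := (MonoidHom.ker_eq_bot_iff _).mp h
      apply hg₀
      refine hfaith.eq_of_smul_eq_smul fun c : Ω => ?_
      obtain ⟨k, rfl⟩ := exists_smul_eq G a₀ c
      rw [one_smul, ← mul_smul, show g₀ * k = k * g₀ from hi (by rw [map_mul, map_mul, mul_comm]),
        mul_smul, ha₀]
    · intro x
      exact MonoidHom.mem_ker.mp (h.symm ▸ Subgroup.mem_top x)
  -- a nontrivial value on each two-point stabiliser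
  have hnon : ∀ g : G, g • a ≠ a → ∃ (x : G) (hx : x • a = a) (hm : g⁻¹ * x * g ∈ A),
      x • g • a = g • a ∧ φ ⟨x, hx⟩ ≠ φ ⟨g⁻¹ * x * g, hm⟩ := by
    intro g hga
    by_contra hall
    push Not at hall
    set c := g • a with hc
    have hone : ∀ (x : G) (hx : x • a = a), x • c = c → φ ⟨x, hx⟩ = 1 := by
      intro x hx hxc
      have hm : g⁻¹ * x * g ∈ A := by
        rw [hA, mem_stabilizer_iff, mul_smul, mul_smul, ← hc, hxc, hc, inv_smul_smul]
      have h1 := zass_transfer h3 φ hV hga hx hxc hm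
      rw [← hall x hx hm hxc, ← sq] at h1
      obtain ⟨t, hta, htb⟩ := hmap hab (Ne.symm hga)
      have ho : Odd (orderOf (φ ⟨x, hx⟩)) := by
        refine hodd.of_dvd_nat ((orderOf_map_dvd φ _).trans ?_)
        erw [Subgroup.orderOf_mk]
        rw [← (MulAut.conj t⁻¹).orderOf_eq x]
        refine Subgroup.orderOf_dvd_natCard _ ?_
        rw [Subgroup.mem_inf, mem_stabilizer_iff, mem_stabilizer_iff]
        simp only [MulAut.conj_apply, inv_inv, mul_smul, hta, htb, hx, hxc]
        exact ⟨inv_smul_eq_iff.mpr hta.symm, inv_smul_eq_iff.mpr htb.symm⟩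
      rcases (Nat.dvd_prime Nat.prime_two).mp (orderOf_dvd_of_pow_eq_one h1) with h | h
      · exact orderOf_eq_one_iff.mp h
      · rw [h] at ho; exact absurd ho (by decide)
    -- `A = H D`
    have hinj : Function.Injective fun u : H => (⟨(u : G) • c, fun h => hga (by
        have := congrArg ((u : G)⁻¹ • ·) h
        simp only [inv_smul_smul] at this
        rw [this, inv_smul_eq_iff]
        exact (hHa u.2).symm)⟩ : {d : Ω // d ≠ a}) := by
      intro u v huv
      have h := congrArg Subtype.val huv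
      simp only at h
      by_contra hne
      exact hga (hHfix ((v⁻¹ * u : H) : G) (v⁻¹ * u).2
        (fun h1 => hne (Eq.symm (inv_mul_eq_one.mp (Subtype.ext h1 : v⁻¹ * u = 1)))) c
        (by rw [Subgroup.coe_mul, Subgroup.coe_inv, mul_smul, h, inv_smul_smul]))
    have hbij := (Fintype.bijective_iff_injective_and_card _).mpr ⟨hinj, by
      rw [Fintype.card_subtype_compl, Fintype.card_subtype_eq, ← Nat.card_eq_fintype_card]; omega⟩
    apply hμne
    funext y
    obtain ⟨u, hu⟩ := hbij.2 ⟨(y : G) • c, fun h => hga (by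
      have := congrArg ((y : G)⁻¹ • ·) h
      simp only [inv_smul_smul] at this
      rw [this, inv_smul_eq_iff]
      exact y.2.symm)⟩
    have hu' : (u : G) • c = (y : G) • c := congrArg Subtype.val hu
    set e : A := ⟨u, hHa u.2⟩⁻¹ * y
    have he : φ e = 1 := hone e e.2 (by
      show ((u : G)⁻¹ * (y : G)) • c = c
      rw [mul_smul, ← hu', inv_smul_smul])
    have hu1 : φ ⟨u, hHa u.2⟩ = 1 := Units.ext (hμH ⟨u, hHa u.2⟩ u.2)
    show (φ y : ℂ) = 1
    rw [show y = ⟨u, hHa u.2⟩ * e by simp [e], map_mul, hu1, he, one_mul, Units.val_one]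
  have hin : ∀ x : A, (∑ g ∈ Finset.univ.filter (· ∈ A), Cfsg.extendByZero A (fun y => (φ y : ℂ)) (g⁻¹ * x * g)) =
      (Nat.card A : ℂ) * (φ x : ℂ) := by
    intro x
    rw [Finset.sum_congr rfl (g := fun _ => (φ x : ℂ)) (fun g hg => ?_), Finset.sum_const, hcardA, nsmul_eq_mul]
    have hg' := (Finset.mem_filter.mp hg).2
    rw [hext, dif_pos (A.mul_mem (A.mul_mem (A.inv_mem hg') x.2) hg')]
    exact congrArg Units.val (hcl x ⟨g, hg'⟩)
  constructor
  · refine Chars.isIrrCharacter_of_norm_one (Chars.isCharacter_indFun A hμ.1) ?_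
    rw [Chars.classInner_indFun A _ (Chars.isClassFunction_of_isCharacter (Chars.isCharacter_indFun A hμ.1)),
      Chars.classInner_def]
    simp only [Chars.indFun_apply, map_mul, map_inv₀, map_natCast, map_sum]
    have hrest : ∀ g ∈ (Finset.univ : Finset G).filter (· ∉ A),
        ∑ x : A, (φ x : ℂ) * conj (Cfsg.extendByZero A (fun y => (φ y : ℂ)) (g⁻¹ * x * g)) = 0 := by
      intro g hg
      have hga : g • a ≠ a := (Finset.mem_filter.mp hg).2
      let D : Subgroup A := (stabilizer G (g • a)).subgroupOf A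
      have hD : ∀ x : A, x ∈ D ↔ g⁻¹ * (x : G) * g ∈ A := fun x => by
        rw [Subgroup.mem_subgroupOf, mem_stabilizer_iff, mem_stabilizer_iff, mul_smul, mul_smul,
          inv_smul_eq_iff]
      let f : D →* ℂˣ :=
        { toFun := fun x => φ x.1 * (φ ⟨g⁻¹ * (x.1 : G) * g, (hD _).mp x.2⟩)⁻¹
          map_one' := by
            rw [show (⟨g⁻¹ * (((1 : D) : A) : G) * g, (hD _).mp (1 : D).2⟩ : A) = 1 from Subtype.ext (by simp)]
            simp
          map_mul' := fun x y => by
            rw [show (⟨g⁻¹ * (((x * y : D) : A) : G) * g, (hD _).mp (x * y).2⟩ : A) =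
              ⟨g⁻¹ * (x.1 : G) * g, (hD _).mp x.2⟩ * ⟨g⁻¹ * (y.1 : G) * g, (hD _).mp y.2⟩ from
              Subtype.ext (by simp [mul_assoc]), map_mul]
            simp only [Subgroup.coe_mul, map_mul, mul_inv, mul_mul_mul_comm] }
      have hf : (Units.coeHom ℂ).comp f ≠ 1 := by
        obtain ⟨x, hx, hm, hxc, hne⟩ := hnon g hga
        intro h
        apply hne
        have h1 : f ⟨⟨x, hx⟩, hxc⟩ = 1 := Units.ext (DFunLike.congr_fun h ⟨⟨x, hx⟩, hxc⟩)
        exact mul_inv_eq_one.mp h1
      rw [← Finset.sum_filter_add_sum_filter_not Finset.univ (· ∈ D),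
        Finset.sum_eq_zero (s := Finset.univ.filter (¬ · ∈ D)) (fun x hx => by
          rw [hext, dif_neg (fun h => (Finset.mem_filter.mp hx).2 ((hD x).mpr h)), map_zero, mul_zero]),
        add_zero, Finset.sum_subtype (p := (· ∈ D)) _ (fun x => by simp)]
      rw [← sum_hom_units_eq_zero ((Units.coeHom ℂ).comp f) hf]
      refine Finset.sum_congr rfl fun x _ => ?_
      rw [hext, dif_pos ((hD _).mp x.2)]
      set w := φ ⟨g⁻¹ * ((x : A) : G) * g, (hD _).mp x.2⟩
      have hw : ‖(w : ℂ)‖ = 1 := by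
        refine Complex.norm_eq_one_of_pow_eq_one (n := Nat.card A) ?_ Nat.card_pos.ne'
        rw [← Units.val_pow_eq_pow_val, ← map_pow, pow_card_eq_one', map_one, Units.val_one]
      show (φ (x : A) : ℂ) * conj (w : ℂ) = ((φ (x : A) * w⁻¹ : ℂˣ) : ℂ)
      rw [Units.val_mul, Units.val_inv_eq_inv_val, Complex.inv_def, Complex.normSq_eq_norm_sq, hw]
      simp
    have hsum : ∑ x : A, (φ x : ℂ) * ((Nat.card A : ℂ)⁻¹ *
        ∑ g : G, conj (Cfsg.extendByZero A (fun y => (φ y : ℂ)) (g⁻¹ * x * g))) = (Nat.card A : ℂ) := by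
      have h1 : ∀ x : A, ∑ g : G, (φ x : ℂ) * conj (Cfsg.extendByZero A (fun y => (φ y : ℂ)) (g⁻¹ * x * g)) =
          (Nat.card A : ℂ) + ∑ g ∈ Finset.univ.filter (· ∉ A),
            (φ x : ℂ) * conj (Cfsg.extendByZero A (fun y => (φ y : ℂ)) (g⁻¹ * x * g)) := by
        intro x
        rw [← Finset.sum_filter_add_sum_filter_not Finset.univ (· ∈ A)]
        congr 1
        rw [← Finset.mul_sum, ← map_sum, hin, map_mul, map_natCast, mul_left_comm, Complex.mul_conj,
          Complex.normSq_eq_norm_sq]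
        have hw : ‖(φ x : ℂ)‖ = 1 := by
          refine Complex.norm_eq_one_of_pow_eq_one (n := Nat.card A) ?_ Nat.card_pos.ne'
          rw [← Units.val_pow_eq_pow_val, ← map_pow, pow_card_eq_one', map_one, Units.val_one]
        rw [hw]; simp
      rw [Finset.sum_congr rfl (g := fun x : A => (Nat.card A : ℂ)⁻¹ * ((Nat.card A : ℂ) +
        ∑ g ∈ Finset.univ.filter (· ∉ A), (φ x : ℂ) * conj (Cfsg.extendByZero A (fun y => (φ y : ℂ)) (g⁻¹ * x * g))))
        (fun x _ => by rw [← h1 x, mul_left_comm, Finset.mul_sum (a := (φ x : ℂ))]), ← Finset.mul_sum]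
      rw [Finset.sum_add_distrib, Finset.sum_comm,
        Finset.sum_eq_zero hrest, add_zero, Finset.sum_const, Finset.card_univ, ← Nat.card_eq_fintype_card,
        nsmul_eq_mul, inv_mul_cancel_left₀ hAC]
    rw [hsum, inv_mul_cancel₀ hAC]
  · intro u hu hu1
    rw [Chars.indFun_apply, ← Finset.sum_filter_add_sum_filter_not Finset.univ (· ∈ A),
      Finset.sum_eq_zero (s := Finset.univ.filter (¬ · ∈ A)) (fun g hg => by
        rw [hext, dif_neg]
        intro h
        apply (Finset.mem_filter.mp hg).2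
        rw [hA, mem_stabilizer_iff]
        refine hHfix u hu hu1 _ ?_
        have h' : (g⁻¹ * u * g) • a = a := h
        rwa [mul_smul, mul_smul, inv_smul_eq_iff] at h'),
      add_zero]
    have h := hin ⟨u, hHa hu⟩
    simp only at h
    rw [h, inv_mul_cancel_left₀ hAC]
    exact hμH ⟨u, hHa hu⟩ hu

end Cfsg.Agent.OddChar
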