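import Cfsg.Agent.OddChar.Coherence
import Cfsg.Agent.OddChar.Signed
import Cfsg.Agent.OddChar.InducedSet

/-!
Coherence of sets of irreducible characters, without a hypothesis on complex conjugation.
-/

set_option autoImplicit false
set_option linter.unusedSectionVars false

open scoped Classical ComplexConjugate

namespace Cfsg.Agent.OddChar

/-- Adjoining one irreducible character to a coherent set of irreducible characters. -/
theorem coherent_insert_irr {G : Type*} [Group G] [Fintype G] {N : Type*} [Group N] [Fintype N] (S₀ : Finset (N → ℂ)) (χ : N → ℂ) (hirr : ∀ ξ ∈ S₀, Cfsg.IsIrrCharacter N ξ) (hχ : Cfsg.IsIrrCharacter N χ) (hχS : χ ∉ S₀) (d : (N → ℂ) → ℕ) (hd : ∀ ξ ∈ insert χ S₀, ξ 1 = (d ξ : ℂ)) (τ : (N → ℂ) → (G → ℂ)) (hτ : Cfsg.IsLinearIsometryOn (Cfsg.zspanOn (↑(insert χ S₀) : Set (N → ℂ)) {1}ᶜ) τ) (hτ1 : ∀ α ∈ Cfsg.zspanOn (↑(insert χ S₀) : Set (N → ℂ)) {1}ᶜ, τ α 1 =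 0) (hcoh : Cfsg.IsCoherent (↑S₀ : Set (N → ℂ)) {1}ᶜ τ) (ψ : N → ℂ) (hψ : ψ ∈ S₀) (hdvd : d ψ ∣ d χ) (hlt : 2 * d ψ * d χ < ∑ ξ ∈ S₀, d ξ ^ 2) : Cfsg.IsCoherent (↑(insert χ S₀) : Set (N → ℂ)) {1}ᶜ τ := by
  classical
  obtain ⟨τ₁, hτ₁, hagree⟩ := hcoh.2
  have hS' : (↑(insert χ S₀) : Set (N → ℂ)) = insert χ (S₀ : Set (N → ℂ)) := Finset.coe_insert _ _
  have hsub : (S₀ : Set (N → ℂ)) ⊆ ↑(insert χ S₀) := by rw [hS']; exact Set.subset_insert _ _
  have hdS : ∀ φ ∈ S₀, φ 1 = (d φ : ℂ) := fun φ h => hd φ (Finset.mem_insert_of_mem h)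
  have hdχ : χ 1 = (d χ : ℂ) := hd χ (Finset.mem_insert_self _ _)
  have hdpos : ∀ φ ∈ insert χ S₀, 0 < d φ := by
    intro φ hφ
    have hi : Cfsg.IsIrrCharacter N φ := by
      rcases Finset.mem_insert.mp hφ with h | h
      · exact h ▸ hχ
      · exact hirr φ h
    obtain ⟨k, hk, hk'⟩ := Chars.exists_irr_apply_one_eq hi
    have : (k : ℂ) = (d φ : ℂ) := hk'.symm.trans (hd φ hφ)
    have : k = d φ := by exact_mod_cast this
    omega
  have hmem : ∀ φ ∈ S₀, φ ∈ Cfsg.zspan (S₀ : Set (N → ℂ)) := fun φ h => zspan_subset_apply h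
  obtain ⟨a, ha⟩ := hdvd
  have hu : χ - (a : ℤ) • ψ ∈ Cfsg.zspanOn (↑(insert χ S₀) : Set (N → ℂ)) {1}ᶜ :=
    mem_zspanOn_one.mpr ⟨zspan_sub_mem
      (zspan_subset_apply (by simp)) (zspan_zsmul_mem
        (zspan_subset_apply (hsub hψ)) _), by simp [hdχ, hdS ψ hψ, ha, mul_comm]⟩
  set β := τ (χ - (a : ℤ) • ψ) with hβ
  have hβg : Cfsg.IsGeneralizedCharacter G β := hτ.2.2.2 _ hu
  have horth : ∀ φ ∈ S₀, Cfsg.classInner χ φ = 0 := fun φ h =>
    Chars.classInner_irr_of_ne hχ (hirr φ h) fun he => hχS (he ▸ h)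
  choose c hc using fun (φ : {φ // φ ∈ S₀}) =>
    exists_classInner_eq_int hβg (hτ₁.2.2.2 φ.1 (hmem φ.1 φ.2))
  set e : {φ // φ ∈ S₀} := ⟨ψ, hψ⟩ with he
  set m : ℤ := c e + a with hm
  have hcφ : ∀ φ : {φ // φ ∈ S₀},
      (d ψ : ℤ) * c φ = d φ.1 * m - if φ = e then (a : ℤ) * d ψ else 0 := by
    intro φ
    have hδ₁ : (d ψ : ℤ) • φ.1 ∈ Cfsg.zspan (S₀ : Set (N → ℂ)) := zspan_zsmul_mem (hmem φ.1 φ.2) _
    have hδ₂ : (d φ.1 : ℤ) • ψ ∈ Cfsg.zspan (S₀ : Set (N → ℂ)) := zspan_zsmul_mem (hmem ψ hψ) _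
    have hδE : (d ψ : ℤ) • φ.1 - (d φ.1 : ℤ) • ψ ∈ Cfsg.zspanOn (S₀ : Set (N → ℂ)) {1}ᶜ :=
      mem_zspanOn_one.mpr ⟨zspan_sub_mem hδ₁ hδ₂, by
        simp [hdS φ.1 φ.2, hdS ψ hψ, mul_comm]⟩
    have h1 : Cfsg.classInner β (τ ((d ψ : ℤ) • φ.1 - (d φ.1 : ℤ) • ψ)) =
        Cfsg.classInner (χ - (a : ℤ) • ψ) ((d ψ : ℤ) • φ.1 - (d φ.1 : ℤ) • ψ) :=
      hτ.2.2.1 _ hu _ (zspanOn_mono hsub hδE)
    rw [← hagree _ hδE, iso_map_sub hτ₁ hδE.1 hδ₂, hτ₁.2.1 _ (hmem φ.1 φ.2),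
      hτ₁.2.1 _ (hmem ψ hψ), Chars.classInner_sub_right, classInner_zsmul_right,
      classInner_zsmul_right, hc φ, show Cfsg.classInner β (τ₁ ψ) = c e from hc e,
      Chars.classInner_sub_left, Chars.classInner_sub_right, Chars.classInner_sub_right,
      classInner_zsmul_left, classInner_zsmul_left, classInner_zsmul_right,
      classInner_zsmul_right, classInner_zsmul_right, classInner_zsmul_right,
      horth φ.1 φ.2, horth ψ hψ, Chars.classInner_self_irr (hirr ψ hψ)] at h1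
    by_cases hφe : φ = e
    · subst hφe
      rw [if_pos rfl, hm]
      simp only [he]
      ring
    · rw [if_neg hφe, sub_zero]
      rw [Chars.classInner_irr_of_ne (hirr ψ hψ) (hirr φ.1 φ.2)
        (fun h => hφe (Subtype.ext h.symm))] at h1
      have h2 : (((d ψ : ℤ) * c φ : ℤ) : ℂ) = ((d φ.1 * m : ℤ) : ℂ) := by
        rw [hm]; push_cast at h1 ⊢; linear_combination h1
      exact_mod_cast h2
  set dSum : ℤ := ∑ φ : {φ // φ ∈ S₀}, (d φ.1 : ℤ) ^ 2 with hSig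
  have hSiggt : 2 * (a : ℤ) * (d ψ : ℤ) ^ 2 < dSum := by
    have h : ((2 * d ψ * d χ : ℕ) : ℤ) < ((∑ ξ ∈ S₀, d ξ ^ 2 : ℕ) : ℤ) := by exact_mod_cast hlt
    rw [ha] at h
    push_cast at h
    rw [hSig, ← Finset.sum_coe_sort S₀] at *
    linarith
  have hQ : (d ψ : ℤ) ^ 2 * ∑ φ, c φ ^ 2 =
      m ^ 2 * dSum - 2 * a * (d ψ : ℤ) ^ 2 * m + (a : ℤ) ^ 2 * (d ψ : ℤ) ^ 2 := by
    have hterm : ∀ φ : {φ // φ ∈ S₀}, (d ψ : ℤ) ^ 2 * c φ ^ 2 = m ^ 2 * (d φ.1 : ℤ) ^ 2 +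
        if φ = e then (a : ℤ) ^ 2 * (d ψ : ℤ) ^ 2 - 2 * a * (d ψ : ℤ) ^ 2 * m else 0 := by
      intro φ
      rw [← mul_pow, hcφ φ]
      by_cases hφe : φ = e
      · subst hφe; rw [if_pos rfl, if_pos rfl]; simp only [he]; ring
      · rw [if_neg hφe, if_neg hφe]; ring
    rw [Finset.mul_sum, Finset.sum_congr rfl fun φ _ => hterm φ, Finset.sum_add_distrib,
      ← Finset.mul_sum, Finset.sum_ite_eq' Finset.univ e, if_pos (Finset.mem_univ e)]
    ring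
  set P : G → ℂ := ∑ φ : {φ // φ ∈ S₀}, c φ • τ₁ φ.1 with hP
  have hPg : Cfsg.IsGeneralizedCharacter G P :=
    virt_sum _ _ fun φ _ => virt_zsmul (hτ₁.2.2.2 φ.1 (hmem φ.1 φ.2)) _
  have iPφ : ∀ ξ : {φ // φ ∈ S₀}, Cfsg.classInner P (τ₁ ξ.1) = (c ξ : ℂ) := by
    intro ξ
    rw [hP, Chars.classInner_sum_left, Finset.sum_eq_single ξ]
    · rw [classInner_zsmul_left, hτ₁.2.2.1 ξ.1 (hmem ξ.1 ξ.2) ξ.1 (hmem ξ.1 ξ.2),
        Chars.classInner_self_irr (hirr ξ.1 ξ.2), mul_one]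
    · intro φ _ hφ
      rw [classInner_zsmul_left, hτ₁.2.2.1 φ.1 (hmem φ.1 φ.2) ξ.1 (hmem ξ.1 ξ.2),
        Chars.classInner_irr_of_ne (hirr φ.1 φ.2) (hirr ξ.1 ξ.2) (fun h => hφ (Subtype.ext h)),
        mul_zero]
    · simp
  have iβP : Cfsg.classInner β P = ((∑ φ, c φ ^ 2 : ℤ) : ℂ) := by
    rw [hP, Chars.classInner_sum_right]
    push_cast
    exact Finset.sum_congr rfl fun φ _ => by rw [classInner_zsmul_right, hc φ]; ring
  have iPP : Cfsg.classInner P P = ((∑ φ, c φ ^ 2 : ℤ) : ℂ) := by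
    conv_lhs => arg 2; rw [hP]
    rw [Chars.classInner_sum_right]
    push_cast
    exact Finset.sum_congr rfl fun φ _ => by rw [classInner_zsmul_right, iPφ φ]; ring
  have iββ : Cfsg.classInner β β = ((1 + (a : ℤ) ^ 2 : ℤ) : ℂ) := by
    rw [hβ, hτ.2.2.1 _ hu _ hu, Chars.classInner_sub_left, Chars.classInner_sub_right,
      Chars.classInner_sub_right, classInner_zsmul_left, classInner_zsmul_right,
      classInner_zsmul_left, classInner_zsmul_right, horth ψ hψ,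
      show Cfsg.classInner ψ χ = 0 by rw [← Chars.classInner_conj_symm, horth ψ hψ, map_zero],
      Chars.classInner_self_irr hχ, Chars.classInner_self_irr (hirr ψ hψ)]
    push_cast; ring
  have iW : Cfsg.classInner (β - P) (β - P) = ((1 + (a : ℤ) ^ 2 - ∑ φ, c φ ^ 2 : ℤ) : ℂ) := by
    rw [Chars.classInner_sub_left, Chars.classInner_sub_right, Chars.classInner_sub_right, iββ, iβP,
      iPP, ← classInner_symm_of_virt hβg hPg, iβP]
    push_cast; ring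
  have hz0 : 0 ≤ 1 + (a : ℤ) ^ 2 - ∑ φ, c φ ^ 2 := by
    have := classInner_self_re_nonneg (β - P)
    rw [iW, Complex.intCast_re] at this
    exact_mod_cast this
  have hm0 : m = 0 := by
    by_contra hm0
    have h1 : 1 ≤ |m| := Int.one_le_abs hm0
    have h3 : 0 ≤ 2 * (a : ℤ) * (d ψ : ℤ) ^ 2 := by positivity
    have hmm : m ≤ m ^ 2 := Int.le_self_sq m
    have hm2 : 0 < m ^ 2 := by positivity
    have hpos : 0 < m ^ 2 * dSum - 2 * a * (d ψ : ℤ) ^ 2 * m := by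
      nlinarith [mul_lt_mul_of_pos_left hSiggt hm2, mul_le_mul_of_nonneg_left hmm h3]
    have hd0 : 0 < (d ψ : ℤ) := by exact_mod_cast hdpos ψ (Finset.mem_insert_of_mem hψ)
    have hzero : 1 + (a : ℤ) ^ 2 - ∑ φ, c φ ^ 2 = 0 := by
      by_contra hne
      have : (1 : ℤ) ≤ 1 + (a : ℤ) ^ 2 - ∑ φ, c φ ^ 2 := by omega
      nlinarith [mul_le_mul_of_nonneg_left this (sq_nonneg (d ψ : ℤ))]
    have hW : β - P = 0 := eq_zero_of_classInner_self_re (by rw [iW, hzero]; simp)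
    have hP1 : P 1 = 0 := by rw [← sub_eq_zero.mp hW]; exact hτ1 _ hu
    -- degrees of the images are proportional to the degrees
    have hrel : ∀ φ : {φ // φ ∈ S₀}, (d ψ : ℂ) * τ₁ φ.1 1 = (d φ.1 : ℂ) * τ₁ ψ 1 := by
      intro φ
      have hδ₂ : (d φ.1 : ℤ) • ψ ∈ Cfsg.zspan (S₀ : Set (N → ℂ)) := zspan_zsmul_mem (hmem ψ hψ) _
      have hδE : (d ψ : ℤ) • φ.1 - (d φ.1 : ℤ) • ψ ∈ Cfsg.zspanOn (S₀ : Set (N → ℂ)) {1}ᶜ :=
        mem_zspanOn_one.mpr ⟨zspan_sub_mem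
          (zspan_zsmul_mem (hmem φ.1 φ.2) _) hδ₂, by simp [hdS φ.1 φ.2, hdS ψ hψ, mul_comm]⟩
      have h := hτ1 _ (zspanOn_mono hsub hδE)
      rw [← hagree _ hδE, iso_map_sub hτ₁ hδE.1 hδ₂, hτ₁.2.1 _ (hmem φ.1 φ.2),
        hτ₁.2.1 _ (hmem ψ hψ)] at h
      simpa [sub_eq_zero] using h
    have ht : τ₁ ψ 1 ≠ 0 :=
      IsSigned.apply_one_ne_zero (virt_norm_one (hτ₁.2.2.2 ψ (hmem ψ hψ))
        (by rw [hτ₁.2.2.1 ψ (hmem ψ hψ) ψ (hmem ψ hψ), Chars.classInner_self_irr (hirr ψ hψ)]))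
    have hsum : ((m * dSum - (a : ℤ) * (d ψ : ℤ) ^ 2 : ℤ) : ℂ) * τ₁ ψ 1 = 0 := by
      have e1 : (d ψ : ℂ) ^ 2 * P 1 = ((∑ φ, (d ψ : ℤ) * c φ * d φ.1 : ℤ) : ℂ) * τ₁ ψ 1 := by
        simp only [hP, Finset.sum_apply, Pi.smul_apply, zsmul_eq_mul, Pi.mul_apply, Pi.intCast_apply, Int.cast_sum, Int.cast_mul,
          Int.cast_natCast, Finset.mul_sum, Finset.sum_mul]
        refine Finset.sum_congr rfl fun φ _ => ?_
        linear_combination ((d ψ : ℂ) * (c φ : ℂ)) * hrel φ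
      have e2 : ∑ φ, (d ψ : ℤ) * c φ * d φ.1 = m * dSum - (a : ℤ) * (d ψ : ℤ) ^ 2 := by
        simp only [hcφ, sub_mul, ite_mul, zero_mul, Finset.sum_sub_distrib]
        rw [Finset.sum_ite_eq' Finset.univ e, if_pos (Finset.mem_univ e), hSig, Finset.mul_sum]
        simp only [he]
        congr 1
        · exact Finset.sum_congr rfl fun φ _ => by ring
        · ring
      rw [← e2, ← e1, hP1, mul_zero]
    have hmS := (mul_eq_zero.mp hsum).resolve_right ht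
    have hmS' : m * dSum - (a : ℤ) * (d ψ : ℤ) ^ 2 = 0 := by exact_mod_cast hmS
    have ha0 : 0 < (a : ℤ) := by
      have := hdpos χ (Finset.mem_insert_self _ _)
      rcases Nat.eq_zero_or_pos a with h | h
      · rw [ha, h] at this; simp at this
      · exact_mod_cast h
    rcases le_or_gt m 0 with hneg | hneg
    · nlinarith [mul_pos ha0 (pow_pos hd0 2)]
    · nlinarith [mul_pos ha0 (pow_pos hd0 2)]
  have hce : ∀ φ : {φ // φ ∈ S₀}, c φ = if φ = e then -(a : ℤ) else 0 := by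
    intro φ
    have h := hcφ φ
    rw [hm0, mul_zero] at h
    refine mul_left_cancel₀ (a := (d ψ : ℤ))
      (by exact_mod_cast (hdpos ψ (Finset.mem_insert_of_mem hψ)).ne') ?_
    rw [h]; split_ifs <;> ring
  have hPval : P = -((a : ℤ) • τ₁ ψ) := by
    rw [hP, Finset.sum_eq_single e (fun φ _ h => by rw [hce φ, if_neg h, zero_smul]) (by simp),
      hce e, if_pos rfl, neg_smul]
  have hsum2 : ∑ φ, c φ ^ 2 = (a : ℤ) ^ 2 := by
    rw [Finset.sum_eq_single e (fun φ _ h => by rw [hce φ, if_neg h]; simp) (by simp),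
      hce e, if_pos rfl, neg_sq]
  obtain ⟨τ₂, hτ₂, hag₂, -, -⟩ := coherent_insert hτ S₀ χ (by rw [hS'])
    (orthFamily_of_irr (by
      rintro φ (rfl | h)
      exacts [hχ, hirr φ h])) hχS ψ hψ a
    (by simp [hdχ, hdS ψ hψ, ha, mul_comm]) τ₁ hτ₁ hagree (β - P) (virt_sub hβg hPg)
    (by rw [iW, hsum2, Chars.classInner_self_irr hχ]; simp)
    (fun φ hφ => by
      rw [Chars.classInner_sub_left, hc ⟨φ, hφ⟩, iPφ ⟨φ, hφ⟩, sub_self])
    (by rw [hPval, hβ]; abel)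
  obtain ⟨α, hα, hα0⟩ := hcoh.1
  rw [Finset.coe_insert]
  exact ⟨⟨α, zspanOn_mono (Set.subset_insert _ _) hα, hα0⟩, τ₂, hτ₂, hag₂⟩

theorem sum_neg_smul_sub {ι M : Type*} [AddCommGroup M] (F : Finset ι) (c : ι → ℤ)
    (hsum : ∑ φ ∈ F, c φ = 0) (f : ι → M) (b : M) :
    ∑ φ ∈ F, (-c φ) • (b - f φ) = ∑ φ ∈ F, c φ • f φ := by
  simp only [smul_sub, neg_smul, sub_neg_eq_add, Finset.sum_add_distrib, Finset.sum_neg_distrib,
    ← Finset.sum_smul, hsum, zero_smul, neg_zero, zero_add]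

/-- Irreducible characters of one degree form a coherent set. -/
theorem coherent_irr_equal_degree {N : Type*} [Group N] [Fintype N] {G : Type*} [Group G]
    [Fintype G] (S : Set (N → ℂ)) (hirr : ∀ φ ∈ S, Cfsg.IsIrrCharacter N φ)
    (htwo : ∃ x ∈ S, ∃ y ∈ S, x ≠ y) (hdeg : ∀ φ ∈ S, ∀ ψ ∈ S, φ 1 = ψ 1)
    (τ : (N → ℂ) → (G → ℂ)) (hτ : Cfsg.IsLinearIsometryOn (Cfsg.zspanOn S {1}ᶜ) τ)
    (hτ1 : ∀ α ∈ Cfsg.zspanOn S {1}ᶜ, τ α 1 = 0) : Cfsg.IsCoherent S {1}ᶜ τ := by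
  obtain ⟨x₀, hx₀, x₁, hx₁, hx01⟩ := htwo
  have hO := orthFamily_of_irr hirr
  have hfin : S.Finite := hO.finite
  set F := hfin.toFinset with hFdef
  have hFS : (↑F : Set (N → ℂ)) = S := hfin.coe_toFinset
  have hmemF : ∀ {φ}, φ ∈ F ↔ φ ∈ S := fun {φ} => hfin.mem_toFinset
  have hd : ∀ φ ∈ S, ∀ ψ ∈ S, φ - ψ ∈ Cfsg.zspanOn S {1}ᶜ := fun φ hφ ψ hψ =>
    mem_zspanOn_one.mpr ⟨zspan_sub_mem (zspan_subset_apply hφ) (zspan_subset_apply hψ),
      by simp [hdeg φ hφ ψ hψ]⟩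
  have hD : ∀ φ : {φ // φ ∈ S ∧ φ ≠ x₀}, ∃ μ ν : G → ℂ, Cfsg.IsIrrCharacter G μ ∧
      Cfsg.IsIrrCharacter G ν ∧ μ ≠ ν ∧ τ (x₀ - φ.1) = μ - ν := by
    intro φ
    refine virt_norm_two (hτ.2.2.2 _ (hd _ hx₀ _ φ.2.1)) ?_ (hτ1 _ (hd _ hx₀ _ φ.2.1))
    rw [hτ.2.2.1 _ (hd _ hx₀ _ φ.2.1) _ (hd _ hx₀ _ φ.2.1), Chars.classInner_sub_left,
      Chars.classInner_sub_right, Chars.classInner_sub_right, Chars.classInner_self_irr (hirr _ hx₀),
      Chars.classInner_self_irr (hirr _ φ.2.1),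
      Chars.classInner_irr_of_ne (hirr _ hx₀) (hirr _ φ.2.1) (Ne.symm φ.2.2),
      Chars.classInner_irr_of_ne (hirr _ φ.2.1) (hirr _ hx₀) φ.2.2]
    norm_num
  choose μ ν hμ hν hμν hval using hD
  have hshare : ∀ i j, i ≠ j → (μ i = μ j ∧ ν i ≠ ν j) ∨ (ν i = ν j ∧ μ i ≠ μ j) := by
    intro i j hij
    have hij' : i.1 ≠ j.1 := fun h => hij (Subtype.ext h)
    have h := hτ.2.2.1 _ (hd _ hx₀ _ i.2.1) _ (hd _ hx₀ _ j.2.1)
    rw [hval, hval] at h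
    simp only [Chars.classInner_sub_left, Chars.classInner_sub_right,
      Chars.classInner_irr (hμ i) (hμ j), Chars.classInner_irr (hν i) (hν j),
      Chars.classInner_irr (hμ i) (hν j), Chars.classInner_irr (hν i) (hμ j),
      Chars.classInner_self_irr (hirr _ hx₀),
      Chars.classInner_irr_of_ne (hirr _ hx₀) (hirr _ j.2.1) (Ne.symm j.2.2),
      Chars.classInner_irr_of_ne (hirr _ i.2.1) (hirr _ hx₀) i.2.2,
      Chars.classInner_irr_of_ne (hirr _ i.2.1) (hirr _ j.2.1) hij'] at h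
    by_cases h1 : μ i = μ j
    · refine Or.inl ⟨h1, fun h2 => ?_⟩
      have a1 : μ i ≠ ν j := h1 ▸ hμν j
      have a2 : ν i ≠ μ j := h1 ▸ (hμν i).symm
      rw [if_pos h1, if_pos h2, if_neg a1, if_neg a2] at h
      norm_num at h
    · by_cases h2 : ν i = ν j
      · exact Or.inr ⟨h2, h1⟩
      · rw [if_neg h1, if_neg h2] at h
        split_ifs at h <;> norm_num at h
  set i₁ : {φ // φ ∈ S ∧ φ ≠ x₀} := ⟨x₁, hx₁, hx01.symm⟩
  -- one of the two constituents is common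
  have hcommon : (∀ i j, i ≠ j → μ i = μ j) ∨ (∀ i j, i ≠ j → ν i = ν j) := by
    by_contra hcon
    push Not at hcon
    obtain ⟨⟨i, j, hij, hne⟩, k, l, hkl, hne'⟩ := hcon
    have hνij : ν i = ν j := ((hshare i j hij).resolve_left fun h => hne h.1).1
    have hμkl : μ k = μ l := ((hshare k l hkl).resolve_right fun h => hne' h.1).1
    have key : ∀ m, ν m = ν i := by
      intro m
      by_cases hmi : m = i
      · rw [hmi]
      rcases hshare m i hmi with h | h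
      · by_cases hmj : m = j
        · exact hmj ▸ hνij.symm
        rcases hshare m j hmj with h' | h'
        · exact absurd (h.1.symm.trans h'.1) hne
        · exact h'.1.trans hνij.symm
      · exact h.1
    exact hne' ((key k).trans (key l).symm)
  obtain ⟨base, v, hbv, hbg, hvg⟩ : ∃ (base : G → ℂ) (v : {φ // φ ∈ S ∧ φ ≠ x₀} → (G → ℂ)),
      (∀ i, τ (x₀ - i.1) = base - v i) ∧
      (Cfsg.IsIrrCharacter G base ∨ Cfsg.IsIrrCharacter G (-base)) ∧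
      (∀ i, Cfsg.IsIrrCharacter G (v i) ∨ Cfsg.IsIrrCharacter G (-v i)) := by
    rcases hcommon with h | h
    · refine ⟨μ i₁, ν, fun i => ?_, Or.inl (hμ _), fun i => Or.inl (hν i)⟩
      rw [hval i]
      by_cases hi : i = i₁
      · rw [hi]
      · rw [h i i₁ hi]
    · refine ⟨-ν i₁, fun i => -μ i, fun i => ?_, Or.inr (by rw [neg_neg]; exact hν _),
        fun i => Or.inr (by rw [neg_neg]; exact hμ i)⟩
      rw [hval i]
      by_cases hi : i = i₁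
      · rw [hi]; exact (neg_sub_neg _ _).symm
      · rw [h i i₁ hi]; exact (neg_sub_neg _ _).symm
  set w : (N → ℂ) → (G → ℂ) := fun φ =>
    if h : φ ∈ S ∧ φ ≠ x₀ then v ⟨φ, h⟩ else base with hw
  have hw0 : w x₀ = base := dif_neg fun h => h.2 rfl
  have hwd : ∀ φ ∈ S, τ (x₀ - φ) = base - w φ := by
    intro φ hφ
    by_cases h : φ = x₀
    · subst h
      rw [hw0, sub_self, sub_self]
      exact iso_map_zero hτ (zspanOn_zero_mem S)
    · rw [show w φ = v ⟨φ, hφ, h⟩ from dif_pos ⟨hφ, h⟩]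
      exact hbv ⟨φ, hφ, h⟩
  have hnorm : ∀ f : G → ℂ, Cfsg.IsIrrCharacter G f ∨ Cfsg.IsIrrCharacter G (-f) →
      Cfsg.classInner f f = 1 := by
    rintro f (h | h)
    · exact Chars.classInner_self_irr h
    · have := Chars.classInner_self_irr h
      rwa [Chars.classInner_neg_left, ← Chars.classInner_conj_symm, Chars.classInner_neg_left,
        map_neg, Chars.classInner_conj_symm, neg_neg] at this
  have hvirt : ∀ f : G → ℂ, Cfsg.IsIrrCharacter G f ∨ Cfsg.IsIrrCharacter G (-f) →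
      Cfsg.IsGeneralizedCharacter G f := by
    rintro f (h | h)
    · exact virt_of_irr h
    · simpa using virt_neg (virt_of_irr h)
  have hws : ∀ φ ∈ S, Cfsg.IsIrrCharacter G (w φ) ∨ Cfsg.IsIrrCharacter G (-w φ) := by
    intro φ hφ
    by_cases h : φ = x₀
    · rw [h, hw0]; exact hbg
    · rw [show w φ = v ⟨φ, hφ, h⟩ from dif_pos ⟨hφ, h⟩]; exact hvg _
  have hb : ∀ φ ∈ S, φ ≠ x₀ → Cfsg.classInner base (w φ) = 0 ∧ Cfsg.classInner (w φ) base = 0 := by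
    intro φ hφ hne
    have h := hτ.2.2.1 _ (hd _ hx₀ _ hφ) _ (hd _ hx₀ _ hφ)
    rw [hwd φ hφ] at h
    simp only [Chars.classInner_sub_left, Chars.classInner_sub_right, hnorm _ hbg,
      hnorm _ (hws φ hφ), Chars.classInner_self_irr (hirr _ hx₀),
      Chars.classInner_self_irr (hirr _ hφ),
      Chars.classInner_irr_of_ne (hirr _ hx₀) (hirr _ hφ) hne.symm,
      Chars.classInner_irr_of_ne (hirr _ hφ) (hirr _ hx₀) hne] at h
    obtain ⟨z, hz⟩ := exists_classInner_eq_int (hvirt _ hbg) (hvirt _ (hws φ hφ))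
    have hz' : Cfsg.classInner (w φ) base = (z : ℂ) := by
      rw [← Chars.classInner_conj_symm, hz, map_intCast]
    rw [hz, hz'] at h
    have hzz : (z : ℂ) = 0 := by linear_combination (-1 / 2 : ℂ) * h
    exact ⟨hz.trans hzz, hz'.trans hzz⟩
  have hgram : ∀ φ ∈ S, ∀ ξ ∈ S, Cfsg.classInner (w φ) (w ξ) = Cfsg.classInner φ ξ := by
    intro φ hφ ξ hξ
    by_cases he : φ = ξ
    · rw [he, hnorm _ (hws ξ hξ), Chars.classInner_self_irr (hirr ξ hξ)]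
    rw [Chars.classInner_irr_of_ne (hirr φ hφ) (hirr ξ hξ) he]
    by_cases h1 : φ = x₀
    · rw [h1, hw0]; exact (hb ξ hξ (fun h => he (h1.trans h.symm))).1
    by_cases h2 : ξ = x₀
    · rw [h2, hw0]; exact (hb φ hφ h1).2
    have h := hτ.2.2.1 _ (hd _ hx₀ _ hφ) _ (hd _ hx₀ _ hξ)
    rw [hwd φ hφ, hwd ξ hξ] at h
    simp only [Chars.classInner_sub_left, Chars.classInner_sub_right, hnorm _ hbg,
      (hb φ hφ h1).2, (hb ξ hξ h2).1, Chars.classInner_self_irr (hirr _ hx₀),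
      Chars.classInner_irr_of_ne (hirr _ hx₀) (hirr _ hξ) (Ne.symm h2),
      Chars.classInner_irr_of_ne (hirr _ hφ) (hirr _ hx₀) h1,
      Chars.classInner_irr_of_ne (hirr _ hφ) (hirr _ hξ) he] at h
    linear_combination h
  have hO' : OrthFamily (↑F : Set (N → ℂ)) := by rw [hFS]; exact hO
  have hiso := orthExtend_isometry hO' w (fun φ hφ => hvirt _ (hws φ (hmemF.mp hφ)))
    (fun φ hφ ξ hξ => hgram φ (hmemF.mp hφ) ξ (hmemF.mp hξ))
  rw [hFS] at hiso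
  refine ⟨⟨x₀ - x₁, hd _ hx₀ _ hx₁, sub_ne_zero.mpr hx01⟩, orthExtend F w, hiso, fun α hα => ?_⟩
  obtain ⟨hαs, hα1⟩ := mem_zspanOn_one.mp hα
  rw [← hFS] at hαs
  obtain ⟨c, rfl⟩ := exists_int_coords hαs
  have hsum : ∑ φ ∈ F, c φ = 0 := by
    rw [Finset.sum_apply, Finset.sum_congr rfl (g := fun φ => (c φ : ℂ) * x₀ 1) (fun φ hφ => by
      rw [Pi.smul_apply, zsmul_eq_mul, hdeg φ (hmemF.mp hφ) x₀ hx₀]), ← Finset.sum_mul] at hα1
    have := (mul_eq_zero.mp hα1).resolve_right (Chars.irr_apply_one_ne_zero (hirr _ hx₀))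
    exact_mod_cast this
  have hterm : ∀ φ ∈ F, (-c φ) • (x₀ - φ) ∈ Cfsg.zspanOn S {1}ᶜ := fun φ hφ =>
    zspanOn_zsmul_mem (hd _ hx₀ _ (hmemF.mp hφ)) _
  calc orthExtend F w (∑ φ ∈ F, c φ • φ) = ∑ φ ∈ F, c φ • w φ := by
        rw [map_sum]
        exact Finset.sum_congr rfl fun φ hφ => by rw [map_zsmul, orthExtend_apply hO' w hφ]
    _ = ∑ φ ∈ F, (-c φ) • (base - w φ) := (sum_neg_smul_sub F c hsum w base).symm
    _ = ∑ φ ∈ F, τ ((-c φ) • (x₀ - φ)) := Finset.sum_congr rfl fun φ hφ => by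
        rw [hτ.2.1 _ (hd _ hx₀ _ (hmemF.mp hφ)), hwd φ (hmemF.mp hφ)]
    _ = τ (∑ φ ∈ F, (-c φ) • (x₀ - φ)) :=
        (iso_map_sum hτ (zspanOn_zero_mem S) (fun _ ha _ hb => zspanOn_add_mem ha hb) F _ hterm).symm
    _ = τ (∑ φ ∈ F, c φ • φ) := by rw [sum_neg_smul_sub F c hsum (fun φ => φ) x₀]

end Cfsg.Agent.OddChar
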