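import Cfsg.Agent.OddChar.FrobSetup
import Cfsg.Agent.OddChar.IrrCoherence
import Cfsg.Agent.OddChar.ProdChar

/-!
Feit's coherence theorem for a nilpotent kernel containing the centralizers of its nonidentity
elements: the characters are adjoined by increasing degree.
-/

set_option autoImplicit false
set_option linter.unusedSectionVars false

open scoped Classical ComplexConjugate

namespace Cfsg.Agent.OddChar

section degree

variable {L : Type*} [Group L] [Fintype L] {G : Type*} [Group G] [Fintype G]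

theorem coherent_irr_extend {S : Set (L → ℂ)} (hirr : ∀ φ ∈ S, Cfsg.IsIrrCharacter L φ)
    (τ : (L → ℂ) → (G → ℂ)) (hτ : Cfsg.IsLinearIsometryOn (Cfsg.zspanOn S {1}ᶜ) τ)
    (hτ1 : ∀ α ∈ Cfsg.zspanOn S {1}ᶜ, τ α 1 = 0) (S₁ : Finset (L → ℂ)) (hS₁ : ↑S₁ ⊆ S)
    (hcoh : Cfsg.IsCoherent (↑S₁ : Set (L → ℂ)) {1}ᶜ τ) {χ₁ : L → ℂ} (hχ₁ : χ₁ ∈ S₁) :
    ∀ T : Finset (L → ℂ), ↑T ⊆ S →
      (∀ χ ∈ T, χ ∈ S₁ ∨ (deg χ₁ ∣ deg χ ∧ 2 * deg χ₁ * deg χ < ∑ φ ∈ S₁, deg φ ^ 2)) →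
      Cfsg.IsCoherent (↑(S₁ ∪ T) : Set (L → ℂ)) {1}ᶜ τ := by
  intro T
  induction T using Finset.induction_on with
  | empty => intro _ _; rwa [Finset.union_empty]
  | insert χ T hχT ih =>
    intro hTS hcond
    have hTS' : (↑T : Set (L → ℂ)) ⊆ S := fun x hx => hTS (Finset.mem_insert_of_mem hx)
    have hc := ih hTS' fun x hx => hcond x (Finset.mem_insert_of_mem hx)
    rw [Finset.union_insert]
    by_cases hmem : χ ∈ S₁ ∪ T
    · rwa [Finset.insert_eq_of_mem hmem]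
    obtain ⟨hdvd, hlt⟩ :=
      (hcond χ (Finset.mem_insert_self _ _)).resolve_left fun h => hmem (Finset.mem_union_left _ h)
    have hU : (↑(insert χ (S₁ ∪ T)) : Set (L → ℂ)) ⊆ S := by
      intro x hx
      rcases Finset.mem_insert.mp hx with h | h
      · exact h ▸ hTS (Finset.mem_insert_self _ _)
      · rcases Finset.mem_union.mp h with h | h
        · exact hS₁ h
        · exact hTS' h
    exact coherent_insert_irr (S₁ ∪ T) χ (fun ξ hξ => hirr ξ (hU (Finset.mem_insert_of_mem hξ)))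
      (hirr χ (hU (Finset.mem_insert_self _ _))) hmem deg
      (fun ξ hξ => deg_spec (Chars.isCharacter_of_isIrr (hirr ξ (hU hξ)))) τ
      (isometryOn_mono hτ (zspanOn_mono hU)) (fun α hα => hτ1 α (zspanOn_mono hU hα)) hc χ₁
      (Finset.mem_union_left _ hχ₁) hdvd
      (lt_of_lt_of_le hlt (Finset.sum_le_sum_of_subset Finset.subset_union_left))

theorem coherent_irr_by_degree {S : Set (L → ℂ)} (hirr : ∀ φ ∈ S, Cfsg.IsIrrCharacter L φ)
    (τ : (L → ℂ) → (G → ℂ)) (hτ : Cfsg.IsLinearIsometryOn (Cfsg.zspanOn S {1}ᶜ) τ)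
    (hτ1 : ∀ α ∈ Cfsg.zspanOn S {1}ᶜ, τ α 1 = 0) (F : Finset (L → ℂ))
    (hF : (↑F : Set (L → ℂ)) = S) {χ₁ χ₂ : L → ℂ} (h₁ : χ₁ ∈ F) (h₂ : χ₂ ∈ F) (hne : χ₁ ≠ χ₂)
    (heq : deg χ₂ = deg χ₁) (hmin : ∀ φ ∈ F, deg χ₁ ∣ deg φ)
    (hineq : ∀ χ ∈ F, deg χ₁ < deg χ →
      2 * deg χ₁ * deg χ < ∑ φ ∈ F.filter (fun φ => deg φ < deg χ), deg φ ^ 2) :
    Cfsg.IsCoherent S {1}ᶜ τ := by
  set lev : ℕ → Finset (L → ℂ) := fun f => F.filter fun φ => deg φ ≤ f with hlev
  have hsub : ∀ f, (↑(lev f) : Set (L → ℂ)) ⊆ S := fun f x hx => by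
    rw [← hF]; exact Finset.filter_subset _ _ hx
  have hstep : ∀ k, Cfsg.IsCoherent (↑(lev (deg χ₁ + k)) : Set (L → ℂ)) {1}ᶜ τ := by
    intro k
    induction k with
    | zero =>
      refine coherent_irr_equal_degree _ (fun φ hφ => hirr φ (hsub _ hφ))
        ⟨χ₁, by simp [hlev, h₁], χ₂, by simp [hlev, h₂, heq], hne⟩ (fun φ hφ ψ hψ => ?_) τ
        (isometryOn_mono hτ (zspanOn_mono (hsub _))) (fun α hα => hτ1 α (zspanOn_mono (hsub _) hα))
      have hφi := hirr φ (hsub _ hφ)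
      have hψi := hirr ψ (hsub _ hψ)
      simp only [Nat.add_zero, hlev, Finset.coe_filter, Set.mem_setOf_eq] at hφ hψ
      rw [deg_spec (Chars.isCharacter_of_isIrr hφi), deg_spec (Chars.isCharacter_of_isIrr hψi),
        le_antisymm hφ.2 (Nat.le_of_dvd (deg_pos_irr hφi) (hmin φ hφ.1)),
        le_antisymm hψ.2 (Nat.le_of_dvd (deg_pos_irr hψi) (hmin ψ hψ.1))]
    | succ k ih =>
      have h := coherent_irr_extend hirr τ hτ hτ1 _ (hsub _) ih
        (show χ₁ ∈ lev (deg χ₁ + k) by simp [hlev, h₁]) (lev (deg χ₁ + (k + 1))) (hsub _) ?_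
      · rwa [Finset.union_eq_right.mpr] at h
        intro x hx
        simp only [hlev, Finset.mem_filter] at hx ⊢
        exact ⟨hx.1, by omega⟩
      · intro χ hχ
        simp only [hlev, Finset.mem_filter] at hχ
        by_cases hle : deg χ ≤ deg χ₁ + k
        · left; simp [hlev, hχ.1, hle]
        · right
          refine ⟨hmin χ hχ.1, ?_⟩
          have he : F.filter (fun φ => deg φ < deg χ) = lev (deg χ₁ + k) :=
            Finset.filter_congr fun φ _ => by omega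
          rw [← he]
          exact hineq χ hχ.1 (by omega)
  have hmax : lev (deg χ₁ + F.sup deg) = F :=
    Finset.filter_true_of_mem fun φ hφ => le_trans (Finset.le_sup hφ) (Nat.le_add_left _ _)
  have h := hstep (F.sup deg)
  rwa [hmax, hF] at h

end degree

section feit

variable {L : Type*} [Group L] [Fintype L] {K : Subgroup L} [hKn : K.Normal]

theorem frob_orbit (hC : ∀ k ∈ K, k ≠ 1 → Subgroup.centralizer ({k} : Set L) ≤ K) {θ : K → ℂ}
    (hθ : Cfsg.IsIrrCharacter K θ) (hne : θ ≠ fun _ => 1) :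
    (Finset.univ.image fun g : L => cj θ g).card = K.index := by
  have hcl := Chars.isClassFunction_of_isCharacter (Chars.isCharacter_of_isIrr hθ)
  have h := congrFun (res_indFun_orbit θ) (1 : K)
  have hcard : Nat.card {g : L // cj θ g = θ} = Nat.card K := by
    refine Nat.card_congr (Equiv.subtypeEquivRight fun g => ⟨fun h => ?_, fun h => cj_of_mem hcl h⟩)
    by_contra hg
    exact hne (frob_fixed_principal hC hθ hg h)
  rw [hcard, div_self (Chars.subgroup_card_ne_zero K), one_smul, Finset.sum_apply,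
    OneMemClass.coe_one, Chars.indFun_apply_one] at h
  rw [Finset.sum_congr rfl (g := fun _ => θ 1) (fun ψ hψ => by
    obtain ⟨g, -, rfl⟩ := Finset.mem_image.mp hψ
    exact congrArg θ (Subtype.ext (by simp))), Finset.sum_const, nsmul_eq_mul] at h
  have h2 := mul_right_cancel₀ (Chars.irr_apply_one_ne_zero hθ) h
  exact_mod_cast h2.symm

theorem irr_apply_mul_of_trivial {θ : K → ℂ} (hθ : Cfsg.IsCharacter K θ) {a b : K}
    (hb : θ b = θ 1) : θ (b * a) = θ a :=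
  Chars.apply_mul_of_mem_charKer hθ a ((Chars.mem_charKer hθ).mpr hb)

/-- The small-degree characters obtained as products. -/
theorem sum_products_le (P Q : Subgroup K) (hfac : ∀ k : K, ∃ a ∈ P, ∃ b ∈ Q, k = b * a)
    (Θ B : Finset (Cfsg.IrrCharacter K))
    (hΘ : ∀ θ ∈ Θ, ∀ b ∈ Q, (θ : K → ℂ) b = (θ : K → ℂ) 1)
    (hB : ∀ μ ∈ B, (μ : K → ℂ) 1 = 1 ∧ ∀ a ∈ P, (μ : K → ℂ) a = (μ : K → ℂ) 1) :
    ∃ T : Finset (Cfsg.IrrCharacter K),
      (∀ η ∈ T, ∃ θ ∈ Θ, deg (η : K → ℂ) = deg (θ : K → ℂ)) ∧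
      ∑ η ∈ T, deg (η : K → ℂ) ^ 2 = (∑ θ ∈ Θ, deg (θ : K → ℂ) ^ 2) * B.card := by
  set pr : Cfsg.IrrCharacter K × Cfsg.IrrCharacter K → K → ℂ :=
    fun x k => (x.1 : K → ℂ) k * (x.2 : K → ℂ) k with hpr
  have hirr : ∀ x ∈ Θ ×ˢ B, Cfsg.IsIrrCharacter K (pr x) := by
    intro x hx
    obtain ⟨f, hf⟩ := Chars.exists_hom_of_degree_one (Chars.irr_isCharacter x.2)
      (hB _ (Finset.mem_product.mp hx).2).1
    have h := Chars.isIrrCharacter_mul_hom x.1.2 f
    convert h using 1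
    funext k
    simp [hpr, hf, mul_comm]
  have hdeg : ∀ x ∈ Θ ×ˢ B, deg (pr x) = deg (x.1 : K → ℂ) := fun x hx => by
    simp [deg, hpr, (hB _ (Finset.mem_product.mp hx).2).1]
  have hinj : Set.InjOn pr ↑(Θ ×ˢ B) := by
    intro x hx y hy h
    obtain ⟨hx1, hx2⟩ := Finset.mem_product.mp (Finset.mem_coe.mp hx)
    obtain ⟨hy1, hy2⟩ := Finset.mem_product.mp (Finset.mem_coe.mp hy)
    have hP : ∀ a ∈ P, (x.1 : K → ℂ) a = (y.1 : K → ℂ) a := fun a ha => by
      have := congrFun h a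
      simpa [hpr, (hB _ hx2).2 a ha, (hB _ hy2).2 a ha, (hB _ hx2).1, (hB _ hy2).1] using this
    have h1 : (x.1 : K → ℂ) = (y.1 : K → ℂ) := by
      funext k
      obtain ⟨a, ha, b, hb, rfl⟩ := hfac k
      rw [irr_apply_mul_of_trivial (Chars.irr_isCharacter x.1) (hΘ _ hx1 b hb),
        irr_apply_mul_of_trivial (Chars.irr_isCharacter y.1) (hΘ _ hy1 b hb), hP a ha]
    have hQ : ∀ b ∈ Q, (x.2 : K → ℂ) b = (y.2 : K → ℂ) b := fun b hb => by
      have h' := congrFun h b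
      simp only [hpr, hΘ _ hx1 b hb, hΘ _ hy1 b hb, h1] at h'
      exact mul_left_cancel₀ (Chars.irr_apply_one_ne_zero y.1.2) h'
    refine Prod.ext (Subtype.ext h1) (Subtype.ext (funext fun k => ?_))
    obtain ⟨a, ha, b, hb, rfl⟩ := hfac k
    obtain ⟨f, hf⟩ := Chars.exists_hom_of_degree_one (Chars.irr_isCharacter x.2) (hB _ hx2).1
    obtain ⟨g, hg⟩ := Chars.exists_hom_of_degree_one (Chars.irr_isCharacter y.2) (hB _ hy2).1
    have ea := ((hB _ hx2).2 a ha).trans (hB _ hx2).1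
    have ea' := ((hB _ hy2).2 a ha).trans (hB _ hy2).1
    have eb := hQ b hb
    simp only [hf, hg, map_mul, Units.val_mul] at ea ea' eb ⊢
    rw [ea, ea', eb]
  refine ⟨(Θ ×ˢ B).attach.image fun x => ⟨pr x.1, hirr x.1 x.2⟩, fun η hη => ?_, ?_⟩
  · obtain ⟨x, -, rfl⟩ := Finset.mem_image.mp hη
    exact ⟨x.1.1, (Finset.mem_product.mp x.2).1, hdeg x.1 x.2⟩
  · rw [Finset.sum_image (fun a _ b _ h => Subtype.ext (hinj a.2 b.2 (congrArg Subtype.val h))),
      Finset.sum_congr rfl (g := fun x => deg (x.1.1 : K → ℂ) ^ 2) (fun x _ => by rw [hdeg x.1 x.2])]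
    refine (Finset.sum_attach (Θ ×ˢ B) (fun x => deg (x.1 : K → ℂ) ^ 2)).trans ?_
    rw [Finset.sum_product, Finset.sum_mul]
    exact Finset.sum_congr rfl fun θ _ => by simp [Finset.sum_const, mul_comm]

theorem exists_linear_ne_one {X : Type*} [Group X] [Fintype X] [Nontrivial X]
    (hX : Group.IsSolvable X) :
    ∃ μ : X → ℂ, Cfsg.IsIrrCharacter X μ ∧ μ ≠ (fun _ => 1) ∧ μ 1 = 1 := by
  haveI := hX
  by_contra hno
  push Not at hno
  have h := sum_sq_trivial_on (commutator X)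
  have hsub : (Finset.univ : Finset (Cfsg.IrrCharacter X)).filter
      (fun θ : Cfsg.IrrCharacter X => ∀ m ∈ commutator X, (θ : X → ℂ) m = (θ : X → ℂ) 1) =
      {(⟨fun _ => 1, Chars.isIrrCharacter_one⟩ : Cfsg.IrrCharacter X)} := by
    refine Finset.eq_singleton_iff_unique_mem.mpr ⟨by simp, fun θ hθ => Subtype.ext ?_⟩
    by_contra hne
    refine hno _ θ.2 hne ?_
    rw [deg_spec (Chars.irr_isCharacter θ),
      irr_deg_one_of_commutator_le θ.2 (Finset.mem_filter.mp hθ).2, Nat.cast_one]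
  rw [hsub, Finset.sum_singleton] at h
  simp [deg] at h
  exact (Group.IsSolvable.commutator_lt_top_of_nontrivial X).ne
    (Subgroup.index_eq_one.mp (by exact_mod_cast h.symm))

/-- A set of `index + 1` linear characters trivial on a normal factor. -/
theorem exists_linear_block (hC : ∀ k ∈ K, k ≠ 1 → Subgroup.centralizer ({k} : Set L) ≤ K)
    (P Q : Subgroup K) (π : K →* Q) (hπ : Function.Surjective π) (hker : ∀ a ∈ P, π a = 1)
    (hPconj : ∀ (g : L) (a : K), a ∈ P →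
      (⟨g * a * g⁻¹, hKn.conj_mem a a.2 g⟩ : K) ∈ P)
    (hsolv : Group.IsSolvable Q) (hQ : Q ≠ ⊥) :
    ∃ B : Finset (Cfsg.IrrCharacter K), B.card = K.index + 1 ∧
      ∀ μ ∈ B, (μ : K → ℂ) 1 = 1 ∧ ∀ a ∈ P, (μ : K → ℂ) a = (μ : K → ℂ) 1 := by
  haveI : Nontrivial Q := (Subgroup.nontrivial_iff_ne_bot Q).mpr hQ
  obtain ⟨μ, hμ, hμne, hμ1⟩ := exists_linear_ne_one hsolv
  set ν : K → ℂ := fun k => μ (π k) with hν
  have hνirr : Cfsg.IsIrrCharacter K ν := Chars.isIrrCharacter_comp_surjective hμ π hπ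
  have hνne : ν ≠ fun _ => 1 := fun h => hμne (funext fun q => by
    obtain ⟨k, rfl⟩ := hπ q; exact congrFun h k)
  set O : Finset (Cfsg.IrrCharacter K) :=
    Finset.univ.image fun g : L => (⟨cj ν g, isIrr_cj hνirr g⟩ : Cfsg.IrrCharacter K)
  have hO : O.card = K.index := by
    rw [← frob_orbit hC hνirr hνne, ← Finset.card_image_of_injective O Subtype.val_injective,
      Finset.image_image]
    rfl
  have h1 : (⟨fun _ => 1, Chars.isIrrCharacter_one⟩ : Cfsg.IrrCharacter K) ∉ O := by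
    intro h
    obtain ⟨g, -, hg⟩ := Finset.mem_image.mp h
    apply hνne
    rw [← cj_one ν, ← mul_inv_cancel g, ← cj_cj, show cj ν g = fun _ => 1 from congrArg Subtype.val hg]
    rfl
  refine ⟨insert _ O, by rw [Finset.card_insert_of_notMem h1, hO], fun x hx => ?_⟩
  rcases Finset.mem_insert.mp hx with h | h
  · subst h; exact ⟨rfl, fun _ _ => rfl⟩
  · obtain ⟨g, -, rfl⟩ := Finset.mem_image.mp h
    have hv : ∀ a : K, π (⟨g * a * g⁻¹, hKn.conj_mem a a.2 g⟩ : K) = 1 → cj ν g a = 1 := fun a ha => by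
      show μ (π _) = 1
      rw [ha, hμ1]
    have hone : cj ν g 1 = 1 := hv 1 (by
      rw [show (⟨g * ((1 : K) : L) * g⁻¹, hKn.conj_mem _ (1 : K).2 g⟩ : K) = 1 from
        Subtype.ext (by simp), map_one])
    exact ⟨hone, fun a ha => (hv a (hker _ (hPconj g a ha))).trans hone.symm⟩

/-- The orbit of a character trivial on a normal factor. -/
theorem exists_orbit_block (hC : ∀ k ∈ K, k ≠ 1 → Subgroup.centralizer ({k} : Set L) ≤ K)
    (Q : Subgroup K)
    (hQconj : ∀ (g : L) (a : K), a ∈ Q → (⟨g * a * g⁻¹, hKn.conj_mem a a.2 g⟩ : K) ∈ Q)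
    (θ : Cfsg.IrrCharacter K) (hne : (θ : K → ℂ) ≠ fun _ => 1)
    (hθ : ∀ b ∈ Q, (θ : K → ℂ) b = (θ : K → ℂ) 1) :
    ∃ O : Finset (Cfsg.IrrCharacter K), O.card = K.index ∧
      ∀ η ∈ O, deg (η : K → ℂ) = deg (θ : K → ℂ) ∧ ∀ b ∈ Q, (η : K → ℂ) b = (η : K → ℂ) 1 := by
  refine ⟨Finset.univ.image fun g : L => ⟨cj (θ : K → ℂ) g, isIrr_cj θ.2 g⟩, ?_, fun η hη => ?_⟩
  · rw [← frob_orbit hC θ.2 hne, ← Finset.card_image_of_injective _ Subtype.val_injective,
      Finset.image_image]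
    rfl
  · obtain ⟨g, -, rfl⟩ := Finset.mem_image.mp hη
    have hone : cj (θ : K → ℂ) g 1 = (θ : K → ℂ) 1 := by
      show (θ : K → ℂ) ⟨g * ((1 : K) : L) * g⁻¹, _⟩ = (θ : K → ℂ) 1
      exact congrArg _ (Subtype.ext (by simp))
    refine ⟨?_, fun b hb => ?_⟩
    · show ⌊(cj (θ : K → ℂ) g 1).re⌋₊ = _
      rw [hone]
      rfl
    · show cj (θ : K → ℂ) g b = cj (θ : K → ℂ) g 1
      rw [hone]
      exact hθ _ (hQconj g b hb)

/-- A prime-power divisor of the squares of the degrees bounds a partial sum below. -/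
theorem sum_filter_ge {ι : Type*} (s : Finset ι) (d : ι → ℕ) {p m a : ℕ} (hp : p.Prime)
    (hsum : ∑ i ∈ s, d i ^ 2 = p ^ m) (hd : ∀ i ∈ s, ∃ j, d i = p ^ j) {i₁ : ι} (h₁ : i₁ ∈ s)
    (hi₁ : d i₁ < p ^ a) {i₂ : ι} (h₂ : i₂ ∈ s) (hi₂ : d i₂ = p ^ a) :
    (p ^ a) ^ 2 ≤ ∑ i ∈ s.filter (fun i => d i < p ^ a), d i ^ 2 := by
  have hle : (p ^ a) ^ 2 ≤ p ^ m := by
    rw [← hi₂, ← hsum]
    exact Finset.single_le_sum (f := fun i => d i ^ 2) (fun _ _ => Nat.zero_le _) h₂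
  have hdvd : (p ^ a) ^ 2 ∣ p ^ m := by
    rw [← pow_mul] at hle ⊢
    exact Nat.pow_dvd_pow p ((Nat.pow_le_pow_iff_right hp.one_lt).mp hle)
  rw [← hsum, ← Finset.sum_filter_add_sum_filter_not s (fun i => d i < p ^ a)] at hdvd
  have hd1 : 0 < d i₁ := by
    obtain ⟨j, hj⟩ := hd i₁ h₁
    rw [hj]; exact pow_pos hp.pos _
  refine Nat.le_of_dvd (Finset.sum_pos' (fun _ _ => Nat.zero_le _)
    ⟨i₁, Finset.mem_filter.mpr ⟨h₁, hi₁⟩, pow_pos hd1 2⟩) ?_
  refine (Nat.dvd_add_left (Finset.dvd_sum fun i hi => ?_)).mp hdvd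
  obtain ⟨j, hj⟩ := hd i (Finset.mem_filter.mp hi).1
  have h := (Finset.mem_filter.mp hi).2
  rw [hj] at h ⊢
  exact pow_dvd_pow_of_dvd (Nat.pow_dvd_pow p ((Nat.pow_le_pow_iff_right hp.one_lt).mp (not_lt.mp h))) 2

theorem irr_commutator_count :
    ((Finset.univ : Finset (Cfsg.IrrCharacter K)).filter
      (fun η : Cfsg.IrrCharacter K => deg (η : K → ℂ) = 1)).card =
      (⁅K, K⁆ : Subgroup L).relIndex K := by
  have h := sum_sq_trivial_on (commutator K)
  rw [show (Finset.univ : Finset (Cfsg.IrrCharacter K)).filter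
      (fun θ : Cfsg.IrrCharacter K => ∀ m ∈ commutator K, (θ : K → ℂ) m = (θ : K → ℂ) 1) =
      Finset.univ.filter (fun η : Cfsg.IrrCharacter K => deg (η : K → ℂ) = 1) from
    Finset.filter_congr fun η _ => ⟨irr_deg_one_of_commutator_le η.2,
      trivial_on_commutator_of_deg_one η.2⟩,
    Finset.sum_congr rfl (g := fun _ => (1 : ℝ)) (fun η hη => by
      rw [(Finset.mem_filter.mp hη).2]; simp), Finset.sum_const, nsmul_one] at h
  have he : (⁅K, K⁆ : Subgroup L).subgroupOf K = commutator K := by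
    apply Subgroup.map_injective K.subtype_injective
    rw [Subgroup.map_subgroupOf_eq_of_le (Subgroup.commutator_le_self K),
      Subgroup.map_subtype_commutator]
  rw [Subgroup.relIndex, he]
  exact_mod_cast h

/-- The inequality that lets a nonlinear character be adjoined. -/
theorem feit_ineq (hC : ∀ k ∈ K, k ≠ 1 → Subgroup.centralizer ({k} : Set L) ≤ K)
    (hnil : Group.IsNilpotent K)
    (hcase : (∃ p m : ℕ, p.Prime ∧ Nat.card K = p ^ m ∧
        4 * K.index ^ 2 + 1 < (⁅K, K⁆ : Subgroup L).relIndex K) ∨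
      ¬ ∃ p m : ℕ, p.Prime ∧ Nat.card K = p ^ m)
    (θ : Cfsg.IrrCharacter K) (hf : 1 < deg (θ : K → ℂ)) :
    2 * K.index * deg (θ : K → ℂ) + 1 <
      ∑ η ∈ (Finset.univ : Finset (Cfsg.IrrCharacter K)).filter
        (fun η : Cfsg.IrrCharacter K => deg (η : K → ℂ) < deg (θ : K → ℂ)),
        deg (η : K → ℂ) ^ 2 := by
  haveI := hnil
  set e := K.index with he
  have hepos : 0 < e := Nat.pos_of_ne_zero Subgroup.index_ne_zero_of_finite
  set f := deg (θ : K → ℂ) with hfdef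
  set T := (Finset.univ : Finset (Cfsg.IrrCharacter K)).filter
    (fun η : Cfsg.IrrCharacter K => deg (η : K → ℂ) < f) with hT
  have hdvdK : ∀ η : Cfsg.IrrCharacter K, deg (η : K → ℂ) ∣ Nat.card K := fun η => by
    obtain ⟨d, -, hd, hdvd⟩ := Chars.irr_degree_dvd_card η.2
    rwa [deg, hd, Complex.natCast_re, Nat.floor_natCast]
  rcases hcase with ⟨p, m, hp, hm, hbig⟩ | hnp
  · have hpd : ∀ η : Cfsg.IrrCharacter K, ∃ j, deg (η : K → ℂ) = p ^ j := fun η => by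
      obtain ⟨j, -, hj⟩ := (Nat.dvd_prime_pow hp).mp (hm ▸ hdvdK η)
      exact ⟨j, hj⟩
    have hsum : ∑ η : Cfsg.IrrCharacter K, deg (η : K → ℂ) ^ 2 = p ^ m := by
      have h := sum_sq_trivial_on (⊥ : Subgroup K)
      rw [Finset.filter_true_of_mem (fun η _ => fun x hx => by rw [Subgroup.mem_bot.mp hx]),
        Subgroup.index_bot, hm] at h
      exact_mod_cast h
    obtain ⟨a, ha⟩ := hpd θ
    have hU : f ^ 2 ≤ ∑ η ∈ T, deg (η : K → ℂ) ^ 2 := by
      have h1 : deg (fun _ : K => (1 : ℂ)) = 1 := by simp [deg]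
      rw [hT, hfdef, ha]
      exact sum_filter_ge Finset.univ (fun η : Cfsg.IrrCharacter K => deg (η : K → ℂ)) hp hsum
        (fun η _ => hpd η) (i₁ := ⟨fun _ => 1, Chars.isIrrCharacter_one⟩) (Finset.mem_univ _)
        (by show deg (fun _ : K => (1 : ℂ)) < p ^ a; rw [h1, ← ha]; exact hf) (Finset.mem_univ θ) ha
    have hh : (⁅K, K⁆ : Subgroup L).relIndex K ≤ ∑ η ∈ T, deg (η : K → ℂ) ^ 2 := by
      rw [← irr_commutator_count]
      refine le_trans (le_of_eq (Finset.card_eq_sum_ones _))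
        (le_trans (le_of_eq (Finset.sum_congr rfl fun η hη => ?_)) (Finset.sum_le_sum_of_subset ?_))
      · rw [(Finset.mem_filter.mp hη).2, one_pow]
      · intro η hη
        rw [hT, Finset.mem_filter]
        exact ⟨Finset.mem_univ _, by rw [(Finset.mem_filter.mp hη).2]; exact hf⟩
    by_cases hbigf : 2 * e + 1 ≤ f
    · nlinarith
    · nlinarith
  -- two primes
  set p := f.minFac with hpdef
  haveI hpf : Fact p.Prime := ⟨Nat.minFac_prime (by omega)⟩
  obtain ⟨P, Q, hP, hpQ, hmQ, hmP, φ, hφP, hφQ⟩ := nilpotent_split K p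
  have hPcard : ∃ m, Nat.card P = p ^ m := IsPGroup.iff_card.mp hP
  have hcardK : Nat.card K = Nat.card P * Nat.card Q := by
    rw [Nat.card_congr φ.toEquiv, Nat.card_prod]
  have hQne : Q ≠ ⊥ := fun h => hnp (by
    obtain ⟨m, hm⟩ := hPcard
    exact ⟨p, m, hpf.out, by rw [hcardK, h, Subgroup.card_bot, mul_one, hm]⟩)
  have hpK : p ∣ Nat.card K := (Nat.minFac_dvd f).trans (hdvdK θ)
  have hPne : P ≠ ⊥ := fun h => by
    rw [hcardK, h, Subgroup.card_bot, one_mul] at hpK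
    exact hpQ hpK
  set πP : K →* P := (MonoidHom.fst P Q).comp φ.toMonoidHom
  set πQ : K →* Q := (MonoidHom.snd P Q).comp φ.toMonoidHom
  have hPs : Function.Surjective πP := fun a => ⟨a, congrArg Prod.fst (hφP a)⟩
  have hQs : Function.Surjective πQ := fun b => ⟨b, congrArg Prod.snd (hφQ b)⟩
  have hfac : ∀ k : K, ∃ a ∈ P, ∃ b ∈ Q, k = b * a := fun k => by
    refine ⟨(πP k : K), (πP k).2, (πQ k : K), (πQ k).2, ?_⟩
    apply φ.injective
    rw [map_mul, hφQ, hφP, Prod.mk_mul_mk, one_mul, mul_one]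
    rfl
  have hfac' : ∀ k : K, ∃ b ∈ Q, ∃ a ∈ P, k = a * b := fun k => by
    refine ⟨(πQ k : K), (πQ k).2, (πP k : K), (πP k).2, ?_⟩
    apply φ.injective
    rw [map_mul, hφQ, hφP, Prod.mk_mul_mk, one_mul, mul_one]
    rfl
  have hconjP : ∀ (g : L) (a : K), a ∈ P → (⟨g * a * g⁻¹, hKn.conj_mem a a.2 g⟩ : K) ∈ P := by
    intro g a ha
    rw [hmP] at ha ⊢
    have hh := congrArg Subtype.val ha
    simp only [SubmonoidClass.coe_pow, OneMemClass.coe_one] at hh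
    exact Subtype.ext (by
      simp only [SubmonoidClass.coe_pow, OneMemClass.coe_one]
      rw [conj_pow, hh, mul_one, mul_inv_cancel])
  have hconjQ : ∀ (g : L) (a : K), a ∈ Q → (⟨g * a * g⁻¹, hKn.conj_mem a a.2 g⟩ : K) ∈ Q := by
    intro g a ha
    rw [hmQ] at ha ⊢
    have hh := congrArg Subtype.val ha
    simp only [SubmonoidClass.coe_pow, OneMemClass.coe_one] at hh
    exact Subtype.ext (by
      simp only [SubmonoidClass.coe_pow, OneMemClass.coe_one]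
      rw [conj_pow, hh, mul_one, mul_inv_cancel])
  have hPsolv : Group.IsSolvable P := inferInstance
  have hQsolv : Group.IsSolvable Q := inferInstance
  obtain ⟨BQ, hBQ, hBQ'⟩ := exists_linear_block hC P Q πQ hQs
    (fun a ha => congrArg Prod.snd (hφP ⟨a, ha⟩)) hconjP hQsolv hQne
  obtain ⟨BP, hBP, hBP'⟩ := exists_linear_block hC Q P πP hPs
    (fun b hb => congrArg Prod.fst (hφQ ⟨b, hb⟩)) hconjQ hPsolv hPne
  -- the factors of a character
  have hsplit : ∀ η : Cfsg.IrrCharacter K, ∃ (α : Cfsg.IrrCharacter P) (β : Cfsg.IrrCharacter Q),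
      (∀ k, (η : K → ℂ) k = (α : P → ℂ) (πP k) * (β : Q → ℂ) (πQ k)) ∧
        deg (η : K → ℂ) = deg (α : P → ℂ) * deg (β : Q → ℂ) := by
    intro η
    obtain ⟨α, β, h⟩ := exists_outer
      (Chars.isIrrCharacter_comp_surjective η.2 φ.symm.toMonoidHom φ.symm.surjective)
    have hk : ∀ k, (η : K → ℂ) k = (α : P → ℂ) (πP k) * (β : Q → ℂ) (πQ k) := fun k => by
      have h1 := congrFun h (φ k)
      simp only [outer, Function.comp_apply, MulEquiv.coe_toMonoidHom, MulEquiv.symm_apply_apply] at h1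
      exact h1
    refine ⟨α, β, hk, ?_⟩
    have h1 := hk 1
    rw [map_one, map_one, deg_spec (Chars.irr_isCharacter η), deg_spec (Chars.irr_isCharacter α),
      deg_spec (Chars.irr_isCharacter β)] at h1
    exact_mod_cast h1
  have hαdvd : ∀ α : Cfsg.IrrCharacter P, deg (α : P → ℂ) ∣ Nat.card P := fun α => by
    obtain ⟨d, -, hd, hdvd⟩ := Chars.irr_degree_dvd_card α.2
    rwa [deg, hd, Complex.natCast_re, Nat.floor_natCast]
  have hβdvd : ∀ β : Cfsg.IrrCharacter Q, deg (β : Q → ℂ) ∣ Nat.card Q := fun β => by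
    obtain ⟨d, -, hd, hdvd⟩ := Chars.irr_degree_dvd_card β.2
    rwa [deg, hd, Complex.natCast_re, Nat.floor_natCast]
  obtain ⟨α, β, hαβ, hfαβ⟩ := hsplit θ
  obtain ⟨m, hm⟩ := hPcard
  obtain ⟨a, -, ha⟩ := (Nat.dvd_prime_pow hpf.out).mp (hm ▸ hαdvd α)
  have hpβ : ¬ p ∣ deg (β : Q → ℂ) := fun h => hpQ (h.trans (hβdvd β))
  have ha0 : a ≠ 0 := by
    intro h0
    apply hpβ
    have hpd : p ∣ f := Nat.minFac_dvd f
    rwa [hfdef, hfαβ, ha, h0, pow_zero, one_mul] at hpd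
  set αK : Cfsg.IrrCharacter K :=
    ⟨fun k => (α : P → ℂ) (πP k), Chars.isIrrCharacter_comp_surjective α.2 πP hPs⟩
  have hαKdeg : deg (αK : K → ℂ) = p ^ a := by
    rw [← ha]
    show ⌊((α : P → ℂ) (πP 1)).re⌋₊ = _
    rw [map_one]
    rfl
  have hp2 : 2 ≤ p ^ a := le_trans hpf.out.two_le (Nat.le_self_pow ha0 p)
  by_cases hβ1 : deg (β : Q → ℂ) = 1
  · have hfa : f = p ^ a := by rw [hfdef, hfαβ, ha, hβ1, mul_one]
    set s := (Finset.univ : Finset (Cfsg.IrrCharacter K)).filter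
      (fun η : Cfsg.IrrCharacter K => ∀ b ∈ Q, (η : K → ℂ) b = (η : K → ℂ) 1) with hs
    haveI : Q.Normal := ⟨fun b hb g => hconjQ (g : L) b hb⟩
    have hQidx : Q.index = p ^ m := by
      have h := Q.index_mul_card
      rw [hcardK, hm] at h
      exact Nat.eq_of_mul_eq_mul_right Nat.card_pos h
    have hsum : ∑ η ∈ s, deg (η : K → ℂ) ^ 2 = p ^ m := by
      have h := sum_sq_trivial_on Q
      rw [hQidx] at h
      rw [hs]
      exact_mod_cast h
    have hpd : ∀ η ∈ s, ∃ j, deg (η : K → ℂ) = p ^ j := by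
      intro η hη
      obtain ⟨α', β', hk, hd⟩ := hsplit η
      have hconst : ∀ b : Q, (β' : Q → ℂ) b = (β' : Q → ℂ) 1 := by
        intro b
        have h := (Finset.mem_filter.mp hη).2 b b.2
        rw [hk, hk, map_one, map_one, show πP (b : K) = 1 from congrArg Prod.fst (hφQ b),
          show πQ (b : K) = b from congrArg Prod.snd (hφQ b)] at h
        exact mul_left_cancel₀ (Chars.irr_apply_one_ne_zero α'.2) h
      have hβ' : deg (β' : Q → ℂ) = 1 :=
        irr_deg_one_of_commutator_le β'.2 fun b _ => hconst b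
      obtain ⟨j, -, hj⟩ := (Nat.dvd_prime_pow hpf.out).mp (hm ▸ hαdvd α')
      exact ⟨j, by rw [hd, hβ', mul_one, hj]⟩
    set Θ := s.filter (fun η : Cfsg.IrrCharacter K => deg (η : K → ℂ) < p ^ a)
    have hU : (p ^ a) ^ 2 ≤ ∑ η ∈ Θ, deg (η : K → ℂ) ^ 2 :=
      sum_filter_ge s (fun η : Cfsg.IrrCharacter K => deg (η : K → ℂ)) hpf.out hsum hpd
        (i₁ := ⟨fun _ => 1, Chars.isIrrCharacter_one⟩)
        (Finset.mem_filter.mpr ⟨Finset.mem_univ _, fun _ _ => rfl⟩)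
        (by show deg (fun _ : K => (1 : ℂ)) < p ^ a
            rw [show deg (fun _ : K => (1 : ℂ)) = 1 by simp [deg]]; omega)
        (i₂ := αK) (Finset.mem_filter.mpr ⟨Finset.mem_univ _, fun b hb => by
          show (α : P → ℂ) (πP b) = (α : P → ℂ) (πP 1)
          rw [show πP (b : K) = 1 from congrArg Prod.fst (hφQ ⟨b, hb⟩), map_one]⟩) hαKdeg
    obtain ⟨T', hT'd, hT's⟩ := sum_products_le P Q hfac Θ BQ
      (fun η hη => (Finset.mem_filter.mp (Finset.mem_filter.mp hη).1).2) hBQ'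
    have hsub : T' ⊆ T := by
      intro η hη
      obtain ⟨θ', hθ', hd⟩ := hT'd η hη
      rw [hT, Finset.mem_filter]
      exact ⟨Finset.mem_univ _, by rw [hd, hfa]; exact (Finset.mem_filter.mp hθ').2⟩
    refine lt_of_lt_of_le ?_ (Finset.sum_le_sum_of_subset hsub)
    rw [hT's, hBQ, hfa]
    refine lt_of_lt_of_le ?_ (Nat.mul_le_mul_right _ hU)
    nlinarith [mul_le_mul_of_nonneg_left hp2 (Nat.zero_le (e * p ^ a))]
  -- both parts nonlinear
  have hb2 : 2 ≤ deg (β : Q → ℂ) := by have := deg_pos_irr β.2; omega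
  set βK : Cfsg.IrrCharacter K :=
    ⟨fun k => (β : Q → ℂ) (πQ k), Chars.isIrrCharacter_comp_surjective β.2 πQ hQs⟩
  have hβKdeg : deg (βK : K → ℂ) = deg (β : Q → ℂ) := by
    show ⌊((β : Q → ℂ) (πQ 1)).re⌋₊ = _
    rw [map_one]
    rfl
  have hneK : ∀ η : Cfsg.IrrCharacter K, 2 ≤ deg (η : K → ℂ) → (η : K → ℂ) ≠ fun _ => 1 := by
    intro η h h1
    rw [h1] at h
    simp [deg] at h
  obtain ⟨OP, hOP, hOP'⟩ := exists_orbit_block hC Q hconjQ αK (hneK _ (hαKdeg ▸ hp2)) (fun b hb => by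
    show (α : P → ℂ) (πP b) = (α : P → ℂ) (πP 1)
    rw [show πP (b : K) = 1 from congrArg Prod.fst (hφQ ⟨b, hb⟩), map_one])
  obtain ⟨OQ, hOQ, hOQ'⟩ := exists_orbit_block hC P hconjP βK (hneK _ (hβKdeg ▸ hb2)) (fun b hb => by
    show (β : Q → ℂ) (πQ b) = (β : Q → ℂ) (πQ 1)
    rw [show πQ (b : K) = 1 from congrArg Prod.snd (hφP ⟨b, hb⟩), map_one])
  obtain ⟨T1, hT1d, hT1s⟩ := sum_products_le P Q hfac OP BQ (fun η hη => (hOP' η hη).2) hBQ'
  obtain ⟨T2, hT2d, hT2s⟩ := sum_products_le Q P hfac' OQ BP (fun η hη => (hOQ' η hη).2) hBP'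
  have hd1 : ∀ η ∈ T1, deg (η : K → ℂ) = p ^ a := fun η hη => by
    obtain ⟨x, hx, hd⟩ := hT1d η hη; rw [hd, (hOP' x hx).1, hαKdeg]
  have hd2 : ∀ η ∈ T2, deg (η : K → ℂ) = deg (β : Q → ℂ) := fun η hη => by
    obtain ⟨x, hx, hd⟩ := hT2d η hη; rw [hd, (hOQ' x hx).1, hβKdeg]
  have e1 : ∑ x ∈ OP, deg (x : K → ℂ) ^ 2 = e * (p ^ a) ^ 2 := by
    rw [Finset.sum_congr rfl (g := fun _ => (p ^ a) ^ 2) (fun x hx => by rw [(hOP' x hx).1, hαKdeg]),
      Finset.sum_const, hOP, smul_eq_mul]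
  have e2 : ∑ x ∈ OQ, deg (x : K → ℂ) ^ 2 = e * deg (β : Q → ℂ) ^ 2 := by
    rw [Finset.sum_congr rfl (g := fun _ => deg (β : Q → ℂ) ^ 2)
      (fun x hx => by rw [(hOQ' x hx).1, hβKdeg]), Finset.sum_const, hOQ, smul_eq_mul]
  rw [e1, hBQ] at hT1s
  rw [e2, hBP] at hT2s
  have hdisj : Disjoint T1 T2 := Finset.disjoint_left.mpr fun η h1 h2 =>
    hpβ (by rw [← hd2 η h2, hd1 η h1]; exact dvd_pow_self p ha0)
  have hfmul : f = p ^ a * deg (β : Q → ℂ) := by rw [hfdef, hfαβ, ha]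
  have hsub : T1 ∪ T2 ⊆ T := by
    intro η hη
    rw [hT, Finset.mem_filter]
    refine ⟨Finset.mem_univ _, ?_⟩
    rcases Finset.mem_union.mp hη with h | h
    · rw [hd1 η h, hfmul]; exact lt_mul_of_one_lt_right (by omega) (by omega)
    · rw [hd2 η h, hfmul]; exact lt_mul_of_one_lt_left (by omega) (by omega)
  refine lt_of_lt_of_le ?_ (Finset.sum_le_sum_of_subset hsub)
  rw [Finset.sum_union hdisj, hT1s, hT2s, hfmul]
  set u := p ^ a
  set w := deg (β : Q → ℂ)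
  have huw : 2 * (u * w) ≤ u ^ 2 + w ^ 2 := by
    have := two_mul_le_add_sq u w; linarith
  calc 2 * e * (u * w) + 1 < e * (e + 1) * (2 * (u * w)) := by
        have h4 : 4 ≤ u * w := Nat.mul_le_mul hp2 hb2
        nlinarith [Nat.mul_le_mul (Nat.mul_le_mul hepos hepos) h4]
    _ ≤ e * (e + 1) * (u ^ 2 + w ^ 2) := Nat.mul_le_mul_left _ huw
    _ = _ := by ring

/-- There are many linear characters. -/
theorem feit_linear_bound (hC : ∀ k ∈ K, k ≠ 1 → Subgroup.centralizer ({k} : Set L) ≤ K)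
    (hnil : Group.IsNilpotent K)
    (hcase : (∃ p m : ℕ, p.Prime ∧ Nat.card K = p ^ m ∧
        4 * K.index ^ 2 + 1 < (⁅K, K⁆ : Subgroup L).relIndex K) ∨
      ¬ ∃ p m : ℕ, p.Prime ∧ Nat.card K = p ^ m) :
    K.index + 1 < (⁅K, K⁆ : Subgroup L).relIndex K := by
  haveI := hnil
  have hepos : 0 < K.index := Nat.pos_of_ne_zero Subgroup.index_ne_zero_of_finite
  rcases hcase with ⟨p, m, hp, hm, hbig⟩ | hnp
  · nlinarith
  set p := (Nat.card K).minFac
  have hK1 : Nat.card K ≠ 1 := fun h => hnp ⟨2, 0, Nat.prime_two, by rw [h, pow_zero]⟩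
  haveI hpf : Fact p.Prime := ⟨Nat.minFac_prime hK1⟩
  obtain ⟨P, Q, hP, hpQ, hmQ, hmP, φ, hφP, hφQ⟩ := nilpotent_split K p
  obtain ⟨m, hm⟩ := IsPGroup.iff_card.mp hP
  have hcardK : Nat.card K = Nat.card P * Nat.card Q := by
    rw [Nat.card_congr φ.toEquiv, Nat.card_prod]
  have hQne : Q ≠ ⊥ := fun h =>
    hnp ⟨p, m, hpf.out, by rw [hcardK, h, Subgroup.card_bot, mul_one, hm]⟩
  have hPne : P ≠ ⊥ := fun h => by
    have hd : p ∣ Nat.card K := Nat.minFac_dvd _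
    rw [hcardK, h, Subgroup.card_bot, one_mul] at hd
    exact hpQ hd
  have hconj : ∀ (R : Subgroup K), (∀ x : K, x ∈ R ↔ x ^ Nat.card R = 1) →
      ∀ (g : L) (a : K), a ∈ R → (⟨g * a * g⁻¹, hKn.conj_mem a a.2 g⟩ : K) ∈ R := by
    intro R hR g a ha
    rw [hR] at ha ⊢
    have hh := congrArg Subtype.val ha
    simp only [SubmonoidClass.coe_pow, OneMemClass.coe_one] at hh
    exact Subtype.ext (by
      simp only [SubmonoidClass.coe_pow, OneMemClass.coe_one]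
      rw [conj_pow, hh, mul_one, mul_inv_cancel])
  obtain ⟨BQ, hBQ, hBQ'⟩ := exists_linear_block hC P Q ((MonoidHom.snd P Q).comp φ.toMonoidHom)
    (fun b => ⟨b, congrArg Prod.snd (hφQ b)⟩) (fun a ha => congrArg Prod.snd (hφP ⟨a, ha⟩))
    (hconj P hmP) inferInstance hQne
  obtain ⟨BP, hBP, hBP'⟩ := exists_linear_block hC Q P ((MonoidHom.fst P Q).comp φ.toMonoidHom)
    (fun a => ⟨a, congrArg Prod.fst (hφP a)⟩) (fun b hb => congrArg Prod.fst (hφQ ⟨b, hb⟩))
    (hconj Q hmQ) inferInstance hPne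
  obtain ⟨T, hTd, hTs⟩ := sum_products_le P Q (fun k => by
    refine ⟨((φ k).1 : K), (φ k).1.2, ((φ k).2 : K), (φ k).2.2, ?_⟩
    apply φ.injective
    rw [map_mul, hφQ, hφP, Prod.mk_mul_mk, one_mul, mul_one]) BP BQ
    (fun η hη => (hBP' η hη).2) hBQ'
  have hd1 : ∀ η ∈ T, deg (η : K → ℂ) = 1 := fun η hη => by
    obtain ⟨x, hx, hd⟩ := hTd η hη
    rw [hd, deg, (hBP' x hx).1]; simp
  have h1 : ∀ x ∈ BP, deg (x : K → ℂ) ^ 2 = 1 := fun x hx => by simp [deg, (hBP' x hx).1]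
  rw [Finset.sum_congr rfl (fun η hη => by rw [hd1 η hη, one_pow]), Finset.sum_congr rfl h1,
    ← Finset.card_eq_sum_ones, ← Finset.card_eq_sum_ones, hBP, hBQ] at hTs
  have hle : T.card ≤ (⁅K, K⁆ : Subgroup L).relIndex K := by
    rw [← irr_commutator_count]
    exact Finset.card_le_card fun η hη => Finset.mem_filter.mpr ⟨Finset.mem_univ _, hd1 η hη⟩
  rw [hTs] at hle
  nlinarith

/-- Feit's coherence theorem. -/
theorem feit_coherent {G : Type*} [Group G] [Fintype G]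
    (hC : ∀ k ∈ K, k ≠ 1 → Subgroup.centralizer ({k} : Set L) ≤ K)
    (hnil : Group.IsNilpotent K)
    (hcase : (∃ p m : ℕ, p.Prime ∧ Nat.card K = p ^ m ∧
        4 * K.index ^ 2 + 1 < (⁅K, K⁆ : Subgroup L).relIndex K) ∨
      ¬ ∃ p m : ℕ, p.Prime ∧ Nat.card K = p ^ m)
    (τ : (L → ℂ) → (G → ℂ))
    (hτ : Cfsg.IsLinearIsometryOn (Cfsg.zspanOn (Cfsg.inducedIrrAbove K ⊥) {1}ᶜ) τ)
    (hτ1 : ∀ α ∈ Cfsg.zspanOn (Cfsg.inducedIrrAbove K ⊥) {1}ᶜ, τ α 1 = 0) :
    Cfsg.IsCoherent (Cfsg.inducedIrrAbove K ⊥) {1}ᶜ τ := by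
  haveI := hnil
  set e := K.index with he
  have hepos : 0 < e := Nat.pos_of_ne_zero Subgroup.index_ne_zero_of_finite
  have hbound := feit_linear_bound hC hnil hcase
  have hirr : ∀ φ ∈ Cfsg.inducedIrrAbove K ⊥, Cfsg.IsIrrCharacter L φ := by
    rintro φ ⟨θ, hθ, hne, -, rfl⟩
    exact frob_ind_irr hC hθ hne
  set F := indSet K (aboveSet K ⊥) with hFdef
  have hFcoe : (↑F : Set (L → ℂ)) = Cfsg.inducedIrrAbove K ⊥ := coe_indSet_aboveSet K ⊥
  set Y := indSet K (aboveSet K ⁅K, K⁆) with hYdef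
  have hYsub : Y ⊆ F := by
    intro φ hφ
    rw [← Finset.mem_coe, hYdef, coe_indSet_aboveSet] at hφ
    rw [← Finset.mem_coe, hFcoe]
    exact indAbove_subset_bot K _ hφ
  have hYdeg : ∀ η ∈ Y, deg η = e := by
    intro η hη
    rw [← Finset.mem_coe, hYdef, coe_indSet_aboveSet] at hη
    obtain ⟨θ, hθ, -, hker, rfl⟩ := hη
    rw [deg_indFun K (Chars.isCharacter_of_isIrr hθ), irr_deg_one_of_commutator_le hθ fun m hm =>
      hker m (by rw [← Subgroup.map_subtype_commutator]; exact Subgroup.mem_map_of_mem _ hm), mul_one]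
  have hY2 : 1 < Y.card := by
    have hw := weight_indAbove K ⁅K, K⁆ (Subgroup.commutator_le_self K)
    rw [← hYdef, weight, Finset.sum_congr rfl (g := fun _ => (e : ℝ) ^ 2) (fun η hη => by
      rw [hYdeg η hη, nrm_irr (hirr η (hFcoe ▸ hYsub hη)), Nat.cast_one, div_one]),
      Finset.sum_const, nsmul_eq_mul] at hw
    have he' : (e : ℝ) ≠ 0 := by exact_mod_cast hepos.ne'
    have h3 : (Y.card : ℝ) * e = ((⁅K, K⁆ : Subgroup L).relIndex K : ℝ) - 1 :=
      mul_left_cancel₀ he' (by linear_combination hw)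
    have h4 : Y.card * e + 1 = (⁅K, K⁆ : Subgroup L).relIndex K := by
      have : (Y.card : ℝ) * e + 1 = ((⁅K, K⁆ : Subgroup L).relIndex K : ℝ) := by linarith
      exact_mod_cast this
    by_contra h
    have : Y.card * e ≤ 1 * e := Nat.mul_le_mul_right _ (not_lt.mp h)
    omega
  obtain ⟨χ₁, h₁, χ₂, h₂, hne⟩ := Finset.one_lt_card.mp hY2
  refine coherent_irr_by_degree hirr τ hτ hτ1 F hFcoe (hYsub h₁) (hYsub h₂) hne
    ((hYdeg χ₂ h₂).trans (hYdeg χ₁ h₁).symm) (fun φ hφ => ?_) (fun χ hχ hlt => ?_)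
  · obtain ⟨θ, -, rfl⟩ := Finset.mem_image.mp hφ
    rw [hYdeg χ₁ h₁, deg_indFun K (Chars.irr_isCharacter θ)]
    exact dvd_mul_right _ _
  obtain ⟨θ, hθ, rfl⟩ := Finset.mem_image.mp hχ
  rw [hYdeg χ₁ h₁, deg_indFun K (Chars.irr_isCharacter θ), ← he] at hlt ⊢
  set f := deg (θ : K → ℂ) with hf
  have hf1 : 1 < f := Nat.lt_of_mul_lt_mul_left (a := e) (by rwa [mul_one])
  have hineq := feit_ineq hC hnil hcase θ hf1
  set Θl := (aboveSet K ⊥).filter (fun η : Cfsg.IrrCharacter K => deg (η : K → ℂ) < f) with hΘl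
  have hFl : F.filter (fun φ => deg φ < e * f) = indSet K Θl := by
    rw [hFdef, indSet, indSet, Finset.filter_image, hΘl]
    refine congrArg _ (Finset.filter_congr fun η _ => ?_)
    rw [deg_indFun K (Chars.irr_isCharacter η), ← he]
    exact Nat.mul_lt_mul_left hepos
  have hsat : Saturated K Θl := by
    intro η hη η' h
    rw [hΘl, Finset.mem_filter] at hη ⊢
    refine ⟨aboveSet_saturated K ⊥ bot_le η hη.1 η' h, ?_⟩
    have hd := congrArg deg h
    rw [deg_indFun K (Chars.irr_isCharacter η), deg_indFun K (Chars.irr_isCharacter η'), ← he] at hd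
    rw [Nat.eq_of_mul_eq_mul_left hepos hd]
    exact hη.2
  have hw := weight_indSet K Θl hsat
  rw [← hFl, weight, Finset.sum_congr rfl (g := fun φ => (deg φ : ℝ) ^ 2) (fun φ hφ => by
    rw [nrm_irr (hirr φ (hFcoe ▸ (Finset.mem_filter.mp hφ).1)), Nat.cast_one, div_one])] at hw
  have hw' : ∑ φ ∈ F.filter (fun φ => deg φ < e * f), deg φ ^ 2 =
      e * ∑ η ∈ Θl, deg (η : K → ℂ) ^ 2 := by exact_mod_cast hw
  rw [hw']
  have hS : 2 * e * f < ∑ η ∈ Θl, deg (η : K → ℂ) ^ 2 := by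
    set one : Cfsg.IrrCharacter K := ⟨fun _ => 1, Chars.isIrrCharacter_one⟩
    have hset : (Finset.univ : Finset (Cfsg.IrrCharacter K)).filter
        (fun η : Cfsg.IrrCharacter K => deg (η : K → ℂ) < f) = insert one Θl := by
      ext η
      simp only [hΘl, aboveSet, Finset.mem_insert, Finset.mem_filter, Finset.mem_univ, true_and]
      constructor
      · intro h
        by_cases h1 : (η : K → ℂ) = fun _ => 1
        · exact Or.inl (Subtype.ext h1)
        · exact Or.inr ⟨⟨h1, fun a ha => by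
            rw [show a = 1 from Subtype.ext (Subgroup.mem_bot.mp ha)]⟩, h⟩
      · rintro (rfl | h)
        · simpa [one, deg] using hf1
        · exact h.2
    rw [← hf, hset, Finset.sum_insert (by simp [hΘl, aboveSet, one])] at hineq
    have h1 : deg (one : K → ℂ) = 1 := by simp [one, deg]
    rw [h1] at hineq
    rw [← he] at hineq
    linarith
  calc 2 * e * (e * f) = e * (2 * e * f) := by ring
    _ < e * ∑ η ∈ Θl, deg (η : K → ℂ) ^ 2 := Nat.mul_lt_mul_of_pos_left hS hepos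

end feit

end Cfsg.Agent.OddChar
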