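import Cfsg.Agent.OddChar.FrobSetup
import Cfsg.Agent.OddChar.IrrCoherence
import Cfsg.Agent.OddChar.FreeCount
import Cfsg.Prelude.Def_Transfer

/-!
The characters nontrivial on an abelian kernel containing the centralizers of its nonidentity
elements.
-/

set_option autoImplicit false
set_option linter.unusedSectionVars false

open scoped Classical ComplexConjugate

namespace Cfsg.Agent.OddChar

variable {L : Type*} [Group L] [Fintype L] (K : Subgroup L) [K.Normal]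

theorem frob_abelian_count (hC : ∀ k ∈ K, k ≠ 1 → Subgroup.centralizer ({k} : Set L) ≤ K)
    (hcomm : ∀ a ∈ K, ∀ b ∈ K, a * b = b * a) :
    (∀ φ ∈ Cfsg.inducedIrrAbove K ⊥, φ 1 = (K.index : ℂ)) ∧
      Nat.card ↥(Cfsg.inducedIrrAbove K ⊥) * K.index + 1 = Nat.card K := by
  have hdeg : ∀ φ ∈ Cfsg.inducedIrrAbove K ⊥, deg φ = K.index ∧ φ 1 = (K.index : ℂ) ∧ nrm φ = 1 := by
    rintro φ ⟨θ, hθ, hne, -, rfl⟩
    have h1 : θ 1 = 1 :=
      Chars.irr_apply_one_of_comm (fun a b => Subtype.ext (hcomm a a.2 b b.2)) hθ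
    have hd : deg θ = 1 := by simp [deg, h1]
    refine ⟨by rw [deg_indFun K (Chars.isCharacter_of_isIrr hθ), hd, mul_one], ?_,
      nrm_irr (frob_ind_irr hC hθ hne)⟩
    rw [Chars.indFun_apply_one, h1, mul_one]
  refine ⟨fun φ hφ => (hdeg φ hφ).2.1, ?_⟩
  have hw := weight_indAbove K ⊥ bot_le
  rw [Subgroup.relIndex_bot_left, weight,
    Finset.sum_congr rfl (g := fun _ => (K.index : ℝ) ^ 2) (fun φ hφ => by
      rw [← Finset.mem_coe, coe_indSet_aboveSet] at hφ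
      rw [(hdeg φ hφ).1, (hdeg φ hφ).2.2, Nat.cast_one, div_one]), Finset.sum_const, nsmul_eq_mul] at hw
  have hcard : Nat.card ↥(Cfsg.inducedIrrAbove K ⊥) = (indSet K (aboveSet K ⊥)).card := by
    rw [← Nat.card_eq_finsetCard]
    exact Nat.card_congr (Equiv.setCongr (coe_indSet_aboveSet K ⊥).symm)
  rw [hcard]
  have he : (K.index : ℝ) ≠ 0 := by exact_mod_cast Subgroup.index_ne_zero_of_finite
  have h2 : ((indSet K (aboveSet K ⊥)).card : ℝ) * K.index + 1 = Nat.card K := by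
    have h3 : ((indSet K (aboveSet K ⊥)).card : ℝ) * K.index = (Nat.card K : ℝ) - 1 :=
      mul_left_cancel₀ he (by linear_combination hw)
    linarith
  exact_mod_cast h2

theorem frob_elementary (hC : ∀ k ∈ K, k ≠ 1 → Subgroup.centralizer ({k} : Set L) ≤ K)
    (hcomm : ∀ a ∈ K, ∀ b ∈ K, a * b = b * a) (hK : Nat.card K = K.index + 1) {p : ℕ}
    [Fact p.Prime] (hp : p ∣ Nat.card K) : Cfsg.IsElementaryAbelian p K := by
  refine ⟨⟨⟨fun a b => Subtype.ext (hcomm a a.2 b b.2)⟩⟩, ?_⟩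
  let Ω : Subgroup L :=
    { carrier := {x | x ∈ K ∧ x ^ p = 1}
      one_mem' := ⟨K.one_mem, one_pow _⟩
      mul_mem' := by
        rintro x y ⟨hx, hx'⟩ ⟨hy, hy'⟩
        exact ⟨K.mul_mem hx hy, by
          rw [(show Commute x y from hcomm x hx y hy).mul_pow, hx', hy', one_mul]⟩
      inv_mem' := by
        rintro x ⟨hx, hx'⟩
        exact ⟨K.inv_mem hx, by rw [inv_pow, hx', inv_one]⟩ }
  haveI : Ω.Normal := ⟨fun x hx g => ⟨(inferInstance : K.Normal).conj_mem x hx.1 g, by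
    rw [conj_pow, hx.2, mul_one, mul_inv_cancel]⟩⟩
  have hd := index_dvd_card_sub_one Ω K (fun n hn hn1 x => by
    constructor
    · intro h
      have h' : x * n = n * x := mul_inv_eq_iff_eq_mul.mp h
      exact hC n hn.1 hn1 (Subgroup.mem_centralizer_singleton_iff.mpr
        (by first | exact h' | exact h'.symm))
    · intro hx
      rw [hcomm x hx n hn.1, mul_inv_cancel_right])
  obtain ⟨x, hx⟩ := exists_prime_orderOf_dvd_card' (G := K) p hp
  have hΩ2 : 1 < Nat.card Ω := by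
    have hmem : (x : L) ∈ Ω := ⟨x.2, by
      rw [← hx, ← SubmonoidClass.coe_pow, pow_orderOf_eq_one, OneMemClass.coe_one]⟩
    refine (Subgroup.one_lt_card_iff_ne_bot Ω).mpr fun h => ?_
    rw [h, Subgroup.mem_bot] at hmem
    rw [show x = 1 from Subtype.ext hmem, orderOf_one] at hx
    exact (Fact.out : p.Prime).one_lt.ne hx
  have hle : Nat.card K ≤ Nat.card Ω := by
    have h2 := Nat.le_of_dvd (by omega) hd
    omega
  have heq : Ω = K := Subgroup.eq_of_le_of_card_ge (fun y hy => hy.1) hle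
  intro a ha
  rw [← heq] at ha
  exact ha.2

/-- An abelian kernel gives one character or a coherent family. -/
theorem frob_abelian_case {G : Type*} [Group G] [Fintype G] (hK1 : K ≠ ⊥)
    (hC : ∀ k ∈ K, k ≠ 1 → Subgroup.centralizer ({k} : Set L) ≤ K)
    (hcomm : ∀ a ∈ K, ∀ b ∈ K, a * b = b * a) (τ : (L → ℂ) → (G → ℂ))
    (hτ : Cfsg.IsLinearIsometryOn (Cfsg.zspanOn (Cfsg.inducedIrrAbove K ⊥) {1}ᶜ) τ)
    (hτ1 : ∀ α ∈ Cfsg.zspanOn (Cfsg.inducedIrrAbove K ⊥) {1}ᶜ, τ α 1 = 0) :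
    (Nat.card ↥(Cfsg.inducedIrrAbove K ⊥) = 1 ∧ Nat.card K = K.index + 1) ∨
      Cfsg.IsCoherent (Cfsg.inducedIrrAbove K ⊥) {1}ᶜ τ := by
  obtain ⟨hdeg, hcount⟩ := frob_abelian_count K hC hcomm
  have hK2 : 1 < Nat.card K := by
    haveI : Nontrivial K := (Subgroup.nontrivial_iff_ne_bot K).mpr hK1
    exact Finite.one_lt_card
  set n := Nat.card ↥(Cfsg.inducedIrrAbove K ⊥) with hn
  by_cases h1 : n = 1
  · left
    refine ⟨h1, ?_⟩
    rw [h1, one_mul] at hcount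
    exact hcount.symm
  right
  have hn0 : n ≠ 0 := fun h => by rw [h, zero_mul] at hcount; omega
  haveI : Finite ↥(Cfsg.inducedIrrAbove K ⊥) := Nat.finite_of_card_ne_zero hn0
  haveI : Nontrivial ↥(Cfsg.inducedIrrAbove K ⊥) :=
    Finite.one_lt_card_iff_nontrivial.mp (by omega)
  obtain ⟨a, b, hab⟩ := exists_pair_ne ↥(Cfsg.inducedIrrAbove K ⊥)
  refine coherent_irr_equal_degree _ ?_ ⟨a, a.2, b, b.2, fun h => hab (Subtype.ext h)⟩
    (fun φ hφ ψ hψ => by rw [hdeg φ hφ, hdeg ψ hψ]) τ hτ hτ1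
  rintro φ ⟨θ, hθ, hne, -, rfl⟩
  exact frob_ind_irr hC hθ hne

end Cfsg.Agent.OddChar
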