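import Mathlib.GroupTheory.FixedPointFree
import Mathlib.GroupTheory.Perm.Cycle.Type
import Mathlib.GroupTheory.Subgroup.Centralizer

/-!
An involution outside a kernel containing the centralizers of its nonidentity elements.
-/

set_option autoImplicit false

namespace Cfsg.Agent.OddChar

variable {L : Type*} [Group L] [Finite L] {K : Subgroup L} [K.Normal]

theorem frob_involution (hC : ∀ k ∈ K, k ≠ 1 → Subgroup.centralizer ({k} : Set L) ≤ K) {z : L}
    (hz : z ∉ K) (hzz : z * z = 1) :
    (∀ a ∈ K, ∀ b ∈ K, a * b = b * a) ∧ Odd (Nat.card K) := by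
  set φ := (MulAut.conjNormal z : MulAut K).toMonoidHom
  have hφ : MonoidHom.FixedPointFree φ := by
    intro g hg
    by_contra h1
    have h := congrArg Subtype.val hg
    simp only [φ, MulEquiv.coe_toMonoidHom, MulAut.conjNormal_apply] at h
    have hc : z * g = g * z := mul_inv_eq_iff_eq_mul.mp h
    exact hz (hC g g.2 (fun e => h1 (Subtype.ext e))
      (Subgroup.mem_centralizer_singleton_iff.mpr (by first | exact hc | exact hc.symm)))
  have hinv : Function.Involutive φ := by
    intro g
    apply Subtype.ext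
    simp only [φ, MulEquiv.coe_toMonoidHom, MulAut.conjNormal_apply]
    rw [inv_eq_of_mul_eq_one_right hzz]
    calc z * (z * (g : L) * z) * z = (z * z) * g * (z * z) := by group
      _ = g := by rw [hzz, one_mul, mul_one]
  exact ⟨fun a ha b hb => congrArg Subtype.val (hφ.commute_all_of_involutive hinv ⟨a, ha⟩ ⟨b, hb⟩).eq,
    hφ.odd_card_of_involutive hinv⟩

theorem frob_even_index (hC : ∀ k ∈ K, k ≠ 1 → Subgroup.centralizer ({k} : Set L) ≤ K)
    (hK : Odd (Nat.card K)) (he : Even K.index) : ∀ a ∈ K, ∀ b ∈ K, a * b = b * a := by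
  obtain ⟨z, hz⟩ := exists_prime_orderOf_dvd_card' (G := L) 2
    (dvd_trans he.two_dvd K.index_dvd_card)
  refine (frob_involution hC (z := z) (fun hzK => ?_) ?_).1
  · have h := orderOf_dvd_natCard (⟨z, hzK⟩ : K)
    rw [Subgroup.orderOf_mk, hz] at h
    exact Nat.not_even_iff_odd.mpr hK (even_iff_two_dvd.mpr h)
  · rw [← sq, ← hz, pow_orderOf_eq_one]

end Cfsg.Agent.OddChar
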