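import Cfsg.Agent.FGS4.FPFModule
import Mathlib.LinearAlgebra.Trace
import Mathlib.LinearAlgebra.Matrix.Trace
import Mathlib.LinearAlgebra.Projection
import Mathlib.RingTheory.LocalRing.Module
import Mathlib.Algebra.Module.ZMod
import Mathlib.GroupTheory.Solvable
import Mathlib.GroupTheory.Complement

/-!
The fixed point formula for a Frobenius group acting coprimely on a solvable group: a finite
identity in the group algebra, read off by traces on a lifted representation.
-/

set_option autoImplicit false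
set_option linter.unusedSectionVars false

open scoped Classical Matrix

namespace Cfsg.Agent.OddChar

universe v

/-- The partition of a Frobenius group. -/
theorem sum_frobenius {Γ : Type*} [Group Γ] [Fintype Γ] {A : Type*} [AddCommMonoid A]
    (U E : Subgroup Γ) [U.Normal] (hcard : Nat.card Γ = Nat.card U * Nat.card E)
    (hUE : U ⊓ E = ⊥) (hfpf : ∀ e ∈ E, e ≠ 1 → ∀ u ∈ U, e * u = u * e → u = 1) (f : Γ → A) :
    (∑ x : Γ, f x) + Nat.card U • f 1 = (∑ u : U, f u) + ∑ u : U, ∑ e : E, f (u * e * (u : Γ)⁻¹) := by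
  set m : U × E → Γ := fun y => (y.1 : Γ) * y.2 * (y.1 : Γ)⁻¹ with hm
  set D := (Finset.univ : Finset U) ×ˢ (Finset.univ.erase (1 : E)) with hD
  have hmem : ∀ y : U × E, m y ∈ U → y.2 = 1 := by
    intro y hy
    have h := ‹U.Normal›.conj_mem _ hy (y.1 : Γ)⁻¹
    simp only [hm] at h
    have h' : (y.2 : Γ) ∈ U := by convert h using 1; group
    exact Subtype.ext (Subgroup.mem_bot.mp (hUE ▸ Subgroup.mem_inf.mpr ⟨h', y.2.2⟩))
  have hinj : Set.InjOn m ↑D := by
    rintro ⟨u, e⟩ h1 ⟨u', e'⟩ - h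
    have he : e ≠ 1 := by
      rw [Finset.mem_coe, hD, Finset.mem_product] at h1; exact (Finset.mem_erase.mp h1.2).1
    set w : Γ := (u' : Γ)⁻¹ * u with hw
    have hwU : w ∈ U := U.mul_mem (U.inv_mem u'.2) u.2
    have hwe : w * e * w⁻¹ = e' := by
      have h2 : (u : Γ) * e * (u : Γ)⁻¹ = u' * e' * (u' : Γ)⁻¹ := h
      calc w * e * w⁻¹ = (u' : Γ)⁻¹ * ((u : Γ) * e * (u : Γ)⁻¹) * u' := by rw [hw]; group
        _ = e' := by rw [h2]; group
    have hee : (e' : Γ) = e := by
      have h3 : (e' : Γ) * (e : Γ)⁻¹ ∈ U := by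
        rw [← hwe, show w * e * w⁻¹ * (e : Γ)⁻¹ = w * ((e : Γ) * w⁻¹ * (e : Γ)⁻¹) by group]
        exact U.mul_mem hwU (‹U.Normal›.conj_mem _ (U.inv_mem hwU) _)
      exact mul_inv_eq_one.mp (Subgroup.mem_bot.mp
        (hUE ▸ Subgroup.mem_inf.mpr ⟨h3, E.mul_mem e'.2 (E.inv_mem e.2)⟩))
    rw [hee, mul_inv_eq_iff_eq_mul] at hwe
    have hw1 := hfpf e e.2 (fun h => he (Subtype.ext h)) w hwU hwe.symm
    exact Prod.ext (Subtype.ext (inv_mul_eq_one.mp hw1).symm) (Subtype.ext hee.symm)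
  have himg : D.image m = Finset.univ.filter (fun x => x ∉ U) := by
    refine Finset.eq_of_subset_of_card_le (fun x hx => ?_) ?_
    · obtain ⟨y, hy, rfl⟩ := Finset.mem_image.mp hx
      rw [hD, Finset.mem_product] at hy
      exact Finset.mem_filter.mpr ⟨Finset.mem_univ _, fun h =>
        (Finset.mem_erase.mp hy.2).1 (hmem y h)⟩
    · rw [Finset.card_image_of_injOn hinj, hD, Finset.card_product, Finset.card_erase_of_mem
        (Finset.mem_univ _), Finset.card_univ, Finset.card_univ]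
      have h1 := Finset.card_filter_add_card_filter_not (s := (Finset.univ : Finset Γ)) (fun x => x ∈ U)
      rw [Finset.card_univ, ← Fintype.card_subtype] at h1
      simp only [Nat.card_eq_fintype_card] at hcard
      rw [Nat.mul_sub, mul_one, ← hcard, ← h1]
      omega
  have h2 : ∑ u : U, ∑ e : E, f (u * e * (u : Γ)⁻¹) =
      Nat.card U • f 1 + ∑ x ∈ Finset.univ.filter (fun x => x ∉ U), f x := by
    rw [← himg, Finset.sum_image hinj, hD, Finset.sum_product, Nat.card_eq_fintype_card,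
      ← Finset.card_univ, ← Finset.sum_const, ← Finset.sum_add_distrib]
    refine Finset.sum_congr rfl fun u _ => ?_
    rw [← Finset.add_sum_erase _ _ (Finset.mem_univ (1 : E))]
    simp [hm]
  have h3 : ∑ u : U, f u = ∑ x ∈ Finset.univ.filter (fun x => x ∈ U), f x :=
    (Finset.sum_subtype _ (fun x => by simp) f).symm
  rw [h2, h3, ← Finset.sum_filter_add_sum_filter_not Finset.univ (fun x => x ∈ U)]
  abel

section modular

variable {p : ℕ} [hp : Fact p.Prime] {k : ℕ}

theorem isLocalRing_zmod_pow : IsLocalRing (ZMod (p ^ (k + 1))) := by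
  haveI : Fact (1 < p ^ (k + 1)) := ⟨Nat.one_lt_pow k.succ_ne_zero hp.out.one_lt⟩
  haveI : NeZero (p ^ (k + 1)) := ⟨pow_ne_zero _ hp.out.ne_zero⟩
  set f := ZMod.castHom (dvd_pow_self p k.succ_ne_zero) (ZMod p)
  have hu : ∀ a, f a ≠ 0 → IsUnit a := by
    intro a ha
    rw [← ZMod.natCast_zmod_val a] at ha ⊢
    rw [map_natCast, Ne, ZMod.natCast_eq_zero_iff] at ha
    exact (ZMod.isUnit_iff_coprime _ _).mpr (((hp.out.coprime_iff_not_dvd.mpr ha).symm).pow_right _)
  refine IsLocalRing.of_isUnit_or_isUnit_one_sub_self fun a => ?_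
  by_cases h : f a = 0
  · exact Or.inr (hu _ (by rw [map_sub, map_one, h, sub_zero]; exact one_ne_zero))
  · exact Or.inl (hu a h)

variable {d : ℕ}

theorem card_reduction_le (W : Submodule (ZMod (p ^ (k + 1))) (Fin d → ZMod (p ^ (k + 1))))
    [Module.Free (ZMod (p ^ (k + 1))) W] [Module.Finite (ZMod (p ^ (k + 1))) W]
    (S : Set (Fin d → ZMod p))
    (hS : ∀ s ∈ S, ∃ w ∈ W, ∀ j, s j = ZMod.castHom (dvd_pow_self p k.succ_ne_zero) (ZMod p) (w j)) :
    Nat.card S ≤ p ^ Module.finrank (ZMod (p ^ (k + 1))) W := by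
  haveI : Fact (1 < p ^ (k + 1)) := ⟨Nat.one_lt_pow k.succ_ne_zero hp.out.one_lt⟩
  set b := Module.finBasis (ZMod (p ^ (k + 1))) W
  set f := ZMod.castHom (dvd_pow_self p k.succ_ne_zero) (ZMod p)
  let F : (Fin (Module.finrank (ZMod (p ^ (k + 1))) W) → ZMod p) → (Fin d → ZMod p) :=
    fun c j => ∑ i, c i * f ((b i : Fin d → ZMod (p ^ (k + 1))) j)
  have h : S ⊆ Set.range F := by
    intro s hs
    obtain ⟨w, hw, hsw⟩ := hS s hs
    refine ⟨fun i => f (b.repr ⟨w, hw⟩ i), funext fun j => ?_⟩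
    have h1 := congrArg (fun z : W => f ((z : Fin d → ZMod (p ^ (k + 1))) j)) (b.sum_repr ⟨w, hw⟩)
    simp only [Submodule.coe_sum, Submodule.coe_smul, Finset.sum_apply, Pi.smul_apply, smul_eq_mul,
      map_sum, map_mul] at h1
    rw [hsw j]
    exact h1
  refine le_trans (Nat.card_mono (Set.finite_range F) h) (le_trans (Finite.card_range_le F) ?_)
  simp

/-- The trace of an idempotent is the rank of its reduction. -/
theorem idem_trace (P : Matrix (Fin d) (Fin d) (ZMod (p ^ (k + 1)))) (hP : P * P = P) :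
    ∃ r : ℕ, r ≤ d ∧ Matrix.trace P = (r : ZMod (p ^ (k + 1))) ∧
      Nat.card (Set.range fun v => FGS4.FPFMod.red (dvd_pow_self p k.succ_ne_zero) P *ᵥ v) = p ^ r := by
  haveI := isLocalRing_zmod_pow (p := p) (k := k)
  haveI : Fact (1 < p ^ (k + 1)) := ⟨Nat.one_lt_pow k.succ_ne_zero hp.out.one_lt⟩
  haveI : NeZero (p ^ (k + 1)) := ⟨pow_ne_zero _ hp.out.ne_zero⟩
  set f : (Fin d → (ZMod (p ^ (k + 1)))) →ₗ[(ZMod (p ^ (k + 1)))] (Fin d → (ZMod (p ^ (k + 1)))) := Matrix.toLin' P with hf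
  have hidem : IsIdempotentElem f := by
    show f * f = f
    rw [hf, Module.End.mul_eq_comp, ← Matrix.toLin'_mul, hP]
  have hproj := LinearMap.IsIdempotentElem.isProj_range f hidem
  have hfix : ∀ x ∈ LinearMap.range f, f x = x := hproj.map_id
  haveI : Module.Finite (ZMod (p ^ (k + 1))) (LinearMap.range f) := Module.Finite.of_finite
  haveI : Module.Finite (ZMod (p ^ (k + 1))) (LinearMap.ker f) := Module.Finite.of_finite
  haveI : Module.Projective (ZMod (p ^ (k + 1))) (LinearMap.range f) :=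
    Module.Projective.of_split (LinearMap.range f).subtype f.rangeRestrict
      (LinearMap.ext fun x => Subtype.ext (hfix _ x.2))
  haveI : Module.Projective (ZMod (p ^ (k + 1))) (LinearMap.ker f) :=
    Module.Projective.of_split (LinearMap.ker f).subtype
      (LinearMap.codRestrict (LinearMap.ker f) (LinearMap.id - f) (fun x => by
        rw [LinearMap.mem_ker, LinearMap.sub_apply, LinearMap.id_apply, map_sub,
          hfix _ (LinearMap.mem_range_self f x), sub_self]))
      (LinearMap.ext fun x => Subtype.ext (by simp [LinearMap.mem_ker.mp x.2]))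
  haveI : Module.Free (ZMod (p ^ (k + 1))) (LinearMap.range f) := Module.free_of_flat_of_isLocalRing
  haveI : Module.Free (ZMod (p ^ (k + 1))) (LinearMap.ker f) := Module.free_of_flat_of_isLocalRing
  set r := Module.finrank (ZMod (p ^ (k + 1))) (LinearMap.range f) with hr
  set s := Module.finrank (ZMod (p ^ (k + 1))) (LinearMap.ker f) with hs
  have hrs : r + s = d := by
    rw [hr, hs, ← Module.finrank_prod, (Submodule.prodEquivOfIsCompl _ _ hproj.isCompl).finrank_eq,
      Module.finrank_fin_fun]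
  refine ⟨r, by omega, ?_, ?_⟩
  · rw [← Matrix.trace_toLin'_eq, ← hf, LinearMap.IsProj.trace hproj]
  set c := ZMod.castHom (dvd_pow_self p k.succ_ne_zero) (ZMod p) with hc
  set P₀ := FGS4.FPFMod.red (dvd_pow_self p k.succ_ne_zero) P with hP₀
  have hlift : ∀ v : Fin d → ZMod p, ∃ w : Fin d → (ZMod (p ^ (k + 1))), c ∘ w = v := fun v =>
    ⟨fun j => ((v j).val : (ZMod (p ^ (k + 1)))), funext fun j => by simp [hc]⟩
  have hmv : ∀ (w : Fin d → (ZMod (p ^ (k + 1)))) j, (P₀ *ᵥ (c ∘ w)) j = c ((P *ᵥ w) j) := fun w j => by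
    rw [RingHom.map_mulVec]; rfl
  set S := Set.range fun v => P₀ *ᵥ v
  set T := Set.range fun v => v - P₀ *ᵥ v
  have h1 : Nat.card S ≤ p ^ r := card_reduction_le _ S (by
    rintro x ⟨v, rfl⟩
    obtain ⟨w, rfl⟩ := hlift v
    exact ⟨P *ᵥ w, ⟨w, Matrix.toLin'_apply P w⟩, fun j => hmv w j⟩)
  have h2 : Nat.card T ≤ p ^ s := card_reduction_le _ T (by
    rintro x ⟨v, rfl⟩
    obtain ⟨w, rfl⟩ := hlift v
    refine ⟨w - P *ᵥ w, ?_, fun j => ?_⟩
    · rw [LinearMap.mem_ker, map_sub, hf, Matrix.toLin'_apply, Matrix.toLin'_apply,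
        Matrix.mulVec_mulVec, hP, sub_self]
    · show (c ∘ w) j - (P₀ *ᵥ (c ∘ w)) j = c (w j - (P *ᵥ w) j)
      rw [hmv]
      simp [hc])
  have h3 : p ^ d ≤ Nat.card S * Nat.card T := by
    rw [← Nat.card_prod]
    refine le_of_eq_of_le (by simp) (Nat.card_le_card_of_injective
      (fun v : Fin d → ZMod p => ((⟨_, v, rfl⟩, ⟨_, v, rfl⟩) : S × T)) fun v w h => ?_)
    have e1 := congrArg Subtype.val (congrArg Prod.fst h)
    have e2 := congrArg Subtype.val (congrArg Prod.snd h)
    simp only at e1 e2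
    rw [e1] at e2
    exact sub_left_injective e2
  refine le_antisymm h1 (Nat.le_of_mul_le_mul_right ?_ (pow_pos hp.out.pos s))
  rw [← pow_add, hrs]
  exact h3.trans (Nat.mul_le_mul_left _ h2)

theorem fixed_trace {Γ : Type*} [Group Γ] [Fintype Γ] (ρ : Γ →* Matrix (Fin d) (Fin d) (ZMod p))
    (σ : Γ →* Matrix (Fin d) (Fin d) (ZMod (p ^ (k + 1))))
    (hσ : ((FGS4.FPFMod.red (dvd_pow_self p k.succ_ne_zero) : _ →+* Matrix (Fin d) (Fin d) (ZMod p)) :
      _ →* Matrix (Fin d) (Fin d) (ZMod p)).comp σ = ρ) (X : Subgroup Γ) (hX : ¬ p ∣ Nat.card X) :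
    ∃ r : ℕ, r ≤ d ∧ Nat.card {v : Fin d → ZMod p // ∀ x ∈ X, ρ x *ᵥ v = v} = p ^ r ∧
      Matrix.trace (∑ x : X, σ x) = ((Nat.card X * r : ℕ) : ZMod (p ^ (k + 1))) := by
  have hu : IsUnit (Nat.card X : ZMod (p ^ (k + 1))) :=
    (ZMod.isUnit_iff_coprime _ _).mpr ((hp.out.coprime_iff_not_dvd.mpr hX).symm.pow_right _)
  obtain ⟨u, huX⟩ := hu
  set red := FGS4.FPFMod.red (n := d) (dvd_pow_self p k.succ_ne_zero) with hred
  have hσ' : ∀ x, red (σ x) = ρ x := fun x => DFunLike.congr_fun hσ x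
  set P := (↑u⁻¹ : ZMod (p ^ (k + 1))) • ∑ x : X, σ x with hP
  have hxP : ∀ y ∈ X, σ y * P = P := by
    intro y hy
    rw [hP, Matrix.mul_smul, Finset.mul_sum]
    congr 1
    exact Fintype.sum_equiv (Equiv.mulLeft (⟨y, hy⟩ : X)) _ _ fun x => by simp
  have hsum : ∑ x : X, σ x = (Nat.card X : ZMod (p ^ (k + 1))) • P := by
    rw [hP, smul_smul, ← huX, Units.mul_inv, one_smul]
  have hPP : P * P = P := by
    conv_lhs => arg 1; rw [hP]
    rw [Matrix.smul_mul, Finset.sum_mul, Finset.sum_congr rfl (g := fun _ => P) (fun (x : X) _ => hxP x x.2), Finset.sum_const,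
      Finset.card_univ, ← Nat.card_eq_fintype_card, ← Nat.cast_smul_eq_nsmul (ZMod (p ^ (k + 1))),
      smul_smul, ← huX, Units.inv_mul, one_smul]
  obtain ⟨r, hr, htr, hcard⟩ := idem_trace P hPP
  refine ⟨r, hr, ?_, by rw [hsum, Matrix.trace_smul, htr, smul_eq_mul, Nat.cast_mul]⟩
  rw [← hcard]
  refine Nat.card_congr (Equiv.subtypeEquivRight fun v => ⟨fun h => ⟨v, ?_⟩, ?_⟩)
  · have h1 : ((Nat.card X : ZMod p)) • (red P *ᵥ v) = (Nat.card X : ZMod p) • v := by
      have h2 : red (∑ x : X, σ x) = (Nat.card X : ZMod p) • red P := by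
        rw [hsum, Nat.cast_smul_eq_nsmul, map_nsmul, Nat.cast_smul_eq_nsmul]
      rw [← Matrix.smul_mulVec, ← h2, map_sum, Matrix.sum_mulVec,
        Finset.sum_congr rfl (fun x _ => by rw [hσ', h x x.2]), Finset.sum_const, Finset.card_univ,
        ← Nat.card_eq_fintype_card, Nat.cast_smul_eq_nsmul]
    have hne : (Nat.card X : ZMod p) ≠ 0 := by
      rw [Ne, ZMod.natCast_eq_zero_iff]; exact hX
    exact smul_right_injective _ hne h1
  · rintro ⟨w, rfl⟩ x hx
    show ρ x *ᵥ (red P *ᵥ w) = red P *ᵥ w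
    rw [← hσ', Matrix.mulVec_mulVec, ← map_mul, hxP x hx]

end modular

/-- The formula for an elementary abelian module. -/
theorem frob_fixed_module {Γ : Type*} [Group Γ] [Fintype Γ] {p d : ℕ} [hp : Fact p.Prime]
    (ρ : Γ →* Matrix (Fin d) (Fin d) (ZMod p)) (hΓ : ¬ p ∣ Nat.card Γ) (U E : Subgroup Γ)
    [U.Normal] (hcard : Nat.card Γ = Nat.card U * Nat.card E) (hUE : U ⊓ E = ⊥)
    (hfpf : ∀ e ∈ E, e ≠ 1 → ∀ u ∈ U, e * u = u * e → u = 1) :
    Nat.card {v : Fin d → ZMod p // ∀ x ∈ (⊤ : Subgroup Γ), ρ x *ᵥ v = v} ^ Nat.card E * p ^ d =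
      Nat.card {v : Fin d → ZMod p // ∀ x ∈ E, ρ x *ᵥ v = v} ^ Nat.card E *
        Nat.card {v : Fin d → ZMod p // ∀ x ∈ U, ρ x *ᵥ v = v} := by
  set k := 3 * Nat.card Γ * d with hk
  obtain ⟨σ, hσ⟩ := FGS4.FPFMod.exists_lift_level hΓ ρ k
  have hdvd : ∀ X : Subgroup Γ, ¬ p ∣ Nat.card X := fun X h => hΓ (h.trans X.card_subgroup_dvd_card)
  obtain ⟨a, ha, hac, hat⟩ := fixed_trace ρ σ hσ (⊤ : Subgroup Γ) (hdvd _)
  obtain ⟨b, hb, hbc, hbt⟩ := fixed_trace ρ σ hσ U (hdvd _)
  obtain ⟨c, hc, hcc, hct⟩ := fixed_trace ρ σ hσ E (hdvd _)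
  have h := congrArg Matrix.trace (sum_frobenius U E hcard hUE hfpf (fun x => σ x))
  rw [Matrix.trace_add, Matrix.trace_add, map_one, Matrix.trace_smul, Matrix.trace_one,
    Fintype.card_fin, hbt, Matrix.trace_sum, Matrix.trace_sum] at h
  have e1 : ∑ x : Γ, Matrix.trace (σ x) = Matrix.trace (∑ x : (⊤ : Subgroup Γ), σ x) := by
    rw [Matrix.trace_sum]
    exact (Fintype.sum_equiv (Subgroup.topEquiv (G := Γ)).toEquiv _ _ fun x => rfl).symm
  have e2 : ∀ u : U, Matrix.trace (∑ e : E, σ (u * e * (u : Γ)⁻¹)) = Matrix.trace (∑ e : E, σ e) := by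
    intro u
    rw [Matrix.trace_sum, Matrix.trace_sum]
    refine Finset.sum_congr rfl fun e _ => ?_
    rw [map_mul, map_mul, Matrix.trace_mul_comm, ← mul_assoc, ← map_mul, inv_mul_cancel, map_one,
      one_mul]
  rw [e1, hat, Finset.sum_congr rfl (fun u _ => e2 u), Finset.sum_const, Finset.card_univ,
    ← Nat.card_eq_fintype_card, hct, Subgroup.card_top, nsmul_eq_mul, nsmul_eq_mul, ← Nat.cast_mul,
    ← Nat.cast_mul, ← Nat.cast_add, ← Nat.cast_add] at h
  have hlt : k < p ^ (k + 1) := lt_trans k.lt_succ_self (Nat.lt_pow_self hp.out.one_lt)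
  have hUle : Nat.card U ≤ Nat.card Γ := Subgroup.card_le_card_group U
  rw [ZMod.natCast_eq_natCast_iff', Nat.mod_eq_of_lt, Nat.mod_eq_of_lt] at h
  · have h' : Nat.card E * a + d = b + Nat.card E * c := by
      refine Nat.eq_of_mul_eq_mul_left (Nat.card_pos (α := U)) ?_
      rw [hcard] at h
      linarith
    rw [hac, hbc, hcc, ← pow_mul, ← pow_mul, ← pow_add, ← pow_add, mul_comm a, h', mul_comm c,
      add_comm]
  · have h1 : Nat.card U * b ≤ Nat.card Γ * d := Nat.mul_le_mul hUle hb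
    have h2 : Nat.card U * (Nat.card E * c) ≤ Nat.card Γ * d := by
      rw [← mul_assoc, ← hcard]; exact Nat.mul_le_mul_left _ hc
    rw [hk] at hlt ⊢
    nlinarith
  · have h1 : Nat.card U * d ≤ Nat.card Γ * d := Nat.mul_le_mul_right _ hUle
    have h2 : Nat.card Γ * a ≤ Nat.card Γ * d := Nat.mul_le_mul_left _ ha
    rw [hk] at hlt ⊢
    nlinarith

section group

variable {Γ : Type*} [Group Γ]

/-- The fixed subgroup of a set of automorphisms. -/
def fixGroup {H : Type*} [Group H] (φ : Γ →* MulAut H) (X : Subgroup Γ) : Subgroup H where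
  carrier := {h | ∀ x ∈ X, φ x h = h}
  one_mem' x _ := map_one _
  mul_mem' ha hb x hx := by rw [map_mul, ha x hx, hb x hx]
  inv_mem' ha x hx := by rw [map_inv, ha x hx]

/-- The action restricted to an invariant subgroup. -/
def restrictAct {H : Type*} [Group H] (φ : Γ →* MulAut H) (N : Subgroup H)
    (hN : ∀ x, ∀ n ∈ N, φ x n ∈ N) : Γ →* MulAut N where
  toFun x :=
    { toFun := fun n => ⟨φ x n, hN x n n.2⟩
      invFun := fun n => ⟨φ x⁻¹ n, hN _ n n.2⟩
      left_inv := fun n => Subtype.ext (by simp)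
      right_inv := fun n => Subtype.ext (by simp)
      map_mul' := fun a b => Subtype.ext (by simp) }
  map_one' := by ext n; simp
  map_mul' x y := by ext n; simp

/-- The action on the quotient by an invariant normal subgroup. -/
def quotientAct {H : Type*} [Group H] (φ : Γ →* MulAut H) (N : Subgroup H) [N.Normal]
    (hN : ∀ x, N.map (φ x).toMonoidHom = N) : Γ →* MulAut (H ⧸ N) where
  toFun x := QuotientGroup.congr N N (φ x) (hN x)
  map_one' := by
    ext h; obtain ⟨h, rfl⟩ := QuotientGroup.mk_surjective h; simp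
  map_mul' x y := by
    ext h
    obtain ⟨h, rfl⟩ := QuotientGroup.mk_surjective h
    simp only [MulAut.mul_apply, map_mul]
    rfl

theorem map_eq_of_invariant {H : Type*} [Group H] (φ : Γ →* MulAut H) (N : Subgroup H)
    (hN : ∀ x, ∀ n ∈ N, φ x n ∈ N) (x : Γ) : N.map (φ x).toMonoidHom = N := by
  refine le_antisymm ?_ fun n hn => ⟨φ x⁻¹ n, hN _ n hn, by simp⟩
  rintro _ ⟨n, hn, rfl⟩
  exact hN x n hn

theorem card_fix_split [Finite Γ] {H : Type*} [Group H] [Finite H] (φ : Γ →* MulAut H)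
    (N : Subgroup H) [N.Normal] (hN : ∀ x, ∀ n ∈ N, φ x n ∈ N)
    (hab : ∀ a ∈ N, ∀ b ∈ N, a * b = b * a) (hcop : (Nat.card H).Coprime (Nat.card Γ))
    (X : Subgroup Γ) :
    Nat.card (fixGroup φ X) = Nat.card (fixGroup (restrictAct φ N hN) X) *
      Nat.card (fixGroup (quotientAct φ N (map_eq_of_invariant φ N hN)) X) := by
  set f := (QuotientGroup.mk' N).comp (fixGroup φ X).subtype with hf
  have hker : Nat.card f.ker = Nat.card (fixGroup (restrictAct φ N hN) X) := by
    refine Nat.card_congr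
      ⟨fun z => ⟨⟨z.1.1, (QuotientGroup.eq_one_iff _).mp z.2⟩, fun x hx => Subtype.ext (z.1.2 x hx)⟩,
        fun z => ⟨⟨z.1.1, fun x hx => congrArg Subtype.val (z.2 x hx)⟩,
          (QuotientGroup.eq_one_iff _).mpr z.1.2⟩, fun z => rfl, fun z => rfl⟩
  have hrange : f.range = fixGroup (quotientAct φ N (map_eq_of_invariant φ N hN)) X := by
    refine le_antisymm ?_ ?_
    · rintro _ ⟨z, rfl⟩ x hx
      show ((φ x z.1 : H) : H ⧸ N) = _
      rw [z.2 x hx]
      rfl
    · intro q hq
      obtain ⟨h, rfl⟩ := QuotientGroup.mk_surjective q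
      have hmem : ∀ x : X, h⁻¹ * φ x h ∈ N := fun x => by
        rw [← QuotientGroup.eq]
        exact (hq x x.2).symm
      haveI : Fintype X := Fintype.ofFinite _
      letI : CommGroup N := { (inferInstance : Group N) with
        mul_comm := fun a b => Subtype.ext (hab a a.2 b b.2) }
      set ψ := restrictAct φ N hN with hψ
      set c : X → N := fun x => ⟨h⁻¹ * φ x h, hmem x⟩
      have hc : ∀ x y : X, c (x * y) = c x * ψ x (c y) := fun x y => Subtype.ext (by
        show h⁻¹ * φ ((x * y : X) : Γ) h = (h⁻¹ * φ x h) * φ x (h⁻¹ * φ y h)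
        rw [Subgroup.coe_mul, map_mul, MulAut.mul_apply, map_mul, map_inv]
        group)
      have hcopN : (Nat.card N).Coprime (Nat.card X) :=
        (hcop.coprime_dvd_left N.card_subgroup_dvd_card).coprime_dvd_right X.card_subgroup_dvd_card
      obtain ⟨n, hn⟩ := (powCoprime hcopN).surjective (∏ y, c y)
      change n ^ Nat.card X = ∏ y, c y at hn
      have hfix : ∀ x : X, c x * ψ x n = n := by
        intro x
        apply (powCoprime hcopN).injective
        show (c x * ψ x n) ^ Nat.card X = n ^ Nat.card X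
        rw [mul_pow, ← map_pow, hn, map_prod, Nat.card_eq_fintype_card, ← Finset.card_univ,
          ← Finset.prod_const, ← Finset.prod_mul_distrib]
        exact Fintype.prod_equiv (Equiv.mulLeft x) _ _ fun y => (hc x y).symm
      refine ⟨⟨h * n, fun x hx => ?_⟩, (QuotientGroup.eq.mpr ?_).symm⟩
      · have h1 : (h⁻¹ * φ x h) * φ x (n : H) = (n : H) := congrArg Subtype.val (hfix ⟨x, hx⟩)
        calc φ x (h * n) = h * ((h⁻¹ * φ x h) * φ x (n : H)) := by rw [map_mul]; group
          _ = h * n := by rw [h1]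
      · show h⁻¹ * (h * n) ∈ N
        rw [inv_mul_cancel_left]; exact n.2
  rw [← hker, ← hrange, Subgroup.card_eq_card_quotient_mul_card_subgroup f.ker, mul_comm,
    Nat.card_congr (QuotientGroup.quotientKerEquivRange f).toEquiv]

/-- The formula for a solvable group. -/
theorem frob_fixed_formula_aux [Fintype Γ] (U E : Subgroup Γ) [U.Normal]
    (hcard : Nat.card Γ = Nat.card U * Nat.card E) (hUE : U ⊓ E = ⊥)
    (hfpf : ∀ e ∈ E, e ≠ 1 → ∀ u ∈ U, e * u = u * e → u = 1) :
    ∀ (n : ℕ) (H : Type v) [Group H] [Finite H], Nat.card H = n → Group.IsSolvable H →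
      (Nat.card H).Coprime (Nat.card Γ) → ∀ φ : Γ →* MulAut H,
      Nat.card (fixGroup φ ⊤) ^ Nat.card E * Nat.card H =
        Nat.card (fixGroup φ E) ^ Nat.card E * Nat.card (fixGroup φ U) := by
  intro n
  induction n using Nat.strong_induction_on with
  | _ n ih =>
  intro H _ _ hn hsolv hcop φ
  haveI := hsolv
  by_cases hsplit : ∃ N : Subgroup H, N.Normal ∧ (∀ x, ∀ m ∈ N, φ x m ∈ N) ∧
      (∀ a ∈ N, ∀ b ∈ N, a * b = b * a) ∧ N ≠ ⊥ ∧ N ≠ ⊤
  · obtain ⟨N, hNn, hN, hab, hN1, hN2⟩ := hsplit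
    haveI := hNn
    have hi : 1 < N.index := Nat.one_lt_iff_ne_zero_and_ne_one.mpr
      ⟨Subgroup.index_ne_zero_of_finite, fun h => hN2 (Subgroup.index_eq_one.mp h)⟩
    have hN' : 1 < Nat.card N := (Subgroup.one_lt_card_iff_ne_bot N).mpr hN1
    have hq : Nat.card (H ⧸ N) = N.index := rfl
    have hmul := N.index_mul_card
    have h1 := ih (Nat.card N) (by rw [← hn, ← hmul]; exact lt_mul_of_one_lt_left (by omega) hi) N rfl
      inferInstance (hcop.coprime_dvd_left N.card_subgroup_dvd_card) (restrictAct φ N hN)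
    have h2 := ih (Nat.card (H ⧸ N)) (by rw [← hn, hq, ← hmul]; exact lt_mul_of_one_lt_right (by omega) hN')
      (H ⧸ N) rfl inferInstance (hcop.coprime_dvd_left (hq ▸ N.index_dvd_card))
      (quotientAct φ N (map_eq_of_invariant φ N hN))
    rw [card_fix_split φ N hN hab hcop, card_fix_split φ N hN hab hcop, card_fix_split φ N hN hab hcop,
      ← hmul, ← hq, mul_pow, mul_pow]
    calc _ = (Nat.card (fixGroup (restrictAct φ N hN) ⊤) ^ Nat.card E * Nat.card N) *
          (Nat.card (fixGroup (quotientAct φ N (map_eq_of_invariant φ N hN)) ⊤) ^ Nat.card E *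
            Nat.card (H ⧸ N)) := by ring
      _ = _ := by rw [h1, h2]; ring
  rcases subsingleton_or_nontrivial H with hH | hH
  · simp
  push Not at hsplit
  -- abelian
  have hcomm : ∀ a b : H, a * b = b * a := by
    obtain ⟨hex⟩ := hsolv
    set m := Nat.find hex with hm
    have hm0 : m ≠ 0 := fun h0 => by
      have := Nat.find_spec hex
      rw [← hm, h0, derivedSeries_zero] at this
      exact top_ne_bot this
    set D := derivedSeries H (m - 1) with hD
    have hDab : ∀ a ∈ D, ∀ b ∈ D, a * b = b * a := by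
      intro a ha b hb
      have h := Subgroup.commutator_mem_commutator ha hb
      rw [hD, ← derivedSeries_succ, Nat.sub_add_cancel (Nat.one_le_iff_ne_zero.mpr hm0),
        Nat.find_spec hex, Subgroup.mem_bot] at h
      exact mul_inv_eq_iff_eq_mul.mp (mul_inv_eq_one.mp h)
    have hDb : D ≠ ⊥ := Nat.find_min hex (show m - 1 < m by omega)
    haveI : D.Characteristic := derivedSeries_characteristic H (m - 1)
    have hDt : D = ⊤ := hsplit D inferInstance (fun x a ha => by
      rw [← Subgroup.characteristic_iff_map_eq.mp ‹D.Characteristic› (φ x)]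
      exact Subgroup.mem_map_of_mem _ ha) hDab hDb
    intro a b
    exact hDab a (hDt ▸ Subgroup.mem_top a) b (hDt ▸ Subgroup.mem_top b)
  -- exponent
  obtain ⟨p, hp, hpd⟩ := Nat.exists_prime_and_dvd (Finite.one_lt_card (α := H)).ne'
  haveI : Fact p.Prime := ⟨hp⟩
  let Ω : Subgroup H :=
    { carrier := {h | h ^ p = 1}
      one_mem' := one_pow _
      mul_mem' := fun {a b} ha hb => by
        show (a * b) ^ p = 1
        rw [(show Commute a b from hcomm a b).mul_pow, ha, hb, one_mul]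
      inv_mem' := fun {a} ha => by show a⁻¹ ^ p = 1; rw [inv_pow, ha, inv_one] }
  have hΩ : ∀ h : H, h ^ p = 1 := by
    obtain ⟨z, hz⟩ := exists_prime_orderOf_dvd_card' (G := H) p hpd
    have hΩn : Ω.Normal := ⟨fun a ha g => by rwa [hcomm g a, mul_inv_cancel_right]⟩
    have hΩt : Ω = ⊤ := hsplit Ω hΩn (fun x a ha => by
      show φ x a ^ p = 1
      rw [← map_pow, show a ^ p = 1 from ha, map_one]) (fun a _ b _ => hcomm a b) fun h0 => by
      have : z ∈ Ω := by show z ^ p = 1; rw [← hz, pow_orderOf_eq_one]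
      rw [h0, Subgroup.mem_bot] at this
      rw [this, orderOf_one] at hz
      exact hp.one_lt.ne hz
    intro h
    exact (hΩt ▸ Subgroup.mem_top h : h ∈ Ω)
  letI : CommGroup H := { (inferInstance : Group H) with mul_comm := hcomm }
  haveI : Module (ZMod p) (Additive H) :=
    AddCommGroup.zmodModule (fun a => Additive.toMul.injective (hΩ a.toMul))
  let b₀ := Module.Basis.ofVectorSpace (ZMod p) (Additive H)
  haveI : Finite ↥(Module.Basis.ofVectorSpaceIndex (ZMod p) (Additive H)) := Subtype.finite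
  set d := Nat.card ↥(Module.Basis.ofVectorSpaceIndex (ZMod p) (Additive H)) with hd
  let b : Module.Basis (Fin d) (ZMod p) (Additive H) := b₀.reindex (Finite.equivFin _)
  let L : Γ →* Module.End (ZMod p) (Additive H) :=
    { toFun := fun x => (MonoidHom.toAdditive (φ x).toMonoidHom).toZModLinearMap p
      map_one' := LinearMap.ext fun a => by
        show Additive.ofMul (φ 1 a.toMul) = a
        rw [map_one]; rfl
      map_mul' := fun x y => LinearMap.ext fun a => by
        show Additive.ofMul (φ (x * y) a.toMul) = Additive.ofMul (φ x (φ y a.toMul))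
        rw [map_mul]; rfl }
  let ρ : Γ →* Matrix (Fin d) (Fin d) (ZMod p) :=
    { toFun := fun x => LinearMap.toMatrixAlgEquiv b (L x)
      map_one' := by rw [map_one, map_one]
      map_mul' := fun x y => by rw [map_mul, map_mul] }
  have hρ : ∀ x a, ρ x *ᵥ b.equivFun (Additive.ofMul a) = b.equivFun (Additive.ofMul (φ x a)) := by
    intro x a
    exact LinearMap.toMatrix_mulVec_repr b b (L x) _
  have hfix : ∀ X : Subgroup Γ, Nat.card (fixGroup φ X) =
      Nat.card {v : Fin d → ZMod p // ∀ x ∈ X, ρ x *ᵥ v = v} := by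
    intro X
    refine Nat.card_congr ((Additive.ofMul.trans b.equivFun.toEquiv).subtypeEquiv fun a => ?_)
    refine forall₂_congr fun x _ => ?_
    show φ x a = a ↔ ρ x *ᵥ b.equivFun (Additive.ofMul a) = b.equivFun (Additive.ofMul a)
    rw [hρ]
    exact ⟨fun h => by rw [h], fun h => Additive.ofMul.injective (b.equivFun.injective h)⟩
  have hHd : Nat.card H = p ^ d := by
    rw [Nat.card_congr (Additive.ofMul.trans b.equivFun.toEquiv)]
    simp
  rw [hfix, hfix, hfix, hHd]
  exact frob_fixed_module ρ (fun h => hp.not_dvd_one (by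
    rw [← hcop.gcd_eq_one]; exact Nat.dvd_gcd hpd h)) U E hcard hUE hfpf

end group

end Cfsg.Agent.OddChar
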