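import Cfsg.Agent.OddChar.Elem
import Mathlib.Algebra.BigOperators.Field

/-!
Averaging a class function over a coset of a normalised subgroup of coprime order.
-/

set_option autoImplicit false

open scoped Classical

namespace Cfsg.Agent.OddChar

variable {G : Type*} [Group G] [Finite G]

theorem coset_average {k : Type*} [Field k] [CharZero k] (K : Subgroup G) (g : G)
    (hg : g ∈ Subgroup.normalizer (K : Set G)) (hcop : Nat.Coprime (orderOf g) (Nat.card K))
    (C : Subgroup G) (hC : C = K ⊓ Subgroup.centralizer ({g} : Set G)) [Fintype K] [Fintype C]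
    (f : G → k) (hf : ∀ x h : G, f (h * x * h⁻¹) = f x) :
    (Nat.card K : k)⁻¹ * ∑ u : K, f (g * u) = (Nat.card C : k)⁻¹ * ∑ c : C, f (g * c) := by
  obtain ⟨m, hm⟩ := exists_split_exponent hcop
  have hCg : ∀ c ∈ C, g * c = c * g := fun c hc => mem_centralizer_singleton.mp (hC ▸ hc : c ∈ K ⊓ _).2
  have hCK : C ≤ K := hC ▸ inf_le_left
  have hn := Subgroup.mem_normalizer_iff''.mp hg
  let F : (K ⧸ C.subgroupOf K) × C → K := fun p =>
    ⟨g⁻¹ * ((p.1.out : G) * (g * p.2) * (p.1.out : G)⁻¹), by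
      have h2 : g⁻¹ * (p.1.out : G) * g ∈ K := (hn _).mp p.1.out.2
      simpa [mul_assoc] using K.mul_mem (K.mul_mem h2 (hCK p.2.2)) (K.inv_mem p.1.out.2)⟩
  have hinj : Function.Injective F := by
    rintro ⟨q, c⟩ ⟨q', c'⟩ he
    have he' : (q.out : G) * (g * c) * (q.out : G)⁻¹ = (q'.out : G) * (g * c') * (q'.out : G)⁻¹ := by
      have := congrArg Subtype.val he
      simpa [F] using this
    have hp : ∀ x ∈ C, (g * x) ^ m = g := fun x hx =>
      hm g x (hCg x hx) (pow_orderOf_eq_one g) (pow_card_eq_one_of_mem K (hCK hx))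
    have hg' : (q.out : G) * g * (q.out : G)⁻¹ = (q'.out : G) * g * (q'.out : G)⁻¹ := by
      have := congrArg (· ^ m) he'
      simpa [conj_pow, hp c c.2, hp c' c'.2] using this
    have hq : q = q' := by
      rw [← q.out_eq', ← q'.out_eq', QuotientGroup.eq, Subgroup.mem_subgroupOf]
      refine hC.ge ⟨((q.out)⁻¹ * q'.out).2, mem_centralizer_singleton.mpr ?_⟩
      push_cast
      calc g * ((q.out : G)⁻¹ * (q'.out : G))
          = (q.out : G)⁻¹ * ((q.out : G) * g * (q.out : G)⁻¹) * (q'.out : G) := by group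
        _ = (q.out : G)⁻¹ * (q'.out : G) * g := by rw [hg']; group
    subst hq
    exact Prod.ext rfl (Subtype.ext (by simpa using he'))
  have hcard : Nat.card ((K ⧸ C.subgroupOf K) × C) = Nat.card K := by
    rw [Nat.card_prod, ← Subgroup.index_eq_card,
      ← Nat.card_congr (Subgroup.subgroupOfEquivOfLe hCK).toEquiv, Subgroup.index_mul_card]
  have hbij : Function.Bijective F := (Nat.bijective_iff_injective_and_card F).mpr ⟨hinj, hcard⟩
  haveI : Fintype (K ⧸ C.subgroupOf K) := Fintype.ofFinite _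
  rw [← Fintype.sum_bijective F hbij (fun p => f (g * p.2)) (fun u => f (g * u)) (fun p => by
    simp only [F, mul_inv_cancel_left, hf])]
  rw [Fintype.sum_prod_type, ← hcard, Nat.card_prod]
  simp only [Finset.sum_const, Finset.card_univ, nsmul_eq_mul, ← Nat.card_eq_fintype_card]
  have h1 : ((Nat.card (K ⧸ C.subgroupOf K) : ℕ) : k) ≠ 0 := Nat.cast_ne_zero.mpr Nat.card_pos.ne'
  push_cast
  field_simp

end Cfsg.Agent.OddChar
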