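import Cfsg.Agent.OddChar.NormalInd
import Cfsg.Agent.Chars.Linear
import Cfsg.Agent.Chars2.LinearExtend
import Cfsg.Agent.Chars2.ExtendChar
import Mathlib.GroupTheory.FiniteAbelian.Duality
import Mathlib.RingTheory.RootsOfUnity.EnoughRootsOfUnity
import Mathlib.Analysis.Complex.Polynomial.Basic

/-!
Induction of a character whose inertia group is abelian over the normal subgroup.
-/

set_option autoImplicit false
set_option linter.unusedSectionVars false

open scoped Classical ComplexConjugate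

namespace Cfsg.Agent.OddChar

universe u

section top

variable {T : Type u} [Group T] [Fintype T] {K : Subgroup T} [hK : K.Normal]

/-- An invariant character over a normal subgroup with abelian quotient. -/
theorem induced_invariant_abelian {θ : K → ℂ} (hθ : Cfsg.IsIrrCharacter K θ)
    (hinv : Chars2.inertiaSub θ = ⊤) (hab : ∀ x y : T, x * y * x⁻¹ * y⁻¹ ∈ K) :
    ∃ (e : ℕ) (C : Finset (T → ℂ)), 0 < e ∧ (∀ ψ ∈ C, Cfsg.IsIrrCharacter T ψ) ∧
      e ^ 2 * C.card = K.index ∧ Cfsg.indFun K θ = (e : ℂ) • ∑ ψ ∈ C, ψ ∧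
      (∀ ψ ∈ C, Cfsg.classInner (fun k : K => ψ k) θ = e) ∧ ∀ ψ ∈ C, ψ 1 = (e : ℂ) * θ 1 := by
  letI : CommGroup (T ⧸ K) :=
    { (inferInstance : Group (T ⧸ K)) with
      mul_comm := fun a b => by
        obtain ⟨x, rfl⟩ := QuotientGroup.mk_surjective a
        obtain ⟨y, rfl⟩ := QuotientGroup.mk_surjective b
        rw [← QuotientGroup.mk_mul, ← QuotientGroup.mk_mul, QuotientGroup.eq]
        simpa [mul_assoc] using hab y⁻¹ x⁻¹ }
  haveI : Finite (T ⧸ K →* ℂˣ) := Nat.finite_of_card_ne_zero (by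
    rw [CommGroup.card_monoidHom_of_hasEnoughRootsOfUnity (T ⧸ K) ℂ]
    exact Nat.card_pos.ne')
  haveI := Fintype.ofFinite (T ⧸ K →* ℂˣ)
  have hind := Chars.isCharacter_indFun K (Chars.isCharacter_of_isIrr hθ)
  obtain ⟨m, hm⟩ := Chars2.exists_multiplicities hind
  obtain ⟨ψ₀, hψ₀⟩ : ∃ ψ : Cfsg.IrrCharacter T, m ψ ≠ 0 := by
    by_contra hno
    push Not at hno
    have h1 := Chars2.apply_eq_sum (Chars.isClassFunction_of_isCharacter hind) 1
    simp only [hm, hno, Nat.cast_zero, zero_mul, Finset.sum_const_zero, Chars.indFun_apply_one,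
      mul_eq_zero] at h1
    rcases h1 with h | h
    · exact Subgroup.FiniteIndex.index_ne_zero (H := K) (by exact_mod_cast h)
    · exact Chars.irr_apply_one_ne_zero hθ h
  have hrecip : ∀ f : T → ℂ, Cfsg.IsClassFunction T f →
      Cfsg.classInner (Cfsg.indFun K θ) f = conj (Cfsg.classInner (fun k : K => f k) θ) := by
    intro f hf
    rw [Chars.classInner_indFun K θ hf, Chars.classInner_conj_symm]
  have hmult : Cfsg.classInner (fun k : K => (ψ₀ : T → ℂ) k) θ = m ψ₀ := by
    have h := hrecip _ (Chars.isClassFunction_irr ψ₀)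
    rw [hm] at h
    have h2 := congrArg conj h
    rw [Complex.conj_conj, Complex.conj_natCast] at h2
    exact h2.symm
  have hres : ∀ k : K, (ψ₀ : T → ℂ) k = (m ψ₀ : ℂ) * θ k := fun k => by
    rw [← hmult]
    exact Chars2.clifford_invariant ψ₀.2 hθ hinv (by rw [hmult]; exact_mod_cast hψ₀) k
  -- twists by the linear characters of the quotient
  let tw : (T ⧸ K →* ℂˣ) → T → ℂ := fun l t => (l (QuotientGroup.mk' K t) : ℂ) * (ψ₀ : T → ℂ) t
  have htw : ∀ l, Cfsg.IsIrrCharacter T (tw l) := fun l =>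
    Chars.isIrrCharacter_mul_hom ψ₀.2 (l.comp (QuotientGroup.mk' K))
  have htwres : ∀ l, (fun k : K => tw l k) = fun k : K => (ψ₀ : T → ℂ) k := fun l => by
    funext k
    simp [tw, (QuotientGroup.eq_one_iff (k : T)).mpr k.2]
  have hsum : ∀ q : T ⧸ K, ∑ l : T ⧸ K →* ℂˣ, (l q : ℂ) =
      if q = 1 then (Nat.card (T ⧸ K) : ℂ) else 0 := by
    intro q
    split_ifs with h
    · subst h
      simp only [map_one, Units.val_one, Finset.sum_const, Finset.card_univ, nsmul_eq_mul, mul_one]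
      rw [← Nat.card_eq_fintype_card, CommGroup.card_monoidHom_of_hasEnoughRootsOfUnity (T ⧸ K) ℂ]
    · obtain ⟨χ, hχ⟩ := CommGroup.exists_apply_ne_one_of_hasEnoughRootsOfUnity (T ⧸ K) ℂ h
      have hs : (χ q : ℂ) * ∑ l : T ⧸ K →* ℂˣ, (l q : ℂ) = ∑ l : T ⧸ K →* ℂˣ, (l q : ℂ) := by
        rw [Finset.mul_sum]
        exact Fintype.sum_equiv (Equiv.mulLeft χ) _ _ fun l => by simp
      exact (mul_left_eq_self₀.mp hs).resolve_left fun h' => hχ (Units.ext h')
  have hallsum : ∑ l : T ⧸ K →* ℂˣ, tw l = (m ψ₀ : ℂ) • Cfsg.indFun K θ := by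
    funext t
    simp only [Finset.sum_apply, tw, ← Finset.sum_mul, hsum, Pi.smul_apply, smul_eq_mul]
    by_cases ht : t ∈ K
    · rw [if_pos (show QuotientGroup.mk' K t = 1 from (QuotientGroup.eq_one_iff t).mpr ht),
        show (ψ₀ : T → ℂ) t = (ψ₀ : T → ℂ) ((⟨t, ht⟩ : K) : T) from rfl, hres,
        show Cfsg.indFun K θ t = Cfsg.indFun K θ ((⟨t, ht⟩ : K) : T) from rfl, res_indFun,
        Finset.sum_congr rfl (g := fun _ => θ ⟨t, ht⟩) (fun g _ => ?_), Finset.sum_const,
        Finset.card_univ, nsmul_eq_mul, ← Nat.card_eq_fintype_card,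
        Subgroup.card_eq_card_quotient_mul_card_subgroup K, Nat.cast_mul]
      · field_simp [Chars.subgroup_card_ne_zero K]
      · have hg : g⁻¹ ∈ Chars2.inertiaSub θ := hinv ▸ Subgroup.mem_top _
        rw [Chars2.mem_inertiaSub, ← cj_eq_conjFun] at hg
        exact congrFun hg _
    · rw [if_neg (show ¬ QuotientGroup.mk' K t = 1 from fun h => ht ((QuotientGroup.eq_one_iff t).mp h)),
        zero_mul,
        Chars.indFun_of_not_mem_normal K θ ht, mul_zero]
  let C : Finset (T → ℂ) := Finset.univ.image tw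
  have hCirr : ∀ ψ ∈ C, Cfsg.IsIrrCharacter T ψ := by
    intro ψ hψ
    obtain ⟨l, -, rfl⟩ := Finset.mem_image.mp hψ
    exact htw l
  have hCm : ∀ ψ ∈ C, Cfsg.classInner (fun k : K => ψ k) θ = m ψ₀ := by
    intro ψ hψ
    obtain ⟨l, -, rfl⟩ := Finset.mem_image.mp hψ
    rw [htwres, hmult]
  have hout : ∀ φ : Cfsg.IrrCharacter T, (φ : T → ℂ) ∉ C → m φ = 0 := by
    intro φ hφ
    by_contra hne
    have h := congrArg (fun f => Cfsg.classInner f (φ : T → ℂ)) hallsum
    simp only [Chars.classInner_sum_left, Chars.classInner_smul_left, hm] at h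
    rw [Finset.sum_eq_zero fun l _ => Chars.classInner_irr_of_ne (htw l) φ.2
      fun he => hφ (Finset.mem_image.mpr ⟨l, Finset.mem_univ _, he⟩)] at h
    exact mul_ne_zero (Nat.cast_ne_zero.mpr hψ₀) (Nat.cast_ne_zero.mpr hne) h.symm
  have hexp : Cfsg.indFun K θ = (m ψ₀ : ℂ) • ∑ ψ ∈ C, ψ := by
    refine Chars.classInner_ext (Chars.isClassFunction_of_isCharacter hind)
      (Chars.isClassFunction_smul _ (Chars.isClassFunction_sum _ _ fun ψ hψ =>
        Chars.isClassFunction_of_isCharacter (Chars.isCharacter_of_isIrr (hCirr ψ hψ)))) fun φ hφ => ?_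
    rw [Chars.classInner_smul_left, Chars.classInner_sum_left]
    by_cases hmem : φ ∈ C
    · rw [Finset.sum_eq_single_of_mem φ hmem (fun ψ hψ hne =>
        Chars.classInner_irr_of_ne (hCirr ψ hψ) hφ hne), Chars.classInner_self_irr hφ, mul_one,
        hrecip φ (Chars.isClassFunction_of_isCharacter (Chars.isCharacter_of_isIrr hφ)), hCm φ hmem,
        Complex.conj_natCast]
    · rw [Finset.sum_eq_zero (fun ψ hψ => Chars.classInner_irr_of_ne (hCirr ψ hψ) hφ
        fun he => hmem (he ▸ hψ)), mul_zero,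
        show Cfsg.classInner (Cfsg.indFun K θ) φ = m ⟨φ, hφ⟩ from hm ⟨φ, hφ⟩, hout ⟨φ, hφ⟩ hmem,
        Nat.cast_zero]
  refine ⟨m ψ₀, C, Nat.pos_of_ne_zero hψ₀, hCirr, ?_, hexp, hCm, ?_⟩
  · have h := Chars2.classInner_indFun_invariant hθ hinv
    rw [hexp, Chars.classInner_smul_left, Chars.classInner_smul_right, Complex.conj_natCast,
      Chars.classInner_sum_left, Finset.sum_congr rfl (g := fun _ => (1 : ℂ)) (fun ψ hψ => ?_),
      Finset.sum_const, nsmul_one] at h
    · apply Nat.cast_injective (R := ℂ)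
      push_cast
      rw [← h]
      ring
    · rw [Chars.classInner_sum_right, Finset.sum_eq_single_of_mem ψ hψ (fun φ hφ hne =>
        Chars.classInner_irr_of_ne (hCirr ψ hψ) (hCirr φ hφ) (Ne.symm hne)),
        Chars.classInner_self_irr (hCirr ψ hψ)]
  · intro ψ hψ
    obtain ⟨l, -, rfl⟩ := Finset.mem_image.mp hψ
    have h := congrFun (htwres l) 1
    simp only [OneMemClass.coe_one] at h
    rw [h]
    exact_mod_cast hres 1

/-- An invariant character of coprime index extends. -/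
theorem extends_of_coprime {θ : K → ℂ} (hθ : Cfsg.IsIrrCharacter K θ)
    (hinv : ∀ (g : T) (n : K), θ ⟨g * n * g⁻¹, hK.conj_mem (n : T) n.2 g⟩ = θ n)
    (hcop : Nat.Coprime K.index (Nat.card K)) :
    ∃ χ : T → ℂ, Cfsg.IsIrrCharacter T χ ∧ ∀ n : K, χ n = θ n := by
  refine Chars2.extends_of_weights θ hθ hinv fun d ρ _ hρ hsurj p hp => ?_
  by_cases hpK : p ∣ K.index
  · have hd : ¬ (p : ℤ) ∣ (Module.finrank ℂ (Fin d → ℂ) : ℤ) := by
      intro h
      have hdvd := Chars.rep_finrank_dvd_card ρ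
      exact hp.not_dvd_one (hcop ▸ Nat.dvd_gcd hpK ((Int.natCast_dvd_natCast.mp h).trans hdvd))
    have hinvd : ∀ (g : T) (n : K),
        Chars2.detHom ρ (MulAut.conjNormal g n) = Chars2.detHom ρ n := by
      intro g n
      have hc : (Representation.character (ρ.comp (MulAut.conjNormal g).toMonoidHom)) = ρ.character := by
        funext k
        show ρ.character (MulAut.conjNormal g k) = ρ.character k
        rw [hρ, Chars2.inv_conjNormal θ hinv]
      obtain ⟨e⟩ := Chars2.equiv_of_character_eq ρ (ρ.comp (MulAut.conjNormal g).toMonoidHom) hc.symm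
      have h := e.conj_apply_self n
      simp only [MonoidHom.coe_comp, Function.comp_apply, MulEquiv.toMonoidHom_eq_coe,
        MonoidHom.coe_coe] at h
      refine Units.ext ?_
      rw [Chars2.detHom_apply, Chars2.detHom_apply, ← h]
      exact LinearMap.det_conj _ _
    have hord : orderOf (Chars2.detHom ρ) ∣ Nat.card K := by
      refine orderOf_dvd_of_pow_eq_one (MonoidHom.ext fun n => ?_)
      rw [MonoidHom.pow_apply, ← map_pow, pow_card_eq_one', map_one]
      rfl
    obtain ⟨μ, hμ, -⟩ := Chars2.exists_ext_same_order (Chars2.detHom ρ) hinvd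
      (hcop.coprime_dvd_right hord)
    exact ⟨_, Chars2.finrank_mem_weights ρ μ hμ, hd⟩
  · exact ⟨_, Chars2.index_base_mem_weights ρ hsurj, fun h => hpK (Int.natCast_dvd_natCast.mp h)⟩

end top

variable {G : Type u} [Group G] [Fintype G] {H T : Subgroup G} [hN : H.Normal]

/-- The decomposition of a character induced from a normal subgroup, when the inertia group is
abelian over it; with coprime index the multiplicity is one. -/
theorem induced_abelian_inertia {θ : H → ℂ} (hθ : Cfsg.IsIrrCharacter H θ)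
    (hT : ∀ g : G, g ∈ T ↔ ∀ h : H, θ ⟨g * h * g⁻¹, hN.conj_mem h h.2 g⟩ = θ h)
    (hab : ∀ x ∈ T, ∀ y ∈ T, x * y * x⁻¹ * y⁻¹ ∈ H) :
    ∃ (e : ℕ) (C : Finset (G → ℂ)), 0 < e ∧ (∀ χ ∈ C, Cfsg.IsIrrCharacter G χ) ∧
      e ^ 2 * C.card * Nat.card H = Nat.card T ∧ Cfsg.indFun H θ = (e : ℂ) • ∑ χ ∈ C, χ ∧
      (∀ χ ∈ C, χ 1 = (T.index : ℂ) * e * θ 1) ∧
      (Nat.Coprime (Nat.card H) (H.relIndex T) → e = 1) := by
  have hHT : H ≤ T := fun g hg => (hT g).mpr fun h =>
    Chars.isClassFunction_of_isCharacter (Chars.isCharacter_of_isIrr hθ) h ⟨g, hg⟩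
  let e₀ : H.subgroupOf T ≃* H := Subgroup.subgroupOfEquivOfLe hHT
  let θ' : H.subgroupOf T → ℂ := θ ∘ e₀
  have hθ' : Cfsg.IsIrrCharacter (H.subgroupOf T) θ' := Chars.isIrrCharacter_comp_equiv hθ e₀
  have hinv' : ∀ (g : T) (n : H.subgroupOf T),
      θ' ⟨g * n * g⁻¹, (inferInstance : (H.subgroupOf T).Normal).conj_mem (n : T) n.2 g⟩ = θ' n :=
    fun g n => (hT g).mp g.2 (e₀ n)
  obtain ⟨e, C, he, hC, hcard, hexp, hCm, hdeg⟩ := induced_invariant_abelian hθ'
    (Chars2.inertiaSub_eq_top hinv')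
    (fun x y => Subgroup.mem_subgroupOf.mpr (hab x x.2 y y.2))
  have hTe : T = Chars2.inertiaSub θ := Chars2.inertiaSub_eq T hT
  have hover : ∀ ψ ∈ C, Cfsg.classInner (Chars2.resSub H T hHT ψ) θ ≠ 0 := by
    intro ψ hψ
    rw [← Chars2.classInner_comp_mulEquiv e₀ (Chars2.resSub H T hHT ψ) θ]
    have h := hCm ψ hψ
    rw [show (Chars2.resSub H T hHT ψ ∘ e₀) = fun k : H.subgroupOf T => ψ k from rfl]
    rw [h]
    exact_mod_cast he.ne'
  have hinj : Set.InjOn (fun ψ : T → ℂ => Cfsg.indFun T ψ) (C : Set (T → ℂ)) :=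
    fun ψ hψ ψ' hψ' h => Chars2.indFun_inj_of_inertia hHT hθ hTe (hC ψ hψ) (hC ψ' hψ')
      (hover ψ hψ) (hover ψ' hψ') h
  have hidx : (H.subgroupOf T).index * Nat.card H = Nat.card T := by
    rw [← Nat.card_congr e₀.toEquiv]
    exact Subgroup.index_mul_card _
  refine ⟨e, C.image (fun ψ : T → ℂ => Cfsg.indFun T ψ), he, ?_, ?_, ?_, ?_, ?_⟩
  · intro χ hχ
    obtain ⟨ψ, hψ, rfl⟩ := Finset.mem_image.mp hχ
    exact Chars2.isIrr_indFun_of_inertia hHT hθ hTe (hC ψ hψ) (hover ψ hψ)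
  · rw [Finset.card_image_of_injOn hinj, hcard, hidx]
  · rw [Finset.sum_image hinj, ← Chars.indFun_sum, ← Chars.indFun_smul, ← hexp]
    exact (Chars.indFun_trans H T hHT θ).symm
  · intro χ hχ
    obtain ⟨ψ, hψ, rfl⟩ := Finset.mem_image.mp hχ
    rw [Chars.indFun_apply_one, hdeg ψ hψ, mul_assoc]
    simp [θ', Function.comp_apply]
  · intro hcop
    have hcop' : Nat.Coprime (H.subgroupOf T).index (Nat.card (H.subgroupOf T)) := by
      rw [Nat.card_congr e₀.toEquiv]
      exact hcop.symm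
    obtain ⟨χ, hχ, hχext⟩ := extends_of_coprime hθ' hinv' hcop'
    have h1 : Cfsg.classInner (Cfsg.indFun (H.subgroupOf T) θ') χ = 1 := by
      rw [Chars.classInner_indFun _ _
        (Chars.isClassFunction_of_isCharacter (Chars.isCharacter_of_isIrr hχ)),
        show (fun k : H.subgroupOf T => χ k) = θ' from funext hχext, Chars.classInner_self_irr hθ']
    rw [hexp, Chars.classInner_smul_left, Chars.classInner_sum_left] at h1
    by_cases hmem : χ ∈ C
    · rw [Finset.sum_eq_single_of_mem χ hmem (fun ψ hψ hne =>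
        Chars.classInner_irr_of_ne (hC ψ hψ) hχ hne), Chars.classInner_self_irr hχ, mul_one] at h1
      exact_mod_cast h1
    · rw [Finset.sum_eq_zero (fun ψ hψ => Chars.classInner_irr_of_ne (hC ψ hψ) hχ
        fun he' => hmem (he' ▸ hψ)), mul_zero] at h1
      exact absurd h1 zero_ne_one

end Cfsg.Agent.OddChar
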