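import Cfsg.Agent.OddChar.LeechTwist
import Cfsg.Prelude.Def_Spor_Conway

/-! A faithful 23-dimensional representation of Co₂ over the field with 13 elements. -/

set_option autoImplicit false

namespace Cfsg.Agent.OddChar

open Cfsg.Agent.Golay
open Cfsg.Spor

abbrev V13 := GolayPt → ZMod 13

/-- Reduction modulo 13. -/
def red13 (x : GolayPt → ℤ) : V13 := fun i => (x i : ZMod 13)

/-- The lattice vector `8 eᵢ`. -/
def eight (j : GolayPt) : leechLattice :=
  ⟨fun i => 4 * (Pi.single j 2 : GolayPt → ℤ) i, leech_even_mem (by simp [Finset.sum_pi_single'])⟩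

theorem eight_apply (i j : GolayPt) : (eight j : GolayPt → ℤ) i = if i = j then 8 else 0 := by
  simp only [eight, Pi.single_apply]; split_ifs <;> norm_num

theorem eight_sum (x : leechLattice) :
    ∑ j, ((x : GolayPt → ℤ) j) • eight j = (8 : ℤ) • x := by
  refine Subtype.ext (funext fun i => ?_)
  simp only [AddSubgroup.val_finsetSum, AddSubgroup.coe_zsmul, Finset.sum_apply, Pi.smul_apply,
    eight_apply, smul_eq_mul, mul_ite, mul_zero, Finset.sum_ite_eq, Finset.mem_univ, if_true]
  ring

theorem co0_dot {g : Equiv.Perm leechLattice} (hg : g ∈ Co0) (x y : leechLattice) :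
    dotInt (g x : GolayPt → ℤ) (g y) = dotInt (x : GolayPt → ℤ) y := by
  have e : ∀ a b : GolayPt → ℤ, sqNorm (a + b) = sqNorm a + sqNorm b + 2 * dotInt a b := fun a b => by
    simp only [sqNorm, dotInt, Finset.mul_sum, ← Finset.sum_add_distrib]
    exact Finset.sum_congr rfl fun i _ => by simp only [Pi.add_apply]; ring
  have h := hg.2 (x + y)
  rw [hg.1, AddSubgroup.coe_add, AddSubgroup.coe_add, e, e, hg.2, hg.2] at h
  linarith

/-- The matrix of a lattice automorphism modulo 13 (`5` is the inverse of `8`). -/
def mat13 (g : Equiv.Perm leechLattice) : Matrix GolayPt GolayPt (ZMod 13) :=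
  Matrix.of fun i j => 5 * (((g (eight j) : GolayPt → ℤ) i : ℤ) : ZMod 13)

theorem mat13_red {g : Equiv.Perm leechLattice} (hg : g ∈ Co0) (x : leechLattice) :
    (mat13 g).mulVec (red13 x) = red13 (g x) := by
  set a : leechLattice →+ leechLattice := AddMonoidHom.mk' g hg.1
  have h := congrArg a (eight_sum x)
  rw [map_sum, map_zsmul] at h
  simp only [map_zsmul] at h
  funext i
  have hi := congrArg (fun v : leechLattice => (((v : GolayPt → ℤ) i : ℤ) : ZMod 13)) h
  simp only [a, AddMonoidHom.mk'_apply, AddSubgroup.val_finsetSum, AddSubgroup.coe_zsmul,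
    Finset.sum_apply, Pi.smul_apply, smul_eq_mul, Int.cast_sum, Int.cast_mul] at hi
  simp only [Matrix.mulVec, dotProduct, mat13, Matrix.of_apply, red13]
  calc ∑ j, 5 * (((g (eight j) : GolayPt → ℤ) i : ℤ) : ZMod 13) * (((x : GolayPt → ℤ) j : ℤ) : ZMod 13)
      = 5 * ∑ j, (((x : GolayPt → ℤ) j : ℤ) : ZMod 13) * (((g (eight j) : GolayPt → ℤ) i : ℤ) : ZMod 13) := by
        rw [Finset.mul_sum]; exact Finset.sum_congr rfl fun j _ => by ring
    _ = _ := by
        rw [hi, ← mul_assoc, show (5 : ZMod 13) * ((8 : ℤ) : ZMod 13) = 1 by decide, one_mul]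

theorem mat13_one : mat13 1 = 1 := by
  ext i j
  simp only [mat13, Matrix.of_apply, Equiv.Perm.one_apply, eight_apply, Matrix.one_apply]
  split_ifs <;> decide

theorem mat13_mul {g h : Equiv.Perm leechLattice} (hg : g ∈ Co0) :
    mat13 (g * h) = mat13 g * mat13 h := by
  ext i j
  have h1 := congrFun (mat13_red hg (h (eight j))) i
  simp only [Matrix.mulVec, dotProduct, red13] at h1
  simp only [Matrix.mul_apply, mat13, Matrix.of_apply, Equiv.Perm.mul_apply] at h1 ⊢
  rw [← h1, Finset.mul_sum]
  exact Finset.sum_congr rfl fun k _ => by ring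

/-- The functional `v ↦ u · v`. -/
def uForm : V13 →ₗ[ZMod 13] ZMod 13 where
  toFun v := ∑ i, red13 vecU i * v i
  map_add' a b := by simp only [Pi.add_apply, mul_add, Finset.sum_add_distrib]
  map_smul' c a := by
    simp only [Pi.smul_apply, smul_eq_mul, RingHom.id_apply, Finset.mul_sum]
    exact Finset.sum_congr rfl fun i _ => by ring

theorem uForm_inv {g : Equiv.Perm leechLattice} (hg : g ∈ Co2) (v : V13) :
    uForm ((mat13 g).mulVec v) = uForm v := by
  have hu : g leechU = leechU := hg.2
  have key : ∀ j, ∑ i, red13 vecU i * mat13 g i j = red13 vecU j := by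
    intro j
    have h := co0_dot hg.1 leechU (eight j)
    rw [hu] at h
    have h2 := congrArg (fun n : ℤ => (5 : ZMod 13) * (n : ZMod 13)) h
    simp only [dotInt, Int.cast_sum, Int.cast_mul] at h2
    calc ∑ i, red13 vecU i * mat13 g i j
        = 5 * ∑ i, (((leechU : GolayPt → ℤ) i : ℤ) : ZMod 13) * (((g (eight j) : GolayPt → ℤ) i : ℤ) : ZMod 13) := by
          rw [Finset.mul_sum]
          exact Finset.sum_congr rfl fun i _ => by
            simp only [mat13, Matrix.of_apply, red13, leechU]; ring
      _ = _ := by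
          rw [h2]
          simp only [eight_apply, Int.cast_ite, Int.cast_zero, mul_ite, mul_zero, Finset.sum_ite_eq',
            Finset.mem_univ, if_true, red13, leechU]
          rw [mul_comm ((_ : ℤ) : ZMod 13), ← mul_assoc, show (5 : ZMod 13) * ((8 : ℤ) : ZMod 13) = 1 by decide,
            one_mul]
  show ∑ i, red13 vecU i * ∑ j, mat13 g i j * v j = ∑ j, red13 vecU j * v j
  rw [Finset.sum_congr rfl fun i _ => Finset.mul_sum _ _ _, Finset.sum_comm]
  refine Finset.sum_congr rfl fun j _ => ?_
  rw [← key j, Finset.sum_mul]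
  exact Finset.sum_congr rfl fun i _ => by ring

theorem uForm_u : uForm (red13 vecU) = 6 := by
  show ∑ i, red13 vecU i * red13 vecU i = 6
  decide

/-- The orthogonal space of `u`. -/
noncomputable abbrev uPerp : Submodule (ZMod 13) V13 := LinearMap.ker uForm

local instance : Fact (Nat.Prime 13) := ⟨by norm_num⟩

theorem uPerp_finrank : Module.finrank (ZMod 13) uPerp = 23 := by
  have h := uForm.finrank_range_add_finrank_ker
  have hr : LinearMap.range uForm = ⊤ := LinearMap.range_eq_top.2 fun c =>
    ⟨(c * 11) • red13 vecU, by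
      rw [map_smul, uForm_u, smul_eq_mul, mul_assoc, show (11 : ZMod 13) * 6 = 1 by decide, mul_one]⟩
  rw [hr, finrank_top, Module.finrank_self, Module.finrank_fintype_fun_eq_card, card_golayPt] at h
  show Module.finrank (ZMod 13) (LinearMap.ker uForm) = 23
  omega

/-- The action on the orthogonal space. -/
noncomputable def co2End : ↥Co2 →* Module.End (ZMod 13) uPerp where
  toFun g := (Matrix.mulVecLin (mat13 g.1)).restrict fun v hv => by
    rw [LinearMap.mem_ker] at hv ⊢
    rw [Matrix.mulVecLin_apply, uForm_inv g.2, hv]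
  map_one' := by
    apply LinearMap.ext; intro v; apply Subtype.ext
    show (mat13 1).mulVec (v : V13) = v
    rw [mat13_one, Matrix.one_mulVec]
  map_mul' g h := by
    apply LinearMap.ext; intro v; apply Subtype.ext
    show (mat13 (g.1 * h.1)).mulVec (v : V13) = (mat13 g.1).mulVec ((mat13 h.1).mulVec (v : V13))
    rw [mat13_mul g.2.1, Matrix.mulVec_mulVec]

theorem co2End_apply (g : ↥Co2) (v : uPerp) :
    ((co2End g v : uPerp) : V13) = (mat13 g.1).mulVec (v : V13) := rfl

theorem co2End_injective : Function.Injective co2End := by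
  rw [injective_iff_map_eq_one]
  intro g hg
  have hu : (g : Equiv.Perm leechLattice) leechU = leechU := g.2.2
  have hMu : (mat13 g.1).mulVec (red13 vecU) = red13 vecU := by
    have h := mat13_red g.2.1 leechU
    rwa [hu] at h
  have hV : ∀ v : V13, uForm v = 0 → (mat13 g.1).mulVec v = v := by
    intro v hv
    have h1 := co2End_apply g ⟨v, LinearMap.mem_ker.2 hv⟩
    rw [hg, Module.End.one_apply] at h1
    exact h1.symm
  have hall : ∀ v : V13, (mat13 g.1).mulVec v = v := fun v => by
    have h0 : uForm (v - (uForm v * 11) • red13 vecU) = 0 := by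
      rw [map_sub, map_smul, uForm_u, smul_eq_mul, mul_assoc, show (11 : ZMod 13) * 6 = 1 by decide,
        mul_one, sub_self]
    have h := hV _ h0
    rw [Matrix.mulVec_sub, Matrix.mulVec_smul, hMu, sub_left_inj] at h
    exact h
  have hfix : ∀ j, (g : Equiv.Perm leechLattice) (eight j) = eight j := by
    intro j
    set x : GolayPt → ℤ := ((g : Equiv.Perm leechLattice) (eight j) : GolayPt → ℤ)
    set e : GolayPt → ℤ := (eight j : GolayPt → ℤ)
    have hmod : red13 x = red13 e := (mat13_red g.2.1 (eight j)).symm.trans (hall _)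
    have hdvd : ∀ i, (13 : ℤ) ∣ x i - e i := fun i => by
      have h1 := congrFun hmod i
      simp only [red13] at h1
      exact (ZMod.intCast_eq_intCast_iff_dvd_sub _ _ 13).1 h1.symm
    choose y hy using hdvd
    have hx : sqNorm x = 64 := by
      rw [g.2.1.2]
      simp only [sqNorm, eight_apply, ite_pow, zero_pow two_ne_zero, Finset.sum_ite_eq',
        Finset.mem_univ, if_true]
      norm_num
    have hexp : sqNorm x = 64 + ∑ i, (13 * y i) * (13 * y i + 2 * e i) := by
      have h1 : ∀ i, x i ^ 2 = e i ^ 2 + (13 * y i) * (13 * y i + 2 * e i) := fun i => by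
        rw [show x i = e i + 13 * y i by linarith [hy i]]; ring
      rw [sqNorm, Finset.sum_congr rfl fun i _ => h1 i, Finset.sum_add_distrib]
      congr 1
      simp only [e, eight_apply, ite_pow, zero_pow two_ne_zero, Finset.sum_ite_eq',
        Finset.mem_univ, if_true]
      norm_num
    have hnn : ∀ i, 0 ≤ (13 * y i) * (13 * y i + 2 * e i) + (if i = j then 39 else 0)
        ∧ (y i ≠ 0 → i ≠ j → 169 ≤ (13 * y i) * (13 * y i + 2 * e i)) := by
      intro i
      simp only [e, eight_apply]
      split_ifs with hij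
      · refine ⟨?_, fun _ h => absurd hij h⟩
        rcases le_or_gt 0 (y i) with h | h
        · nlinarith
        · rcases eq_or_lt_of_le (show y i ≤ -1 by omega) with h' | h'
          · rw [h']; norm_num
          · nlinarith
      · refine ⟨by nlinarith [mul_self_nonneg (y i)], fun h _ => ?_⟩
        have := mul_self_pos.2 h
        nlinarith
    have hyi : ∀ i, i ≠ j → y i = 0 := by
      intro i hij
      by_contra hne
      have h1 := Finset.single_le_sum (s := Finset.univ)
        (f := fun k => (13 * y k) * (13 * y k + 2 * e k) + (if k = j then 39 else 0))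
        (fun k _ => (hnn k).1) (Finset.mem_univ i)
      simp only [Finset.sum_add_distrib, Finset.sum_ite_eq', Finset.mem_univ, if_true, if_neg hij] at h1
      have := (hnn i).2 hne hij
      omega
    have hyj : y j = 0 := by
      rw [Finset.sum_eq_single j (fun i _ hij => by rw [hyi i hij]; ring) (by simp)] at hexp
      have he : e j = 8 := by simp [e, eight_apply]
      rw [he, hx] at hexp
      have h0 : y j * (13 * y j + 16) = 0 := by linarith
      rcases mul_eq_zero.1 h0 with h | h
      · exact h
      · omega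
    refine Subtype.ext (funext fun i => ?_)
    have := hy i
    by_cases hij : i = j
    · subst hij; rw [hyj, mul_zero] at this; exact sub_eq_zero.1 this
    · rw [hyi i hij, mul_zero] at this; exact sub_eq_zero.1 this
  apply Subtype.ext
  apply Equiv.ext
  intro x
  set a : leechLattice →+ leechLattice := AddMonoidHom.mk' g.1 g.2.1.1
  have h := congrArg a (eight_sum x)
  rw [map_sum, map_zsmul] at h
  simp only [map_zsmul] at h
  simp only [a, AddMonoidHom.mk'_apply, hfix, eight_sum] at h
  refine Subtype.ext (funext fun i => ?_)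
  have hi := congrArg (fun v : leechLattice => (v : GolayPt → ℤ) i) h
  simp only [AddSubgroup.coe_zsmul, Pi.smul_apply, smul_eq_mul] at hi
  simp only [OneMemClass.coe_one, Equiv.Perm.one_apply]
  omega

theorem co2_embeds_gl : ∃ f : ↥Co2 →* GL (Fin 23) (ZMod 13), Function.Injective f := by
  let b := Module.finBasisOfFinrankEq (ZMod 13) uPerp uPerp_finrank
  let φ : ↥Co2 →* Matrix (Fin 23) (Fin 23) (ZMod 13) :=
    (LinearMap.toMatrixAlgEquiv b).toAlgHom.toRingHom.toMonoidHom.comp co2End
  refine ⟨φ.toHomUnits, fun g h e => co2End_injective ?_⟩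
  exact (LinearMap.toMatrixAlgEquiv b).injective (congrArg Units.val e)

end Cfsg.Agent.OddChar
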