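import Mathlib.GroupTheory.SpecificGroups.Cyclic.Basic
import Mathlib.GroupTheory.FiniteAbelian.Duality
import Mathlib.Analysis.Complex.Polynomial.Basic
import Mathlib.RingTheory.RootsOfUnity.EnoughRootsOfUnity
import Cfsg.Prelude.Def_OddOrderChar
import Cfsg.Prelude.Def_OddOrderLocal
import Cfsg.Agent.Chars.Induced
import Cfsg.Agent.Chars.Linear
import Cfsg.Agent.OddChar.Elem

/-!
Basic facts about a self-normalizing cyclic subgroup `W = W₁ ⊔ W₂`: the splitting of its linear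
characters, induction from functions that live outside `W₁ ∪ W₂`, and the four-term vanishing test.
-/

set_option autoImplicit false
set_option linter.unusedSectionVars false

open scoped Classical ComplexConjugate

namespace Cfsg.Agent.OddChar

variable {G : Type*} [Group G]

/-- The linear characters of `W₁ ⊔ W₂`. -/
abbrev TIDual (W₁ W₂ : Subgroup G) : Type _ := ↥(W₁ ⊔ W₂) →* ℂˣ

variable {W₁ W₂ : Subgroup G}

/-- Trivial on `W₂`. -/
def TIFirst (φ : TIDual W₁ W₂) : Prop := ∀ w : ↥(W₁ ⊔ W₂), (w : G) ∈ W₂ → φ w = 1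

/-- Trivial on `W₁`. -/
def TISecond (ψ : TIDual W₁ W₂) : Prop := ∀ w : ↥(W₁ ⊔ W₂), (w : G) ∈ W₁ → ψ w = 1

/-- The function `(1 - φ)(1 - ψ)`. -/
noncomputable def tiFun (φ ψ : TIDual W₁ W₂) : ↥(W₁ ⊔ W₂) → ℂ :=
  fun w => 1 - (φ w : ℂ) - (ψ w : ℂ) + (φ w : ℂ) * (ψ w : ℂ)

theorem tiFirst_one : TIFirst (1 : TIDual W₁ W₂) := fun _ _ => rfl

theorem tiSecond_one : TISecond (1 : TIDual W₁ W₂) := fun _ _ => rfl

theorem tiFirst_inv {φ : TIDual W₁ W₂} (h : TIFirst φ) : TIFirst φ⁻¹ := fun w hw => by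
  simp [h w hw]

theorem tiSecond_inv {φ : TIDual W₁ W₂} (h : TISecond φ) : TISecond φ⁻¹ := fun w hw => by
  simp [h w hw]

theorem tiFirst_mul {φ φ' : TIDual W₁ W₂} (h : TIFirst φ) (h' : TIFirst φ') :
    TIFirst (φ * φ') := fun w hw => by simp [h w hw, h' w hw]

theorem tiSecond_mul {φ φ' : TIDual W₁ W₂} (h : TISecond φ) (h' : TISecond φ') :
    TISecond (φ * φ') := fun w hw => by simp [h w hw, h' w hw]

theorem tiFun_eq_zero {φ ψ : TIDual W₁ W₂} (hφ : TIFirst φ) (hψ : TISecond ψ)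
    (w : ↥(W₁ ⊔ W₂)) (hw : (w : G) ∈ W₁ ∨ (w : G) ∈ W₂) : tiFun φ ψ w = 0 := by
  rcases hw with h | h
  · simp [tiFun, hψ w h]
  · simp [tiFun, hφ w h]

section cyclic

variable (hW : Cfsg.IsSelfNormalizingCyclic W₁ W₂)

include hW

theorem ti_comm (a b : ↥(W₁ ⊔ W₂)) : a * b = b * a := by
  haveI := hW.2.2.2.2.1
  exact (IsCyclic.commGroup (α := ↥(W₁ ⊔ W₂))).mul_comm a b

theorem ti_split (w : ↥(W₁ ⊔ W₂)) :
    ∃ a b : ↥(W₁ ⊔ W₂), (a : G) ∈ W₁ ∧ (b : G) ∈ W₂ ∧ w = a * b := by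
  have hle : W₂ ≤ Subgroup.normalizer (W₁ : Set G) := fun b hb => by
    refine Subgroup.centralizer_le_normalizer _ ?_
    rw [Subgroup.mem_centralizer_iff]
    exact fun a ha => hW.2.2.2.1 a ha b hb
  have hw : (w : G) ∈ ((W₁ ⊔ W₂ : Subgroup G) : Set G) := w.2
  rw [Subgroup.coe_mul_of_right_le_normalizer_left W₁ W₂ hle] at hw
  obtain ⟨a, ha, b, hb, hab⟩ := Set.mem_mul.mp hw
  exact ⟨⟨a, Subgroup.mem_sup_left ha⟩, ⟨b, Subgroup.mem_sup_right hb⟩, ha, hb,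
    Subtype.ext hab.symm⟩

theorem ti_eq_one {a : G} (h₁ : a ∈ W₁) (h₂ : a ∈ W₂) : a = 1 := by
  have h : a ∈ W₁ ⊓ W₂ := ⟨h₁, h₂⟩
  rw [hW.2.2.1] at h
  exact h

/-- The first component of an element of `W`. -/
noncomputable def tiProjOne : ↥(W₁ ⊔ W₂) →* ↥(W₁ ⊔ W₂) where
  toFun w := Classical.choose (ti_split hW w)
  map_one' := by
    obtain ⟨b, h1, h2, h3⟩ := Classical.choose_spec (ti_split hW 1)
    set a := Classical.choose (ti_split hW (1 : ↥(W₁ ⊔ W₂)))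
    have hab : (a : G) = (b : G)⁻¹ := eq_inv_of_mul_eq_one_left (congrArg Subtype.val h3).symm
    exact Subtype.ext (ti_eq_one hW h1 (hab ▸ W₂.inv_mem h2))
  map_mul' w w' := by
    obtain ⟨b, h1, h2, h3⟩ := Classical.choose_spec (ti_split hW w)
    obtain ⟨b', h1', h2', h3'⟩ := Classical.choose_spec (ti_split hW w')
    obtain ⟨c, k1, k2, k3⟩ := Classical.choose_spec (ti_split hW (w * w'))
    set a := Classical.choose (ti_split hW w)
    set a' := Classical.choose (ti_split hW w')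
    set e := Classical.choose (ti_split hW (w * w'))
    have heq : (a * a') * (b * b') = e * c := by
      rw [← k3, h3, h3']
      rw [mul_assoc, ← mul_assoc a', ti_comm hW a' b, mul_assoc, mul_assoc]
    have hd : (a * a')⁻¹ * e = (b * b') * c⁻¹ := by
      rw [inv_mul_eq_iff_eq_mul, ← mul_assoc, heq, mul_assoc, mul_inv_cancel, mul_one]
    have h0 : (a * a')⁻¹ * e = 1 := by
      refine Subtype.ext (ti_eq_one hW ?_ ?_)
      · exact W₁.mul_mem (W₁.inv_mem (W₁.mul_mem h1 h1')) k1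
      · rw [hd]; exact W₂.mul_mem (W₂.mul_mem h2 h2') (W₂.inv_mem k2)
    exact (inv_mul_eq_one.mp h0).symm

/-- The second component of an element of `W`. -/
noncomputable def tiProjTwo : ↥(W₁ ⊔ W₂) →* ↥(W₁ ⊔ W₂) where
  toFun w := (tiProjOne hW w)⁻¹ * w
  map_one' := by simp
  map_mul' a b := by
    rw [map_mul, mul_inv_rev, ti_comm hW (tiProjOne hW b)⁻¹, mul_assoc, ← mul_assoc _ a,
      ti_comm hW (tiProjOne hW b)⁻¹ a, ← mul_assoc, ← mul_assoc, ← mul_assoc]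

theorem tiProjOne_mem (w : ↥(W₁ ⊔ W₂)) : (tiProjOne hW w : G) ∈ W₁ := by
  obtain ⟨b, h1, h2, h3⟩ := Classical.choose_spec (ti_split hW w)
  exact h1

theorem tiProjTwo_mem (w : ↥(W₁ ⊔ W₂)) : (tiProjTwo hW w : G) ∈ W₂ := by
  obtain ⟨b, h1, h2, h3⟩ := Classical.choose_spec (ti_split hW w)
  have : tiProjTwo hW w = b := by
    show (Classical.choose (ti_split hW w))⁻¹ * w = b
    exact inv_mul_eq_iff_eq_mul.mpr h3
  rw [this]; exact h2

theorem tiProj_mul (w : ↥(W₁ ⊔ W₂)) : tiProjOne hW w * tiProjTwo hW w = w :=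
  mul_inv_cancel_left _ _

theorem tiProjOne_of_mem {w : ↥(W₁ ⊔ W₂)} (h : (w : G) ∈ W₁) : tiProjOne hW w = w := by
  have h2 : ((tiProjTwo hW w : ↥(W₁ ⊔ W₂)) : G) = 1 := ti_eq_one hW
    (W₁.mul_mem (W₁.inv_mem (tiProjOne_mem hW w)) h) (tiProjTwo_mem hW w)
  have := tiProj_mul hW w
  rwa [Subtype.ext h2 (a2 := (1 : ↥(W₁ ⊔ W₂))), mul_one] at this

theorem tiProjOne_of_mem_two {w : ↥(W₁ ⊔ W₂)} (h : (w : G) ∈ W₂) : tiProjOne hW w = 1 := by
  refine Subtype.ext (ti_eq_one hW (tiProjOne_mem hW w) ?_)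
  have h3 : tiProjOne hW w = w * (tiProjTwo hW w)⁻¹ := by
    rw [eq_mul_inv_iff_mul_eq]; exact tiProj_mul hW w
  rw [h3]
  exact W₂.mul_mem h (W₂.inv_mem (tiProjTwo_mem hW w))

theorem tiProjTwo_of_mem_one {w : ↥(W₁ ⊔ W₂)} (h : (w : G) ∈ W₁) : tiProjTwo hW w = 1 := by
  show (tiProjOne hW w)⁻¹ * w = 1
  rw [tiProjOne_of_mem hW h, inv_mul_cancel]

theorem tiProjTwo_of_mem {w : ↥(W₁ ⊔ W₂)} (h : (w : G) ∈ W₂) : tiProjTwo hW w = w := by
  show (tiProjOne hW w)⁻¹ * w = w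
  rw [tiProjOne_of_mem_two hW h, inv_one, one_mul]

/-- The part of a linear character trivial on `W₂`. -/
noncomputable def tiPartOne (ω : TIDual W₁ W₂) : TIDual W₁ W₂ := ω.comp (tiProjOne hW)

/-- The part of a linear character trivial on `W₁`. -/
noncomputable def tiPartTwo (ω : TIDual W₁ W₂) : TIDual W₁ W₂ := ω.comp (tiProjTwo hW)

theorem tiPartOne_first (ω : TIDual W₁ W₂) : TIFirst (tiPartOne hW ω) := fun w hw => by
  simp [tiPartOne, tiProjOne_of_mem_two hW hw]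

theorem tiPartTwo_second (ω : TIDual W₁ W₂) : TISecond (tiPartTwo hW ω) := fun w hw => by
  simp [tiPartTwo, tiProjTwo_of_mem_one hW hw]

theorem tiPart_mul (ω : TIDual W₁ W₂) : tiPartOne hW ω * tiPartTwo hW ω = ω := by
  refine MonoidHom.ext fun w => ?_
  show ω (tiProjOne hW w) * ω (tiProjTwo hW w) = ω w
  rw [← map_mul, tiProj_mul]

theorem tiPartOne_mul {φ ψ : TIDual W₁ W₂} (hφ : TIFirst φ) (hψ : TISecond ψ) :
    tiPartOne hW (φ * ψ) = φ := by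
  refine MonoidHom.ext fun w => ?_
  show φ (tiProjOne hW w) * ψ (tiProjOne hW w) = φ w
  rw [hψ _ (tiProjOne_mem hW w), mul_one]
  conv_rhs => rw [← tiProj_mul hW w, map_mul, hφ _ (tiProjTwo_mem hW w), mul_one]

theorem tiPartTwo_mul {φ ψ : TIDual W₁ W₂} (hφ : TIFirst φ) (hψ : TISecond ψ) :
    tiPartTwo hW (φ * ψ) = ψ := by
  refine MonoidHom.ext fun w => ?_
  show φ (tiProjTwo hW w) * ψ (tiProjTwo hW w) = ψ w
  rw [hφ _ (tiProjTwo_mem hW w), one_mul]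
  conv_rhs => rw [← tiProj_mul hW w, map_mul, hψ _ (tiProjOne_mem hW w), one_mul]

theorem ti_mul_eq_mul_iff {φ φ' ψ ψ' : TIDual W₁ W₂} (hφ : TIFirst φ) (hφ' : TIFirst φ')
    (hψ : TISecond ψ) (hψ' : TISecond ψ') : φ * ψ = φ' * ψ' ↔ φ = φ' ∧ ψ = ψ' := by
  refine ⟨fun h => ⟨?_, ?_⟩, fun h => by rw [h.1, h.2]⟩
  · rw [← tiPartOne_mul hW hφ hψ, h, tiPartOne_mul hW hφ' hψ']
  · rw [← tiPartTwo_mul hW hφ hψ, h, tiPartTwo_mul hW hφ' hψ']

theorem ti_mul_eq_one_iff {φ ψ : TIDual W₁ W₂} (hφ : TIFirst φ) (hψ : TISecond ψ) :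
    φ * ψ = 1 ↔ φ = 1 ∧ ψ = 1 := by
  have := ti_mul_eq_mul_iff hW hφ tiFirst_one hψ tiSecond_one
  rwa [show (1 : TIDual W₁ W₂) * 1 = 1 from MonoidHom.ext fun _ => mul_one _] at this

theorem ti_mul_eq_first_iff {φ φ' ψ : TIDual W₁ W₂} (hφ : TIFirst φ) (hφ' : TIFirst φ')
    (hψ : TISecond ψ) : φ * ψ = φ' ↔ φ = φ' ∧ ψ = 1 := by
  have := ti_mul_eq_mul_iff hW hφ hφ' hψ tiSecond_one
  rwa [show φ' * (1 : TIDual W₁ W₂) = φ' from MonoidHom.ext fun _ => mul_one _] at this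

theorem ti_mul_eq_second_iff {φ ψ ψ' : TIDual W₁ W₂} (hφ : TIFirst φ) (hψ : TISecond ψ)
    (hψ' : TISecond ψ') : φ * ψ = ψ' ↔ φ = 1 ∧ ψ = ψ' := by
  have := ti_mul_eq_mul_iff hW hφ tiFirst_one hψ hψ'
  rwa [show (1 : TIDual W₁ W₂) * ψ' = ψ' from MonoidHom.ext fun _ => one_mul _] at this

theorem ti_first_ne_second {φ ψ : TIDual W₁ W₂} (hφ : TIFirst φ) (hψ : TISecond ψ)
    (h1 : φ ≠ 1) : φ ≠ ψ := by
  intro h
  have := ti_mul_eq_mul_iff hW hφ tiFirst_one tiSecond_one hψ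
  rw [show φ * (1 : TIDual W₁ W₂) = φ from MonoidHom.ext fun _ => mul_one _,
    show (1 : TIDual W₁ W₂) * ψ = ψ from MonoidHom.ext fun _ => one_mul _] at this
  exact h1 (this.mp h).1

variable [Finite G]

theorem ti_card_le {n : ℕ} (hn : 0 < n) (H : Subgroup G) (hH : H ≤ W₁ ⊔ W₂)
    (hc : Nat.card H = n) {x : G} (hx : x ∈ W₁ ⊔ W₂) (hxn : x ^ n = 1) : x ∈ H := by
  haveI := hW.2.2.2.2.1
  haveI := Fintype.ofFinite G
  let H' : Finset ↥(W₁ ⊔ W₂) := Finset.univ.filter fun w => (w : G) ∈ H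
  let S : Finset ↥(W₁ ⊔ W₂) := Finset.univ.filter fun w => w ^ n = 1
  have hsub : H' ⊆ S := fun w hw => by
    simp only [H', S, Finset.mem_filter, Finset.mem_univ, true_and] at hw ⊢
    refine Subtype.ext ?_
    have h1 : (⟨(w : G), hw⟩ : H) ^ n = 1 := hc ▸ pow_card_eq_one'
    have h2 : (w : G) ^ n = 1 :=
      (SubmonoidClass.coe_pow (⟨(w : G), hw⟩ : H) n).symm.trans (congrArg Subtype.val h1)
    simpa using h2
  have hcard : H'.card = n := by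
    rw [← hc, Nat.card_eq_fintype_card, ← Fintype.card_subtype]
    exact Fintype.card_congr ⟨fun w => ⟨w.1, w.2⟩, fun h => ⟨⟨h.1, hH h.2⟩, h.2⟩,
      fun _ => rfl, fun _ => rfl⟩
  have hle : S.card ≤ n := IsCyclic.card_pow_eq_one_le hn
  have hmem : (⟨x, hx⟩ : ↥(W₁ ⊔ W₂)) ∈ H' := by
    rw [Finset.eq_of_subset_of_card_le hsub (by omega)]
    simp only [S, Finset.mem_filter, Finset.mem_univ, true_and]
    exact Subtype.ext (by simpa using hxn)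
  simpa [H'] using hmem

theorem ti_card_ne : Nat.card W₁ ≠ Nat.card W₂ := by
  intro h
  obtain ⟨a, ha, hne⟩ := Subgroup.bot_or_exists_ne_one W₁ |>.resolve_left hW.1
  refine hne (ti_eq_one hW ha (ti_card_le hW Nat.card_pos W₂ le_sup_right h.symm
    (le_sup_left (a := W₁) (b := W₂) ha) ?_))
  have h1 : (⟨a, ha⟩ : W₁) ^ Nat.card W₁ = 1 := pow_card_eq_one'
  exact (SubmonoidClass.coe_pow _ _).symm.trans (congrArg Subtype.val h1)

/-- An element outside `W₁ ∪ W₂` can only be conjugated back there by an element of `W`. -/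
theorem ti_conj_mem {g v : G} (hv : v ∈ W₁ ⊔ W₂) (hv1 : v ∉ W₁) (hv2 : v ∉ W₂)
    (hg : g * v * g⁻¹ ∈ W₁ ⊔ W₂) (hg1 : g * v * g⁻¹ ∉ W₁) (hg2 : g * v * g⁻¹ ∉ W₂) :
    g ∈ W₁ ⊔ W₂ := by
  have hcomm := ti_comm hW
  have hC : ∀ u : G, u ∈ W₁ ⊔ W₂ → u ∉ W₁ → u ∉ W₂ → ∀ x : G, x * u = u * x ↔ x ∈ W₁ ⊔ W₂ := by
    intro u hu h1 h2 x
    have hn := hW.2.2.2.2.2 {u} (by simp [hu, h1, h2]) ⟨u, rfl⟩
    constructor
    · intro hx
      rw [← hn, Subgroup.mem_set_normalizer_iff]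
      intro h
      simp only [Set.mem_singleton_iff]
      constructor
      · rintro rfl; rw [hx]; group
      · intro he
        calc h = x⁻¹ * (x * h * x⁻¹) * x := by group
          _ = x⁻¹ * (u * x) := by rw [he, mul_assoc]
          _ = u := by rw [← hx]; group
    · intro hx
      exact congrArg Subtype.val (hcomm ⟨x, hx⟩ ⟨u, hu⟩)
  have hnorm : ∀ x : G, x ∈ W₁ ⊔ W₂ ↔ g * x * g⁻¹ ∈ W₁ ⊔ W₂ := by
    intro x
    rw [← hC v hv hv1 hv2, ← hC _ hg hg1 hg2]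
    constructor <;> intro h
    · calc g * x * g⁻¹ * (g * v * g⁻¹) = g * (x * v) * g⁻¹ := by group
        _ = g * (v * x) * g⁻¹ := by rw [h]
        _ = g * v * g⁻¹ * (g * x * g⁻¹) := by group
    · calc x * v = g⁻¹ * (g * x * g⁻¹ * (g * v * g⁻¹)) * g := by group
        _ = g⁻¹ * (g * v * g⁻¹ * (g * x * g⁻¹)) * g := by rw [h]
        _ = v * x := by group
  have hsub : ∀ H : Subgroup G, H ≤ W₁ ⊔ W₂ → ∀ x : G, x ∈ H ↔ g * x * g⁻¹ ∈ H := by
    intro H hH x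
    constructor
    · intro hx
      refine ti_card_le hW Nat.card_pos H hH rfl ((hnorm x).mp (hH hx)) ?_
      have h1 : (⟨x, hx⟩ : H) ^ Nat.card H = 1 := pow_card_eq_one'
      rw [conj_pow, show x ^ Nat.card H = 1 from (SubmonoidClass.coe_pow _ _).symm.trans (congrArg Subtype.val h1)]
      group
    · intro hx
      refine ti_card_le hW Nat.card_pos H hH rfl ((hnorm x).mpr (hH hx)) ?_
      have h1 : (⟨_, hx⟩ : H) ^ Nat.card H = 1 := pow_card_eq_one'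
      have h2 : (g * x * g⁻¹) ^ Nat.card H = 1 :=
        (SubmonoidClass.coe_pow _ _).symm.trans (congrArg Subtype.val h1)
      rw [conj_pow] at h2
      calc x ^ Nat.card H = g⁻¹ * (g * x ^ Nat.card H * g⁻¹) * g := by group
        _ = 1 := by rw [h2]; group
  have hn := hW.2.2.2.2.2 ((↑(W₁ ⊔ W₂) : Set G) \ (↑W₁ ∪ ↑W₂)) (le_refl _) ⟨v, hv, by simp [hv1, hv2]⟩
  rw [← hn, Subgroup.mem_set_normalizer_iff]
  intro x
  simp only [Set.mem_sdiff, Set.mem_union, SetLike.mem_coe, ← hnorm x, ← hsub W₁ le_sup_left x,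
    ← hsub W₂ le_sup_right x]

variable [Fintype G]

/-- Induction from a function supported off `W₁ ∪ W₂` restricts to the function itself there. -/
theorem ti_indFun_apply {f : ↥(W₁ ⊔ W₂) → ℂ}
    (hf : ∀ w : ↥(W₁ ⊔ W₂), (w : G) ∈ W₁ ∨ (w : G) ∈ W₂ → f w = 0)
    (w : ↥(W₁ ⊔ W₂)) (h1 : (w : G) ∉ W₁) (h2 : (w : G) ∉ W₂) :
    Cfsg.indFun (W₁ ⊔ W₂) f w = f w := by
  rw [Chars.indFun_apply]
  have hterm : ∀ x : G, Cfsg.extendByZero (W₁ ⊔ W₂) f (x⁻¹ * w * x) =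
      if x ∈ W₁ ⊔ W₂ then f w else 0 := by
    intro x
    split_ifs with hx
    · have h : x⁻¹ * (w : G) * x = w := by
        have := congrArg Subtype.val (ti_comm hW w ⟨x, hx⟩)
        simp only [Subgroup.coe_mul] at this
        rw [mul_assoc, this, inv_mul_cancel_left]
      rw [h, Chars.extendByZero_coe]
    · by_cases hm : x⁻¹ * (w : G) * x ∈ W₁ ⊔ W₂
      · rw [Chars.extendByZero_of_mem _ _ hm]
        refine hf _ ?_
        by_contra hno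
        push Not at hno
        refine hx ?_
        have := ti_conj_mem hW (g := x⁻¹) w.2 h1 h2 (by rwa [inv_inv])
          (by rw [inv_inv]; exact hno.1) (by rw [inv_inv]; exact hno.2)
        simpa using this
      · exact Chars.extendByZero_of_not_mem _ _ hm
  simp only [hterm]
  rw [Finset.sum_ite, Finset.sum_const_zero, add_zero, Finset.sum_const, nsmul_eq_mul]
  have hc : (Finset.univ.filter fun x => x ∈ W₁ ⊔ W₂).card = Nat.card ↥(W₁ ⊔ W₂) := by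
    rw [Nat.card_eq_fintype_card, Fintype.card_subtype]
  rw [hc, ← mul_assoc, inv_mul_cancel₀ (Chars.subgroup_card_ne_zero _), one_mul]

/-- Inner products of two such inductions. -/
theorem ti_inner_indFun {f f' : ↥(W₁ ⊔ W₂) → ℂ}
    (hf : ∀ w : ↥(W₁ ⊔ W₂), (w : G) ∈ W₁ ∨ (w : G) ∈ W₂ → f w = 0)
    (hf' : ∀ w : ↥(W₁ ⊔ W₂), (w : G) ∈ W₁ ∨ (w : G) ∈ W₂ → f' w = 0) :
    Cfsg.classInner (Cfsg.indFun (W₁ ⊔ W₂) f) (Cfsg.indFun (W₁ ⊔ W₂) f') =
      Cfsg.classInner f f' := by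
  rw [Chars.classInner_indFun _ _ (Chars.isClassFunction_indFun _ _), Chars.classInner_def,
    Chars.classInner_def]
  congr 1
  refine Finset.sum_congr rfl fun w _ => ?_
  by_cases h : (w : G) ∈ W₁ ∨ (w : G) ∈ W₂
  · rw [hf w h, zero_mul, zero_mul]
  · push Not at h
    rw [ti_indFun_apply hW hf' w h.1 h.2]

omit [Fintype G]
variable [Fintype ↥(W₁ ⊔ W₂)]

theorem ti_inner_dual (ω ω' : TIDual W₁ W₂) :
    Cfsg.classInner (fun w => (ω w : ℂ)) (fun w => (ω' w : ℂ)) = if ω = ω' then 1 else 0 := by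
  rw [Chars.classInner_irr (Chars.isIrrCharacter_hom ω) (Chars.isIrrCharacter_hom ω')]
  refine if_congr ⟨fun h => MonoidHom.ext fun w => Units.ext (congrFun h w), fun h => by rw [h]⟩
    rfl rfl

theorem ti_inner_tiFun (ω φ ψ : TIDual W₁ W₂) :
    Cfsg.classInner (fun w => (ω w : ℂ)) (tiFun φ ψ) =
      (if ω = 1 then 1 else 0) - (if ω = φ then 1 else 0) - (if ω = ψ then 1 else 0) +
        if ω = φ * ψ then 1 else 0 := by
  have he : tiFun φ ψ = (fun w => ((1 : TIDual W₁ W₂) w : ℂ)) - (fun w => (φ w : ℂ)) -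
      (fun w => (ψ w : ℂ)) + fun w => ((φ * ψ) w : ℂ) := by
    funext w; simp [tiFun]
  rw [he, Chars.classInner_add_right, Chars.classInner_sub_right, Chars.classInner_sub_right,
    ti_inner_dual hW, ti_inner_dual hW, ti_inner_dual hW, ti_inner_dual hW]

theorem ti_inner_tiFun_tiFun {φ φ' ψ ψ' : TIDual W₁ W₂} (hφ : TIFirst φ) (hφ' : TIFirst φ')
    (hψ : TISecond ψ) (hψ' : TISecond ψ') (h1 : φ ≠ 1) (h2 : ψ ≠ 1) (h1' : φ' ≠ 1) (h2' : ψ' ≠ 1) :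
    Cfsg.classInner (tiFun φ ψ) (tiFun φ' ψ') = 1 + (if φ = φ' then 1 else 0) +
      (if ψ = ψ' then 1 else 0) + if φ = φ' ∧ ψ = ψ' then 1 else 0 := by
  have he : tiFun φ ψ = (fun w => ((1 : TIDual W₁ W₂) w : ℂ)) - (fun w => (φ w : ℂ)) -
      (fun w => (ψ w : ℂ)) + fun w => ((φ * ψ) w : ℂ) := by
    funext w; simp [tiFun]
  rw [he, Chars.classInner_add_left, Chars.classInner_sub_left, Chars.classInner_sub_left,
    ti_inner_tiFun hW, ti_inner_tiFun hW, ti_inner_tiFun hW, ti_inner_tiFun hW]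
  have e1 : (1 : TIDual W₁ W₂) ≠ φ' := Ne.symm h1'
  have e2 : (1 : TIDual W₁ W₂) ≠ ψ' := Ne.symm h2'
  have e3 : (1 : TIDual W₁ W₂) ≠ φ' * ψ' := fun h =>
    h1' ((ti_mul_eq_one_iff hW hφ' hψ').mp h.symm).1
  have e4 : φ ≠ ψ' := ti_first_ne_second hW hφ hψ' h1
  have e5 : φ ≠ φ' * ψ' := fun h => h2' ((ti_mul_eq_first_iff hW hφ' hφ hψ').mp h.symm).2
  have e6 : ψ ≠ φ' := Ne.symm (ti_first_ne_second hW hφ' hψ h1')
  have e7 : ψ ≠ φ' * ψ' := fun h => h1' ((ti_mul_eq_second_iff hW hφ' hψ' hψ).mp h.symm).1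
  have e8 : φ * ψ ≠ 1 := fun h => h1 ((ti_mul_eq_one_iff hW hφ hψ).mp h).1
  have e9 : φ * ψ ≠ φ' := fun h => h2 ((ti_mul_eq_first_iff hW hφ hφ' hψ).mp h).2
  have e10 : φ * ψ ≠ ψ' := fun h => h1 ((ti_mul_eq_second_iff hW hφ hψ hψ').mp h).1
  simp only [e1, e2, e3, e4, e5, e6, e7, e8, e9, e10, h1, h2, ti_mul_eq_mul_iff hW hφ hφ' hψ hψ',
    if_false, if_true]
  ring

theorem ti_sum_dual (w : ↥(W₁ ⊔ W₂)) [Fintype (TIDual W₁ W₂)] :
    ∑ ω : TIDual W₁ W₂, (ω w : ℂ) = if w = 1 then (Nat.card ↥(W₁ ⊔ W₂) : ℂ) else 0 := by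
  haveI := hW.2.2.2.2.1
  letI : CommGroup ↥(W₁ ⊔ W₂) :=
    { (inferInstance : Group ↥(W₁ ⊔ W₂)) with mul_comm := ti_comm hW }
  split_ifs with h
  · subst h
    simp only [map_one, Units.val_one, Finset.sum_const, Finset.card_univ, nsmul_eq_mul, mul_one]
    rw [← Nat.card_eq_fintype_card,
      CommGroup.card_monoidHom_of_hasEnoughRootsOfUnity ↥(W₁ ⊔ W₂) ℂ]
  · obtain ⟨χ, hχ⟩ := CommGroup.exists_apply_ne_one_of_hasEnoughRootsOfUnity ↥(W₁ ⊔ W₂) ℂ h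
    have hs : (χ w : ℂ) * ∑ ω : TIDual W₁ W₂, (ω w : ℂ) = ∑ ω : TIDual W₁ W₂, (ω w : ℂ) := by
      rw [Finset.mul_sum]
      exact Fintype.sum_equiv (Equiv.mulLeft χ) _ _ fun ω => by simp
    have hne : (χ w : ℂ) ≠ 1 := fun h' => hχ (Units.ext h')
    exact (mul_left_eq_self₀.mp hs).resolve_left hne

/-- Four-term relations force vanishing off `W₁ ∪ W₂`. -/
theorem ti_vanish {g : ↥(W₁ ⊔ W₂) → ℂ}
    (hg : ∀ φ ψ : TIDual W₁ W₂, TIFirst φ → TISecond ψ → φ ≠ 1 → ψ ≠ 1 →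
      Cfsg.classInner g (tiFun φ ψ) = 0)
    (v : ↥(W₁ ⊔ W₂)) (hv1 : (v : G) ∉ W₁) (hv2 : (v : G) ∉ W₂) : g v = 0 := by
  haveI := hW.2.2.2.2.1
  haveI : Fintype (TIDual W₁ W₂) := by
    letI : CommGroup ↥(W₁ ⊔ W₂) :=
      { (inferInstance : Group ↥(W₁ ⊔ W₂)) with mul_comm := ti_comm hW }
    haveI : Finite (TIDual W₁ W₂) := Nat.finite_of_card_ne_zero (by
      rw [CommGroup.card_monoidHom_of_hasEnoughRootsOfUnity ↥(W₁ ⊔ W₂) ℂ]
      exact Nat.card_pos.ne')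
    exact Fintype.ofFinite _
  set c : TIDual W₁ W₂ → ℂ := fun ω => Cfsg.classInner g (fun w => (ω w : ℂ)) with hc
  -- expansion
  have hexp : ∀ x, g x = ∑ ω : TIDual W₁ W₂, c ω * (ω x : ℂ) := by
    intro x
    have hconj : ∀ (ω : TIDual W₁ W₂) (y : ↥(W₁ ⊔ W₂)), conj (ω y : ℂ) = (ω y⁻¹ : ℂ) := fun ω y =>
      (Chars.char_inv_eq_conj (Chars.isCharacter_hom ω) y).symm
    simp only [hc, Chars.classInner_def, hconj, mul_assoc, Finset.sum_mul]
    rw [← Finset.mul_sum, Finset.sum_comm]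
    simp_rw [← Finset.mul_sum, ← Units.val_mul, ← map_mul, ti_sum_dual hW, inv_mul_eq_one]
    rw [Finset.sum_eq_single x (fun y _ hy => by simp [hy]) (by simp)]
    simp only [if_true]
    field_simp [Nat.cast_ne_zero.mpr (Nat.card_pos (α := ↥(W₁ ⊔ W₂))).ne']
  -- the coefficients are additive
  have hadd : ∀ φ ψ : TIDual W₁ W₂, TIFirst φ → TISecond ψ → c (φ * ψ) = c φ + c ψ - c 1 := by
    intro φ ψ hφ hψ
    by_cases h1 : φ = 1
    · subst h1; rw [show (1 : TIDual W₁ W₂) * ψ = ψ from MonoidHom.ext fun _ => one_mul _]; ring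
    by_cases h2 : ψ = 1
    · subst h2; rw [show φ * (1 : TIDual W₁ W₂) = φ from MonoidHom.ext fun _ => mul_one _]; ring
    have h := hg φ ψ hφ hψ h1 h2
    have he : tiFun φ ψ = (fun w => ((1 : TIDual W₁ W₂) w : ℂ)) - (fun w => (φ w : ℂ)) -
        (fun w => (ψ w : ℂ)) + fun w => ((φ * ψ) w : ℂ) := by
      funext w; simp [tiFun]
    rw [he, Chars.classInner_add_right, Chars.classInner_sub_right,
      Chars.classInner_sub_right] at h
    simp only [hc]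
    linear_combination h
  set a := tiProjOne hW v
  set b := tiProjTwo hW v
  have ha : a ≠ 1 := fun h => hv2 (by
    rw [← tiProj_mul hW v]
    simpa [a, h] using tiProjTwo_mem hW v)
  have hb : b ≠ 1 := fun h => hv1 (by
    rw [← tiProj_mul hW v]
    simpa [b, h] using tiProjOne_mem hW v)
  -- each summand sums to zero
  let e : TIDual W₁ W₂ ≃ {φ : TIDual W₁ W₂ // TIFirst φ} × {ψ : TIDual W₁ W₂ // TISecond ψ} :=
    { toFun := fun ω => (⟨_, tiPartOne_first hW ω⟩, ⟨_, tiPartTwo_second hW ω⟩)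
      invFun := fun p => p.1.1 * p.2.1
      left_inv := tiPart_mul hW
      right_inv := fun p => Prod.ext (Subtype.ext (tiPartOne_mul hW p.1.2 p.2.2))
        (Subtype.ext (tiPartTwo_mul hW p.1.2 p.2.2)) }
  rw [hexp, ← e.symm.sum_comp, Fintype.sum_prod_type]
  have hterm : ∀ (φ : {φ : TIDual W₁ W₂ // TIFirst φ}) (ψ : {ψ : TIDual W₁ W₂ // TISecond ψ}),
      c (e.symm (φ, ψ)) * ((e.symm (φ, ψ)) v : ℂ) =
        (c φ.1 - c 1) * (φ.1 a : ℂ) * (ψ.1 b : ℂ) + (φ.1 a : ℂ) * (c ψ.1 * (ψ.1 b : ℂ)) := by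
    intro φ ψ
    show c (φ.1 * ψ.1) * ((φ.1 * ψ.1) v : ℂ) = _
    have hval : (φ.1 * ψ.1) v = φ.1 a * ψ.1 b := by
      rw [← tiProj_mul hW v, MonoidHom.mul_apply, map_mul, map_mul]
      rw [φ.2 _ (tiProjTwo_mem hW v), ψ.2 _ (tiProjOne_mem hW v)]
      simp [a, b]
    rw [hadd _ _ φ.2 ψ.2, hval, Units.val_mul]; ring
  simp only [hterm, Finset.sum_add_distrib, ← Finset.mul_sum, ← Finset.sum_mul]
  have hB : ∑ ψ : {ψ : TIDual W₁ W₂ // TISecond ψ}, (ψ.1 b : ℂ) = 0 := by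
    letI : CommGroup ↥(W₁ ⊔ W₂) :=
      { (inferInstance : Group ↥(W₁ ⊔ W₂)) with mul_comm := ti_comm hW }
    obtain ⟨χ, hχ⟩ := CommGroup.exists_apply_ne_one_of_hasEnoughRootsOfUnity ↥(W₁ ⊔ W₂) ℂ hb
    have hne : ((tiPartTwo hW χ) b : ℂ) ≠ 1 := fun h' => hχ (by
      have := Units.ext (v := (1 : ℂˣ)) h'
      rwa [tiPartTwo, MonoidHom.comp_apply, tiProjTwo_of_mem hW (tiProjTwo_mem hW v)] at this)
    have hs : ((tiPartTwo hW χ) b : ℂ) * ∑ ψ : {ψ : TIDual W₁ W₂ // TISecond ψ}, (ψ.1 b : ℂ) =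
        ∑ ψ : {ψ : TIDual W₁ W₂ // TISecond ψ}, (ψ.1 b : ℂ) := by
      rw [Finset.mul_sum]
      refine Fintype.sum_equiv ⟨fun ψ => ⟨tiPartTwo hW χ * ψ.1,
          tiSecond_mul (tiPartTwo_second hW χ) ψ.2⟩,
        fun ψ => ⟨(tiPartTwo hW χ)⁻¹ * ψ.1,
          tiSecond_mul (tiSecond_inv (tiPartTwo_second hW χ)) ψ.2⟩,
        fun ψ => Subtype.ext (MonoidHom.ext fun _ => inv_mul_cancel_left _ _),
        fun ψ => Subtype.ext (MonoidHom.ext fun _ => mul_inv_cancel_left _ _)⟩ _ _ fun ψ => by simp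
    exact (mul_left_eq_self₀.mp hs).resolve_left hne
  have hA : ∑ φ : {φ : TIDual W₁ W₂ // TIFirst φ}, (φ.1 a : ℂ) = 0 := by
    letI : CommGroup ↥(W₁ ⊔ W₂) :=
      { (inferInstance : Group ↥(W₁ ⊔ W₂)) with mul_comm := ti_comm hW }
    obtain ⟨χ, hχ⟩ := CommGroup.exists_apply_ne_one_of_hasEnoughRootsOfUnity ↥(W₁ ⊔ W₂) ℂ ha
    have hne : ((tiPartOne hW χ) a : ℂ) ≠ 1 := fun h' => hχ (by
      have := Units.ext (v := (1 : ℂˣ)) h'
      rwa [tiPartOne, MonoidHom.comp_apply, tiProjOne_of_mem hW (tiProjOne_mem hW v)] at this)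
    have hs : ((tiPartOne hW χ) a : ℂ) * ∑ φ : {φ : TIDual W₁ W₂ // TIFirst φ}, (φ.1 a : ℂ) =
        ∑ φ : {φ : TIDual W₁ W₂ // TIFirst φ}, (φ.1 a : ℂ) := by
      rw [Finset.mul_sum]
      refine Fintype.sum_equiv ⟨fun φ => ⟨tiPartOne hW χ * φ.1,
          tiFirst_mul (tiPartOne_first hW χ) φ.2⟩,
        fun φ => ⟨(tiPartOne hW χ)⁻¹ * φ.1,
          tiFirst_mul (tiFirst_inv (tiPartOne_first hW χ)) φ.2⟩,
        fun φ => Subtype.ext (MonoidHom.ext fun _ => inv_mul_cancel_left _ _),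
        fun φ => Subtype.ext (MonoidHom.ext fun _ => mul_inv_cancel_left _ _)⟩ _ _ fun φ => by simp
    exact (mul_left_eq_self₀.mp hs).resolve_left hne
  simp [hA, hB]

end cyclic

end Cfsg.Agent.OddChar
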