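import Cfsg.Agent.OddChar.Elem
import Mathlib.RepresentationTheory.Character
import Mathlib.LinearAlgebra.PID
import Mathlib.RingTheory.PrincipalIdealDomain

/-!
The average of a character over the cosets of a normalised subgroup is a character, and averages
of products of characters are integers.
-/

set_option autoImplicit false

open scoped Classical

namespace Cfsg.Agent.OddChar

variable {G : Type*} [Group G] [Finite G] {V : Type*} [AddCommGroup V] [Module ℂ V]
  [FiniteDimensional ℂ V]

theorem trace_restrict_comp {f P : V →ₗ[ℂ] V} {W : Submodule ℂ V} (hP : LinearMap.IsProj W P)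
    (hf : ∀ x ∈ W, f x ∈ W) :
    LinearMap.trace ℂ W (f.restrict hf) = LinearMap.trace ℂ V (f ∘ₗ P) := by
  have h1 : ∀ x, (f ∘ₗ P) x ∈ W := fun x => hf _ (hP.map_mem x)
  rw [← LinearMap.trace_restrict_eq_of_forall_mem W (f ∘ₗ P) h1]
  congr 1
  ext x
  simp [LinearMap.restrict_apply, hP.map_id x x.2]

/-- If `M` normalises `K`, then `l ↦` mean of `χ` on `l K` is the character of `M` on the fixed
space of `K`. -/
theorem exists_rep_average (ρ : Representation ℂ G V) (M K : Subgroup G) [Fintype K]
    (hM : M ≤ Subgroup.normalizer (K : Set G)) :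
    ∃ σ : Representation ℂ M ↥(Representation.invariants (ρ.comp K.subtype)), ∀ l : M,
      σ.character l = (Nat.card K : ℂ)⁻¹ * ∑ u : K, ρ.character ((l : G) * u) := by
  set W := Representation.invariants (ρ.comp K.subtype) with hW
  have hinv : ∀ l : M, ∀ w ∈ W, ρ l w ∈ W := by
    intro l w hw u
    have hu : (l : G)⁻¹ * u * l ∈ K := (Subgroup.mem_normalizer_iff''.mp (hM l.2) u).mp u.2
    have h2 := hw ⟨_, hu⟩
    have h3 : ρ ((u : G) * l) w = ρ (l : G) w := by
      calc ρ ((u : G) * l) w = ρ ((l : G) * ((l : G)⁻¹ * u * l)) w := by congr 2; group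
        _ = ρ (l : G) w := by rw [map_mul]; exact congrArg (ρ (l : G)) h2
    rw [map_mul] at h3
    exact h3
  refine ⟨{ toFun := fun l => (ρ l).restrict (hinv l), map_one' := ?_, map_mul' := ?_ }, fun l => ?_⟩
  · ext w; simp [LinearMap.restrict_apply]
  · intro a b; ext w; simp [LinearMap.restrict_apply]
  · haveI : Invertible (Fintype.card K : ℂ) :=
      invertibleOfNonzero (Nat.cast_ne_zero.mpr Fintype.card_ne_zero)
    have hP := Representation.isProj_averageMap (ρ.comp K.subtype)
    show LinearMap.trace ℂ W ((ρ l).restrict (hinv l)) = _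
    rw [trace_restrict_comp hP (hinv l)]
    have : Representation.averageMap (ρ.comp K.subtype) =
        (Nat.card K : ℂ)⁻¹ • ∑ u : K, ρ (u : G) := by
      simp [Representation.averageMap, GroupAlgebra.average, map_sum, Nat.card_eq_fintype_card,
        invOf_eq_inv]
    rw [this, ← Module.End.mul_eq_comp, mul_smul_comm, map_smul, Finset.mul_sum, map_sum,
      smul_eq_mul]
    simp [Representation.character]

theorem rep_average_mul_mem_int {M : Type*} [Group M] [Finite M] [Fintype M] {W : Type*}
    [AddCommGroup W] [Module ℂ W] [FiniteDimensional ℂ W] (σ : Representation ℂ M V)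
    (τ : Representation ℂ M W) :
    ∃ z : ℤ, (Nat.card M : ℂ)⁻¹ * ∑ l : M, σ.character l * τ.character l = z := by
  haveI : Invertible (Nat.card M : ℂ) := invertibleOfNonzero (Nat.cast_ne_zero.mpr Nat.card_pos.ne')
  have h := Representation.card_inv_mul_sum_char_eq_finrank (σ.tprod τ)
  refine ⟨(Module.finrank ℂ (Representation.invariants (σ.tprod τ)) : ℕ), ?_⟩
  push_cast
  rw [← h]
  simp [Representation.char_tensor]

end Cfsg.Agent.OddChar
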