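import Cfsg.Agent.OddChar.DadeSum
import Cfsg.Agent.OddChar.CosetAverage
import Cfsg.Agent.OddChar.FixedTrace
import Mathlib.GroupTheory.GroupAction.Quotient
import Mathlib.Data.Finset.Powerset

/-!
Integrality of the inner products of the Dade image of a generalised character with characters
(the inclusion–exclusion over subsets of `A`).
-/

set_option autoImplicit false
set_option linter.unusedSectionVars false

open scoped Classical

namespace Cfsg.Agent.OddChar

variable {G : Type*} [Group G] [Finite G] {A : Set G} {L : Subgroup G} {H : G → Subgroup G}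

theorem orbit_weighted_sum_int {M X : Type*} [Group M] [Finite M] [Fintype X] [MulAction M X]
    (f : X → ℂ) (hint : ∀ x, ∃ z : ℤ, f x = z) (hinv : ∀ (l : M) x, f (l • x) = f x) :
    ∃ z : ℤ, ∑ x : X, ((Nat.card (MulAction.stabilizer M x) : ℂ) / Nat.card M) * f x = z := by
  choose g hg using hint
  rw [← Finset.sum_fiberwise (Finset.univ : Finset X) (Quotient.mk (MulAction.orbitRel M X))]
  refine ⟨∑ q : MulAction.orbitRel.Quotient M X, g q.out, ?_⟩
  rw [Int.cast_sum]
  refine Finset.sum_congr rfl fun q _ => ?_
  have hfib : ∀ x, Quotient.mk (MulAction.orbitRel M X) x = q ↔ x ∈ MulAction.orbit M q.out := by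
    intro x
    conv_lhs => rw [← q.out_eq]
    exact Quotient.eq.trans (MulAction.orbitRel_apply ..)
  have hterm : ∀ x ∈ Finset.univ.filter (fun x => Quotient.mk (MulAction.orbitRel M X) x = q),
      ((Nat.card (MulAction.stabilizer M x) : ℂ) / Nat.card M) * f x =
        ((Nat.card (MulAction.stabilizer M q.out) : ℂ) / Nat.card M) * f q.out := by
    intro x hx
    obtain ⟨l, rfl⟩ := (hfib x).mp (Finset.mem_filter.mp hx).2
    rw [hinv]
    congr 3
    exact Nat.card_congr
      (MulAction.stabilizerEquivStabilizer (g := l⁻¹) (inv_smul_smul l q.out).symm).toEquiv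
  rw [Finset.sum_congr rfl hterm, Finset.sum_const, nsmul_eq_mul, ← hg]
  have hcard : (Finset.univ.filter (fun x => Quotient.mk (MulAction.orbitRel M X) x = q)).card *
      Nat.card (MulAction.stabilizer M q.out) = Nat.card M := by
    rw [show (Finset.univ.filter (fun x => Quotient.mk (MulAction.orbitRel M X) x = q)).card
        = Nat.card (MulAction.orbit M q.out) by
      rw [Nat.card_eq_fintype_card, ← Set.toFinset_card]
      congr 1; ext x; simp [hfib x]]
    rw [Nat.card_congr (MulAction.orbitEquivQuotientStabilizer M q.out), ← Subgroup.index,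
      Subgroup.index_mul_card]
  have hM : (Nat.card M : ℂ) ≠ 0 := Nat.cast_ne_zero.mpr Nat.card_pos.ne'
  field_simp
  rw [← hcard]; push_cast; ring

/-- The intersection of `H b`, `b ∈ B`. -/
def dadeInter (H : G → Subgroup G) (B : Finset G) : Subgroup G := ⨅ b ∈ B, H b

theorem mem_dadeInter {B : Finset G} {u : G} : u ∈ dadeInter H B ↔ ∀ b ∈ B, u ∈ H b := by
  simp [dadeInter, Subgroup.mem_iInf]

theorem dade_integral [Fintype G] [Fintype L] (hD : Cfsg.DadeHypothesis A L H) {V W : Type*}
    [AddCommGroup V] [Module ℂ V] [FiniteDimensional ℂ V] [AddCommGroup W] [Module ℂ W]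
    [FiniteDimensional ℂ W] {U : Type*} [AddCommGroup U] [Module ℂ U] [FiniteDimensional ℂ U]
    (ρ : Representation ℂ G V) (σ₁ : Representation ℂ L W) (σ₂ : Representation ℂ L U)
    (hsupp : ∀ x : L, (x : G) ∉ A → σ₁.character x - σ₂.character x = 0) :
    ∃ z : ℤ, (Nat.card L : ℂ)⁻¹ * ∑ a : L,
      (if (a : G) ∈ A then (σ₁.character a - σ₂.character a) *
        ((Nat.card (H (a : G)) : ℂ)⁻¹ * ∑ u : H (a : G), ρ.character ((a : G) * u)) else 0) = z := by
  let X := {B : Finset G // B.Nonempty ∧ ↑B ⊆ A}
  let act : L → X → X := fun l B => ⟨B.1.image (fun b => (l : G) * b * (l : G)⁻¹),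
    B.2.1.image _, by
      intro c hc
      obtain ⟨b, hb, rfl⟩ := Finset.mem_image.mp (Finset.mem_coe.mp hc)
      exact hD.conj_mem l l.2 b (B.2.2 hb)⟩
  letI : MulAction L X :=
    { smul := act
      one_smul := fun B => Subtype.ext (by show B.1.image _ = B.1; simp)
      mul_smul := fun l l' B => Subtype.ext (by
        show B.1.image _ = (B.1.image _).image _
        rw [Finset.image_image]; congr 1; funext b; simp [mul_assoc]) }
  have hsmul : ∀ (l : L) (B : X), (l • B).1 = B.1.image (fun b => (l : G) * b * (l : G)⁻¹) :=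
    fun _ _ => rfl
  have hnormK : ∀ (B : X) (l : L), ∀ u ∈ dadeInter H B.1,
      (l : G) * u * (l : G)⁻¹ ∈ dadeInter H (l • B).1 := by
    intro B l u hu
    rw [mem_dadeInter] at hu ⊢
    intro c hc
    rw [hsmul] at hc
    obtain ⟨b, hb, rfl⟩ := Finset.mem_image.mp hc
    exact dade_conj_mem_H hD (B.2.2 hb) l.2 (hu b hb)
  have hNnorm : ∀ B : X, (MulAction.stabilizer L B).map L.subtype ≤
      Subgroup.normalizer (dadeInter H B.1 : Set G) := by
    rintro B _ ⟨l, hl, rfl⟩
    rw [Subgroup.mem_normalizer_iff]
    intro u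
    constructor
    · intro hu
      have := hnormK B l u hu
      rwa [show l • B = B from hl] at this
    · intro hu
      have := hnormK B l⁻¹ _ hu
      rw [show l⁻¹ • B = B from (MulAction.stabilizer L B).inv_mem hl] at this
      simpa [mul_assoc] using this
  let mB : X → L → ℂ := fun B l =>
    (Nat.card (dadeInter H B.1) : ℂ)⁻¹ * ∑ u : dadeInter H B.1, ρ.character ((l : G) * u)
  let α : L → ℂ := fun l => σ₁.character l - σ₂.character l
  let f : X → ℂ := fun B => (-1 : ℂ) ^ (B.1.card + 1) *
    ((Nat.card (MulAction.stabilizer L B) : ℂ)⁻¹ *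
      ∑ l : MulAction.stabilizer L B, α l * mB B l)
  have hint : ∀ B, ∃ z : ℤ, f B = z := by
    intro B
    obtain ⟨σ, hσ⟩ := exists_rep_average ρ _ _ (hNnorm B)
    let e := (MulAction.stabilizer L B).equivMapOfInjective L.subtype L.subtype_injective
    let σ' := σ.comp e.toMonoidHom
    have hσ' : ∀ l : MulAction.stabilizer L B, Representation.character σ' l = mB B l := fun l => by
      have h := hσ (e l)
      simp only [Subgroup.coe_equivMapOfInjective_apply, e] at h
      exact h
    obtain ⟨z₁, hz₁⟩ := rep_average_mul_mem_int (σ₁.comp (MulAction.stabilizer L B).subtype) σ'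
    obtain ⟨z₂, hz₂⟩ := rep_average_mul_mem_int (σ₂.comp (MulAction.stabilizer L B).subtype) σ'
    refine ⟨(-1) ^ (B.1.card + 1) * (z₁ - z₂), ?_⟩
    push_cast
    rw [← hz₁, ← hz₂]
    simp only [f, α, hσ', sub_mul, Finset.sum_sub_distrib, mul_sub]
    rfl
  have hinv : ∀ (l : L) B, f (l • B) = f B := by
    intro l B
    have hc : (l • B).1.card = B.1.card := by
      rw [hsmul]
      exact Finset.card_image_of_injective _ fun a b h => by simpa using h
    simp only [f, hc]
    congr 1
    let e : MulAction.stabilizer L B ≃* MulAction.stabilizer L (l • B) :=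
      MulAction.stabilizerEquivStabilizer (g := l) rfl
    rw [Nat.card_congr e.toEquiv]
    congr 1
    refine (Fintype.sum_bijective e e.bijective _ _ fun x => ?_).symm
    have hx : ((e x : MulAction.stabilizer L (l • B)) : L) = l * x * l⁻¹ := by
      exact MulAction.stabilizerEquivStabilizer_apply rfl x
    rw [hx]
    have hα : α (l * (x : L) * l⁻¹) = α x := by
      simp only [α, Representation.char_conj]
    rw [hα]
    congr 1
    simp only [mB]
    have hH : ∀ u, u ∈ dadeInter H B.1 ↔ (l : G) * u * (l : G)⁻¹ ∈ dadeInter H (l • B).1 := by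
      intro u
      refine ⟨hnormK B l u, fun hu => ?_⟩
      simpa [mul_assoc] using hnormK (l • B) l⁻¹ _ hu
    let eH : dadeInter H B.1 ≃ dadeInter H (l • B).1 :=
      (MulAut.conj (l : G)).toEquiv.subtypeEquiv hH
    rw [Nat.card_congr eH]
    congr 1
    refine Fintype.sum_equiv eH _ _ fun u => ?_
    rw [← Representation.char_conj ρ (((x : L) : G) * u) (l : G)]
    congr 1
    simp [eH, mul_assoc]
  obtain ⟨z, hz⟩ := orbit_weighted_sum_int f hint hinv
  refine ⟨z, ?_⟩
  rw [← hz]
  -- each weighted term is a sum over `L`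
  have hterm : ∀ B : X, ((Nat.card (MulAction.stabilizer L B) : ℂ) / Nat.card L) * f B =
      (Nat.card L : ℂ)⁻¹ * ∑ l : L,
        if l • B = B then (-1 : ℂ) ^ (B.1.card + 1) * (α l * mB B l) else 0 := by
    intro B
    have hne : (Nat.card (MulAction.stabilizer L B) : ℂ) ≠ 0 :=
      Nat.cast_ne_zero.mpr Nat.card_pos.ne'
    rw [← Finset.sum_filter, ← Finset.mul_sum,
      Finset.sum_subtype (p := fun l => l ∈ MulAction.stabilizer L B) _ (fun l => by simp)]
    simp only [f]
    field_simp
  rw [Finset.sum_congr rfl fun B _ => hterm B, ← Finset.mul_sum, Finset.sum_comm]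
  congr 1
  refine Finset.sum_congr rfl fun a _ => ?_
  split_ifs with ha
  swap
  · refine (Finset.sum_eq_zero fun B _ => ?_).symm
    split_ifs
    · simp only [α, hsupp a ha, zero_mul, mul_zero]
    · rfl
  -- cancel in pairs
  have hfixa : ∀ B : X, a • B = B → ∀ b ∈ B.1, (a : G) * b * (a : G)⁻¹ ∈ B.1 := by
    intro B hB b hb
    have := congrArg Subtype.val hB
    rw [hsmul] at this
    exact this ▸ Finset.mem_image_of_mem _ hb
  have hpair : ∀ B C : X, a • B = B → C.1 = insert (a : G) B.1 → mB C a = mB B a := by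
    intro B C hB hC
    have hnm : (a : G) ∈ Subgroup.normalizer (dadeInter H B.1 : Set G) :=
      hNnorm B ⟨a, hB, rfl⟩
    obtain ⟨b₀, hb₀⟩ := B.2.1
    have hdiv : Nat.card (dadeInter H B.1) ∣ Nat.card (H b₀) :=
      Subgroup.card_dvd_of_le fun u hu => mem_dadeInter.mp hu b₀ hb₀
    have hcop : Nat.Coprime (orderOf (a : G)) (Nat.card (dadeInter H B.1)) :=
      (Nat.Coprime.coprime_dvd_left
        (orderOf_dvd_of_pow_eq_one (pow_card_eq_one_of_mem _ (dade_self_mem hD ha)))
        (hD.coprime b₀ (B.2.2 hb₀) a ha).symm).coprime_dvd_right hdiv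
    have hCeq : dadeInter H C.1 = dadeInter H B.1 ⊓ Subgroup.centralizer ({(a : G)} : Set G) := by
      ext u
      simp only [Subgroup.mem_inf, mem_dadeInter, hC, Finset.forall_mem_insert]
      constructor
      · rintro ⟨h1, h2⟩
        exact ⟨h2, hD.le_centralizer _ ha h1⟩
      · rintro ⟨h2, h3⟩
        refine ⟨(dade_mem_iff hD ha u).mpr ⟨h3, ?_⟩, h2⟩
        exact (hD.coprime b₀ (B.2.2 hb₀) a ha).coprime_dvd_left
          (orderOf_dvd_of_pow_eq_one (pow_card_eq_one_of_mem _ (h2 b₀ hb₀)))
    exact (coset_average (dadeInter H B.1) (a : G) hnm hcop (dadeInter H C.1) hCeq ρ.character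
      (fun x h => Representation.char_conj ρ x h)).symm
  let S₀ : X := ⟨{(a : G)}, Finset.singleton_nonempty _, by simpa using ha⟩
  have hS₀fix : a • S₀ = S₀ := Subtype.ext (by rw [hsmul]; simp [S₀])
  rw [← Finset.add_sum_erase _ _ (Finset.mem_univ S₀), if_pos hS₀fix]
  have hmain : (-1 : ℂ) ^ (S₀.1.card + 1) * (α a * mB S₀ a) =
      (σ₁.character a - σ₂.character a) *
        ((Nat.card (H (a : G)) : ℂ)⁻¹ * ∑ u : H (a : G), ρ.character ((a : G) * u)) := by
    have hmem : ∀ u : G, u ∈ dadeInter H S₀.1 ↔ u ∈ H (a : G) := fun u => by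
      simp [mem_dadeInter, S₀]
    let eS : dadeInter H S₀.1 ≃ H (a : G) := (Equiv.refl G).subtypeEquiv hmem
    simp only [mB]
    rw [Nat.card_congr eS, Fintype.sum_equiv eS
      (fun u : dadeInter H S₀.1 => ρ.character ((a : G) * u))
      (fun u : H (a : G) => ρ.character ((a : G) * u)) fun u => rfl]
    simp [S₀, α]
  rw [hmain, left_eq_add]
  let tog : (B : X) → B ∈ Finset.univ.erase S₀ → X := fun B hB =>
    if h : (a : G) ∈ B.1 then ⟨B.1.erase (a : G), by
      rw [Finset.nonempty_iff_ne_empty]
      intro he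
      refine (Finset.mem_erase.mp hB).1 (Subtype.ext ?_)
      rcases Finset.erase_eq_empty_iff _ _ |>.mp he with h' | h'
      · exact absurd h (by simp [h'])
      · exact h', fun c hc => B.2.2 (Finset.mem_of_mem_erase hc)⟩
    else ⟨insert (a : G) B.1, Finset.insert_nonempty _ _, by
      rw [Finset.coe_insert]; exact Set.insert_subset ha B.2.2⟩
  have htogfix : ∀ (B : X) (hB : B ∈ Finset.univ.erase S₀), a • B = B → a • tog B hB = tog B hB := by
    intro B hB hfix
    have h1 := congrArg Subtype.val hfix
    rw [hsmul] at h1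
    refine Subtype.ext ?_
    rw [hsmul]
    by_cases h : (a : G) ∈ B.1
    · simp only [tog, dif_pos h]
      rw [Finset.image_erase (fun x y hxy => by simpa using hxy), h1]
      simp
    · simp only [tog, dif_neg h]
      rw [Finset.image_insert, h1]
      simp
  refine Finset.sum_involution tog ?_ ?_ ?_ ?_
  · intro B hB
    by_cases hfix : a • B = B
    · rw [if_pos hfix, if_pos (htogfix B hB hfix)]
      by_cases h : (a : G) ∈ B.1
      · have hv : (tog B hB).1 = B.1.erase (a : G) := by simp [tog, dif_pos h]
        have hm := hpair (tog B hB) B (htogfix B hB hfix) (by rw [hv, Finset.insert_erase h])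
        rw [hm, hv, ← Finset.card_erase_add_one h]
        ring
      · have hv : (tog B hB).1 = insert (a : G) B.1 := by simp [tog, dif_neg h]
        have hm := hpair B (tog B hB) hfix hv
        rw [hm, hv, Finset.card_insert_of_notMem h]
        ring
    · rw [if_neg hfix, if_neg]
      · ring
      · intro hfix'
        apply hfix
        have h1 := congrArg Subtype.val hfix'
        rw [hsmul] at h1
        refine Subtype.ext ?_
        rw [hsmul]
        by_cases h : (a : G) ∈ B.1
        · simp only [tog, dif_pos h] at h1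
          calc B.1.image (fun b => (a : G) * b * (a : G)⁻¹)
              = (insert (a : G) (B.1.erase (a : G))).image (fun b => (a : G) * b * (a : G)⁻¹) := by
                rw [Finset.insert_erase h]
            _ = B.1 := by rw [Finset.image_insert, h1]; simp [Finset.insert_erase h]
        · simp only [tog, dif_neg h] at h1
          have h2 := congrArg (fun S => S.erase (a : G)) h1
          simp only [Finset.image_insert, mul_inv_cancel_right] at h2
          rwa [Finset.erase_insert h, Finset.erase_insert] at h2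
          intro hh
          obtain ⟨b, hb, hbe⟩ := Finset.mem_image.mp hh
          have : b = (a : G) := by
            have := congrArg (fun t => (a : G)⁻¹ * t * (a : G)) hbe
            simpa [mul_assoc] using this
          exact h (this ▸ hb)
  · intro B hB _ he
    have h1 := congrArg Subtype.val he
    by_cases h : (a : G) ∈ B.1
    · simp only [tog, dif_pos h] at h1
      exact absurd h (h1 ▸ Finset.notMem_erase _ _)
    · simp only [tog, dif_neg h] at h1
      exact h (h1 ▸ Finset.mem_insert_self _ _)
  · intro B hB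
    refine Finset.mem_erase.mpr ⟨fun he => ?_, Finset.mem_univ _⟩
    have h1 := congrArg Subtype.val he
    by_cases h : (a : G) ∈ B.1
    · simp only [tog, dif_pos h, S₀] at h1
      exact (Finset.notMem_erase (a : G) B.1) (h1 ▸ Finset.mem_singleton_self _)
    · simp only [tog, dif_neg h, S₀] at h1
      obtain ⟨b, hb⟩ := B.2.1
      have : b = (a : G) := Finset.mem_singleton.mp (h1 ▸ Finset.mem_insert_of_mem hb)
      exact h (this ▸ hb)
  · intro B hB
    refine Subtype.ext ?_
    by_cases h : (a : G) ∈ B.1
    · simp [tog, dif_pos h, Finset.insert_erase h]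
    · simp [tog, dif_neg h, Finset.erase_insert h]

end Cfsg.Agent.OddChar
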