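import Cfsg.Agent.OddChar.Elem
import Mathlib.Algebra.BigOperators.Finprod
import Mathlib.Algebra.CharZero.Defs

/-!
The Dade map and the averaging formula for class functions supported on the conjugates of the
cosets `a * H a`.
-/

set_option autoImplicit false
set_option linter.unusedSectionVars false

open scoped Classical

namespace Cfsg.Agent.OddChar

variable {G : Type*} [Group G] [Finite G] {A : Set G} {L : Subgroup G} {H : G → Subgroup G}

/-- The union of the conjugates of the cosets `a * H a`, `a ∈ A`. -/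
def dadeSupport (A : Set G) (H : G → Subgroup G) : Set G :=
  {g | ∃ a ∈ A, ∃ u ∈ H a, ∃ x : G, x * g * x⁻¹ = a * u}

theorem dade_conj_mem_H (hD : Cfsg.DadeHypothesis A L H) {a l u : G} (ha : a ∈ A) (hl : l ∈ L)
    (hu : u ∈ H a) : l * u * l⁻¹ ∈ H (l * a * l⁻¹) := by
  have hc := hD.conj_mem l hl a ha
  rw [dade_mem_iff hD hc]
  refine ⟨?_, ?_⟩
  · rw [mem_centralizer_singleton]
    calc l * a * l⁻¹ * (l * u * l⁻¹) = l * (a * u) * l⁻¹ := by group
      _ = l * u * l⁻¹ * (l * a * l⁻¹) := by rw [dade_commute hD ha hu]; group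
  · refine Nat.Coprime.coprime_dvd_left (orderOf_dvd_of_pow_eq_one ?_) (hD.coprime a ha _ hc)
    rw [conj_pow, pow_card_eq_one_of_mem _ hu]; group

theorem dade_card_conj (hD : Cfsg.DadeHypothesis A L H) {a l : G} (ha : a ∈ A) (hl : l ∈ L) :
    Nat.card (H (l * a * l⁻¹)) = Nat.card (H a) := by
  refine Nat.card_congr
    { toFun := fun u => ⟨l⁻¹ * u * l, by
        simpa [mul_assoc] using
          dade_conj_mem_H hD (hD.conj_mem l hl a ha) (L.inv_mem hl) u.2⟩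
      invFun := fun u => ⟨l * u * l⁻¹, dade_conj_mem_H hD ha hl u.2⟩
      left_inv := fun u => Subtype.ext (by simp [mul_assoc])
      right_inv := fun u => Subtype.ext (by simp [mul_assoc]) }

theorem dade_apply (hD : Cfsg.DadeHypothesis A L H) {α : L → ℂ} (hα : Cfsg.IsClassFunction L α)
    (a : L) (ha : (a : G) ∈ A) (g x u : G) (hu : u ∈ H a) (hx : x * g * x⁻¹ = (a : G) * u) :
    Cfsg.dadeIsometry A L H α g = α a := by
  have hex : ∃ b : L, (b : G) ∈ A ∧ ∃ y : G, ∃ v ∈ H (b : G), y * g * y⁻¹ = (b : G) * v :=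
    ⟨a, ha, x, u, hu, hx⟩
  unfold Cfsg.dadeIsometry
  rw [dif_pos hex]
  obtain ⟨hb, y, v, hv, hy⟩ := Classical.choose_spec hex
  have hconj := dade_conj_base hD ha hb hu hv (g := y * x⁻¹) (by rw [← hx, ← hy]; group)
  obtain ⟨l, hl, hle⟩ := hD.fusion _ ha (y * x⁻¹) (hconj ▸ hb)
  rw [hconj] at hle
  rw [← show (⟨l, hl⟩ : L) * a * ⟨l, hl⟩⁻¹ = Classical.choose hex from Subtype.ext hle]
  exact hα a ⟨l, hl⟩

theorem dade_apply_self (hD : Cfsg.DadeHypothesis A L H) {α : L → ℂ}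
    (hα : Cfsg.IsClassFunction L α) (a : L) (ha : (a : G) ∈ A) (u : G) (hu : u ∈ H a) :
    Cfsg.dadeIsometry A L H α ((a : G) * u) = α a :=
  dade_apply hD hα a ha _ 1 u hu (by group)

theorem dade_apply_of_notMem (α : L → ℂ) {g : G} (hg : g ∉ dadeSupport A H) :
    Cfsg.dadeIsometry A L H α g = 0 := by
  unfold Cfsg.dadeIsometry
  rw [dif_neg]
  rintro ⟨a, ha, x, u, hu, hx⟩
  exact hg ⟨a, ha, u, hu, x, hx⟩

theorem dadeSupport_conj {g : G} (hg : g ∈ dadeSupport A H) (x : G) :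
    x * g * x⁻¹ ∈ dadeSupport A H := by
  obtain ⟨a, ha, u, hu, y, hy⟩ := hg
  exact ⟨a, ha, u, hu, y * x⁻¹, by rw [← hy]; group⟩

theorem dade_isClassFunction (hD : Cfsg.DadeHypothesis A L H) {α : L → ℂ}
    (hα : Cfsg.IsClassFunction L α) : Cfsg.IsClassFunction G (Cfsg.dadeIsometry A L H α) := by
  intro g h
  by_cases hg : g ∈ dadeSupport A H
  · obtain ⟨a, ha, u, hu, y, hy⟩ := hg
    rw [dade_apply hD hα ⟨a, hD.subset ha⟩ ha g y u hu hy,
      dade_apply hD hα ⟨a, hD.subset ha⟩ ha (h * g * h⁻¹) (y * h⁻¹) u hu (by rw [← hy]; group)]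
  · rw [dade_apply_of_notMem α hg, dade_apply_of_notMem α]
    intro hh
    apply hg
    simpa [mul_assoc] using dadeSupport_conj hh h⁻¹

/-- The fibre of `(x, a, u) ↦ x (a u) x⁻¹` over `y (a₀ u₀) y⁻¹` is parametrised by `L × H a₀`. -/
theorem dade_fiber_card (hD : Cfsg.DadeHypothesis A L H) {a₀ u₀ y : G} (ha₀ : a₀ ∈ A)
    (hu₀ : u₀ ∈ H a₀) :
    Nat.card {t : G × G × G // t.2.1 ∈ A ∧ t.2.2 ∈ H t.2.1 ∧
      t.1 * (t.2.1 * t.2.2) * t.1⁻¹ = y * (a₀ * u₀) * y⁻¹} = Nat.card L * Nat.card (H a₀) := by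
  rw [← Nat.card_prod]
  symm
  refine Nat.card_eq_of_bijective (fun p : L × H a₀ =>
    ⟨(y * p.2 * p.1, (p.1 : G)⁻¹ * a₀ * p.1,
        (p.1 : G)⁻¹ * ((p.2 : G)⁻¹ * u₀ * p.2) * p.1), ?_, ?_, ?_⟩) ⟨?_, ?_⟩
  · simpa using hD.conj_mem _ (L.inv_mem p.1.2) a₀ ha₀
  · have : (p.2 : G)⁻¹ * u₀ * p.2 ∈ H a₀ :=
      (H a₀).mul_mem ((H a₀).mul_mem ((H a₀).inv_mem p.2.2) hu₀) p.2.2
    simpa using dade_conj_mem_H hD ha₀ (L.inv_mem p.1.2) this
  · have hcm := dade_commute hD ha₀ p.2.2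
    show y * (p.2 : G) * p.1 * ((p.1 : G)⁻¹ * a₀ * p.1 *
      ((p.1 : G)⁻¹ * ((p.2 : G)⁻¹ * u₀ * p.2) * p.1)) * (y * (p.2 : G) * p.1)⁻¹ = _
    calc _ = y * ((p.2 : G) * a₀) * (p.2 : G)⁻¹ * u₀ * y⁻¹ := by group
      _ = y * (a₀ * u₀) * y⁻¹ := by rw [← hcm]; group
  · rintro ⟨l, v⟩ ⟨l', v'⟩ h
    have h' := congrArg Subtype.val h
    simp only [Prod.mk.injEq] at h'
    obtain ⟨h1, h2, -⟩ := h'
    have h1' : (v' : G)⁻¹ * v = (l' : G) * (l : G)⁻¹ := by
      have : (v : G) * l = (v' : G) * l' := by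
        apply mul_left_cancel (a := y); simpa [mul_assoc] using h1
      calc (v' : G)⁻¹ * v = (v' : G)⁻¹ * ((v : G) * l) * (l : G)⁻¹ := by group
        _ = (l' : G) * (l : G)⁻¹ := by rw [this]; group
    have hmem : (v' : G)⁻¹ * v ∈ H a₀ ⊓ (L ⊓ Subgroup.centralizer ({a₀} : Set G)) := by
      have hH : (v' : G)⁻¹ * v ∈ H a₀ := (H a₀).mul_mem ((H a₀).inv_mem v'.2) v.2
      exact ⟨hH, h1' ▸ L.mul_mem l'.2 (L.inv_mem l.2), hD.le_centralizer a₀ ha₀ hH⟩
    rw [hD.inf_eq_bot a₀ ha₀, Subgroup.mem_bot] at hmem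
    have hv : v = v' := Subtype.ext (inv_mul_eq_one.mp hmem).symm
    rw [hmem] at h1'
    have hl : l = l' := Subtype.ext (mul_inv_eq_one.mp h1'.symm).symm
    rw [hv, hl]
  · rintro ⟨⟨x, a, u⟩, ha, hu, he⟩
    have hconj := dade_conj_base hD ha ha₀ hu hu₀ (g := y⁻¹ * x) (by
      calc y⁻¹ * x * (a * u) * (y⁻¹ * x)⁻¹ = y⁻¹ * (x * (a * u) * x⁻¹) * y := by group
        _ = a₀ * u₀ := by rw [he]; group)
    obtain ⟨l₀, hl₀, hl₀e⟩ := hD.fusion a ha (y⁻¹ * x) (hconj ▸ ha₀)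
    rw [hconj] at hl₀e
    have hc : y⁻¹ * x * l₀⁻¹ ∈ Subgroup.centralizer ({a₀} : Set G) := by
      rw [mem_centralizer_singleton]
      calc a₀ * (y⁻¹ * x * l₀⁻¹) = y⁻¹ * x * a * (y⁻¹ * x)⁻¹ * (y⁻¹ * x * l₀⁻¹) := by rw [hconj]
        _ = y⁻¹ * x * l₀⁻¹ * (l₀ * a * l₀⁻¹) := by group
        _ = y⁻¹ * x * l₀⁻¹ * a₀ := by rw [hl₀e]
    have hnorm : L ⊓ Subgroup.centralizer ({a₀} : Set G) ≤ Subgroup.normalizer (H a₀ : Set G) := by
      intro c hc
      rw [Subgroup.mem_normalizer_iff]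
      intro n
      refine ⟨fun hn => hD.conj_mem_H a₀ ha₀ c hc.2 n hn, fun hn => ?_⟩
      simpa [mul_assoc] using
        hD.conj_mem_H a₀ ha₀ c⁻¹ ((Subgroup.centralizer ({a₀} : Set G)).inv_mem hc.2) _ hn
    rw [← hD.sup_eq a₀ ha₀, ← SetLike.mem_coe,
      Subgroup.coe_mul_of_right_le_normalizer_left _ _ hnorm] at hc
    obtain ⟨v, hv, c, hc, hvc⟩ := Set.mem_mul.mp hc
    refine ⟨(⟨c * l₀, L.mul_mem hc.1 hl₀⟩, ⟨v, hv⟩), Subtype.ext ?_⟩
    have hx : x = y * v * (c * l₀) := by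
      calc x = y * (y⁻¹ * x * l₀⁻¹) * l₀ := by group
        _ = _ := by rw [← hvc]; group
    have hcc : a₀ * c = c * a₀ := mem_centralizer_singleton.mp hc.2
    have ha' : a = (c * l₀)⁻¹ * a₀ * (c * l₀) := by
      calc a = l₀⁻¹ * (l₀ * a * l₀⁻¹) * l₀ := by group
        _ = l₀⁻¹ * (c⁻¹ * (c * a₀)) * l₀ := by rw [hl₀e]; group
        _ = _ := by rw [← hcc]; group
    have hu' : u = (c * l₀)⁻¹ * (v⁻¹ * u₀ * v) * (c * l₀) := by
      have hcm := dade_commute hD ha₀ hv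
      calc u = a⁻¹ * (x⁻¹ * (x * (a * u) * x⁻¹) * x) := by group
        _ = a⁻¹ * (x⁻¹ * (y * (a₀ * u₀) * y⁻¹) * x) := by rw [he]
        _ = (c * l₀)⁻¹ * (a₀⁻¹ * v⁻¹ * a₀ * u₀ * v) * (c * l₀) := by rw [ha', hx]; group
        _ = _ := by
          rw [show a₀⁻¹ * v⁻¹ * a₀ = v⁻¹ from by
            calc a₀⁻¹ * v⁻¹ * a₀ = (v * a₀)⁻¹ * a₀ := by group
              _ = v⁻¹ := by rw [← hcm]; group]
    simp only [Prod.mk.injEq]
    exact ⟨hx.symm, ha'.symm, hu'.symm⟩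

/-- Averaging formula: a class function vanishing off the union of the conjugates of the cosets
`a * H a` has the same average over `G` as the function `a ↦` mean of it on `a * H a` has over `L`. -/
theorem dade_sum {k : Type*} [Field k] [CharZero k] [Fintype G] [Fintype L]
    (hD : Cfsg.DadeHypothesis A L H) (F : G → k) (hF : ∀ g h : G, F (h * g * h⁻¹) = F g)
    (hsupp : ∀ g, g ∉ dadeSupport A H → F g = 0) :
    (Nat.card G : k)⁻¹ * ∑ g : G, F g =
      (Nat.card L : k)⁻¹ * ∑ a : L,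
        if (a : G) ∈ A then (Nat.card (H (a : G)) : k)⁻¹ * ∑ u : H (a : G), F ((a : G) * u) else 0 := by
  let T : Finset (G × G × G) := Finset.univ.filter (fun t => t.2.1 ∈ A ∧ t.2.2 ∈ H t.2.1)
  let π : G × G × G → G := fun t => t.1 * (t.2.1 * t.2.2) * t.1⁻¹
  let w : G → k := fun a => (Nat.card (H a) : k)⁻¹
  have h1 : ∑ t ∈ T, w t.2.1 * F (π t) = (Nat.card G : k) * ∑ a : L,
      if (a : G) ∈ A then (Nat.card (H (a : G)) : k)⁻¹ * ∑ u : H (a : G), F ((a : G) * u) else 0 := by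
    have e : ∑ t ∈ T, w t.2.1 * F (π t) = ∑ a : L, ∑ x : G,
        if (a : G) ∈ A then w (a : G) * ∑ u : H (a : G), F ((a : G) * u) else 0 := by
      rw [Finset.sum_filter, Fintype.sum_prod_type]
      conv_rhs => rw [Finset.sum_comm]
      refine Finset.sum_congr rfl fun x _ => ?_
      rw [Fintype.sum_prod_type,
        ← Finset.sum_subset (Finset.subset_univ (Finset.univ.image (Subtype.val : L → G))),
        Finset.sum_image Subtype.val_injective.injOn]
      · refine Finset.sum_congr rfl fun a _ => ?_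
        by_cases ha : (a : G) ∈ A
        · simp only [ha, true_and, if_true, π, w, hF, Finset.mul_sum]
          rw [← Finset.sum_filter]
          exact (Finset.sum_subtype _ (by simp) _)
        · simp [ha]
      · intro a _ ha
        have : a ∉ A := fun h => ha (Finset.mem_image.mpr ⟨⟨a, hD.subset h⟩, Finset.mem_univ _, rfl⟩)
        simp [this]
    rw [e, Finset.mul_sum]
    refine Finset.sum_congr rfl fun a _ => ?_
    simp [w, Nat.card_eq_fintype_card]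
  have h2 : ∑ t ∈ T, w t.2.1 * F (π t) = (Nat.card L : k) * ∑ g : G, F g := by
    rw [← Finset.sum_fiberwise T π, Finset.mul_sum]
    refine Finset.sum_congr rfl fun g _ => ?_
    by_cases hg : g ∈ dadeSupport A H
    · obtain ⟨a₀, ha₀, u₀, hu₀, x, hx⟩ := hg
      have hgx : g = x⁻¹ * (a₀ * u₀) * x := by rw [← hx]; group
      have hterm : ∀ t ∈ T.filter (fun t => π t = g), w t.2.1 * F (π t) = w a₀ * F g := by
        intro t ht
        simp only [T, π, Finset.mem_filter, Finset.mem_univ, true_and] at ht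
        obtain ⟨⟨hta, htu⟩, hte⟩ := ht
        rw [show π t = g from hte]
        congr 1
        have hconj := dade_conj_base hD hta ha₀ htu hu₀ (g := x * t.1) (by
          calc x * t.1 * (t.2.1 * t.2.2) * (x * t.1)⁻¹
              = x * (t.1 * (t.2.1 * t.2.2) * t.1⁻¹) * x⁻¹ := by group
            _ = a₀ * u₀ := by rw [hte, hx])
        obtain ⟨l, hl, hle⟩ := hD.fusion _ hta (x * t.1) (hconj ▸ ha₀)
        simp only [w]
        rw [← hconj, ← hle, dade_card_conj hD hta hl]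
      have hcard : (T.filter (fun t => π t = g)).card = Nat.card L * Nat.card (H a₀) := by
        rw [← dade_fiber_card hD (y := x⁻¹) ha₀ hu₀, Nat.card_eq_fintype_card,
          Fintype.card_subtype]
        congr 1
        ext t
        simp [T, π, hgx, and_assoc]
      rw [Finset.sum_congr rfl hterm, Finset.sum_const, hcard, nsmul_eq_mul]
      have hne : (Nat.card (H a₀) : k) ≠ 0 := Nat.cast_ne_zero.mpr Nat.card_pos.ne'
      simp only [w]; push_cast; field_simp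
    · rw [hsupp g hg, mul_zero]
      refine Finset.sum_eq_zero fun t ht => ?_
      rw [(Finset.mem_filter.mp ht).2, hsupp g hg, mul_zero]
  have hG : (Nat.card G : k) ≠ 0 := Nat.cast_ne_zero.mpr Nat.card_pos.ne'
  have hL : (Nat.card L : k) ≠ 0 := Nat.cast_ne_zero.mpr Nat.card_pos.ne'
  rw [h2] at h1
  rw [inv_mul_eq_div, inv_mul_eq_div, div_eq_div_iff hG hL]
  linear_combination h1

theorem finsum_mem_subgroup {M : Type*} [AddCommMonoid M] (K : Subgroup G) [Fintype K] (f : G → M) :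
    ∑ᶠ u ∈ (K : Set G), f u = ∑ u : K, f u := by
  rw [← finsum_set_coe_eq_finsum_mem, finsum_eq_sum_of_fintype]
  rfl

end Cfsg.Agent.OddChar
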