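/-
The 2-generated core and connectedness of the commuting graph of four-groups.
-/
import Cfsg.Prelude.Def_CaseTheorems
import Cfsg.Agent.TwoGroups.Automizer
import Cfsg.Agent.Coprime.Action
import Mathlib.GroupTheory.Sylow

set_option autoImplicit false
set_option linter.style.haveILetI false
set_option linter.unusedSectionVars false

namespace Cfsg.Agent.OddChar

variable {G : Type*} [Group G] [Finite G]

open scoped Pointwise

/-- The 2-generated core. -/
def twoCore (S : Subgroup G) : Subgroup G :=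
  ⨆ Q : {Q : Subgroup G // Q ≤ S ∧ ¬ Cfsg.PRankLE 2 1 Q}, Subgroup.normalizer ((Q : Subgroup G) : Set G)

theorem isKleinFour_map {H K : Type*} [Group H] [Group K] [Finite K] (f : H →* K) (hf : Function.Injective f)
    {U : Subgroup H} (hU : IsKleinFour U) [Finite H] : IsKleinFour (U.map f : Subgroup K) := by
  obtain ⟨h4, hsq, -⟩ := TwoGroups.four_facts hU
  refine TwoGroups.isKleinFour_of (by rw [Subgroup.card_map_of_injective hf, h4]) ?_
  rintro _ ⟨a, ha, rfl⟩
  rw [← map_mul, hsq a ha, map_one]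

theorem not_prankLE_of_four {Q U : Subgroup G} (hU : IsKleinFour U) (hUQ : U ≤ Q) :
    ¬ Cfsg.PRankLE 2 1 Q := by
  intro h
  obtain ⟨h4, hsq, hcm⟩ := TwoGroups.four_facts hU
  have := h (U.subgroupOf Q) ⟨⟨fun a b => Subtype.ext (Subtype.ext (hcm _ a.2 _ b.2))⟩⟩
    (fun a ha => Subtype.ext (by
      show (a : G) ^ 2 = 1
      rw [pow_two]; exact hsq _ ha))
  rw [Nat.card_congr (Subgroup.subgroupOfEquivOfLe hUQ).toEquiv, h4] at this
  omega

theorem exists_four_of_not_prankLE (h : ¬ Cfsg.PRankLE 2 1 G) : ∃ U : Subgroup G, IsKleinFour U := by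
  rw [Cfsg.PRankLE] at h
  push Not at h
  obtain ⟨A, -, hA, hcard⟩ := h
  haveI : Fact (Nat.Prime 2) := ⟨Nat.prime_two⟩
  have hp : IsPGroup 2 A := fun a => ⟨1, Subtype.ext (by rw [pow_one]; exact hA a a.2)⟩
  obtain ⟨k, hk⟩ := IsPGroup.iff_card.mp hp
  have h2 : 2 ≤ k := by
    by_contra hh
    have := Nat.pow_le_pow_right (show 1 ≤ 2 by norm_num) (show k ≤ 1 by omega)
    omega
  obtain ⟨V, hV⟩ := Sylow.exists_subgroup_card_pow_prime 2 (G := A) (hk ▸ pow_dvd_pow 2 h2)
  refine ⟨V.map A.subtype, TwoGroups.isKleinFour_of (by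
    rw [Subgroup.card_map_of_injective A.subtype_injective, hV]; norm_num) ?_⟩
  rintro _ ⟨a, -, rfl⟩
  rw [← pow_two]
  exact hA a a.2

variable [Fact (Nat.Prime 2)]

theorem normalizer_le_twoCore {S Q U : Subgroup G} (hQS : Q ≤ S) (hU : IsKleinFour U) (hUQ : U ≤ Q) :
    Subgroup.normalizer (Q : Set G) ≤ twoCore S :=
  le_iSup_of_le ⟨Q, hQS, not_prankLE_of_four hU hUQ⟩ le_rfl

/-- A Sylow subgroup meeting `S` in a subgroup containing a four-group is a conjugate of `S` by the core. -/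
theorem exists_core_conj (S : Sylow 2 G) : ∀ (n : ℕ) (T : Sylow 2 G) (U : Subgroup G), IsKleinFour U →
    U ≤ (S : Subgroup G) ⊓ T → Nat.card G - Nat.card ↥((S : Subgroup G) ⊓ T) = n →
    ∃ γ ∈ twoCore (S : Subgroup G), T = γ • S := by
  intro n
  induction n using Nat.strong_induction_on with
  | _ n IH =>
    intro T U hU hUQ hn
    set Q := (S : Subgroup G) ⊓ T
    by_cases hQS : Q = (S : Subgroup G)
    · exact ⟨1, one_mem _, by rw [one_smul]; exact Sylow.ext (S.3 T.isPGroup' (inf_eq_left.mp hQS))⟩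
    by_cases hQT : Q = (T : Subgroup G)
    · exact ⟨1, one_mem _, by rw [one_smul]; exact Sylow.ext (T.3 S.isPGroup' (inf_eq_right.mp hQT)).symm⟩
    set N := Subgroup.normalizer (Q : Set G)
    have hN : N ≤ twoCore (S : Subgroup G) := normalizer_le_twoCore inf_le_left hU hUQ
    have hgrow : ∀ R : Sylow 2 G, Q ≤ (R : Subgroup G) → Q ≠ (R : Subgroup G) →
        Q < (R : Subgroup G) ⊓ N := by
      intro R hQR hne
      refine lt_of_le_of_ne (le_inf hQR Subgroup.le_normalizer) fun he => ?_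
      haveI := R.isPGroup'.isNilpotent
      have hlt : Q.subgroupOf (R : Subgroup G) < ⊤ := lt_top_iff_ne_top.mpr fun h =>
        hne (le_antisymm hQR (Subgroup.subgroupOf_eq_top.mp h))
      obtain ⟨x, hx, hxn⟩ := SetLike.exists_of_lt
        (Group.normalizerCondition_of_isNilpotent (G := ↥(R : Subgroup G)) _ hlt)
      rw [← Subgroup.subgroupOf_normalizer_eq hQR] at hx
      exact hxn (show (x : G) ∈ Q from he.symm ▸ ⟨x.2, hx⟩)
    have hS' := hgrow S inf_le_left hQS
    have hT' := hgrow T inf_le_right hQT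
    obtain ⟨R₁, hR₁⟩ := (S.isPGroup'.to_le (inf_le_left : (S : Subgroup G) ⊓ N ≤ S) |>.comap_of_injective
      N.subtype N.subtype_injective).exists_le_sylow
    obtain ⟨R₂, hR₂⟩ := (T.isPGroup'.to_le (inf_le_left : (T : Subgroup G) ⊓ N ≤ T) |>.comap_of_injective
      N.subtype N.subtype_injective).exists_le_sylow
    obtain ⟨m, hm⟩ := MulAction.exists_smul_eq N R₁ R₂
    obtain ⟨P₁, hP₁⟩ := (R₁.isPGroup'.map N.subtype).exists_le_sylow
    have hlarge : ∀ A B C : Subgroup G, Q < C → C ≤ A ⊓ B →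
        Nat.card G - Nat.card ↥(A ⊓ B) < n := by
      intro A B C hC hle
      have := Set.ncard_lt_ncard (SetLike.coe_ssubset_coe.mpr (hC.trans_le hle)) (Set.toFinite _)
      rw [← Nat.card_coe_set_eq, ← Nat.card_coe_set_eq] at this
      have h2 := Subgroup.card_le_card_group (A ⊓ B)
      simp only [SetLike.coe_sort_coe] at this
      omega
    have hSP : (S : Subgroup G) ⊓ N ≤ P₁ := fun x hx => hP₁ ⟨⟨x, hx.2⟩, hR₁ hx, rfl⟩
    obtain ⟨γ₁, hγ₁, e₁⟩ := IH _ (hlarge S P₁ _ hS' (le_inf inf_le_left hSP)) P₁ U hU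
      ((hUQ.trans hS'.le).trans (le_inf inf_le_left hSP)) rfl
    have hmS : ((m : G) * γ₁) ∈ twoCore (S : Subgroup G) := mul_mem (hN m.2) hγ₁
    have hTP : (T : Subgroup G) ⊓ N ≤ (((m : G) * γ₁) • S : Sylow 2 G) := by
      intro x hx
      rw [mul_smul, ← e₁, Sylow.coe_subgroup_smul, Subgroup.mem_pointwise_smul_iff_inv_smul_mem]
      have h1 : (⟨x, hx.2⟩ : N) ∈ ((m • R₁ : Sylow 2 N) : Subgroup N) := hm ▸ hR₂ hx
      rw [Sylow.coe_subgroup_smul, Subgroup.mem_pointwise_smul_iff_inv_smul_mem] at h1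
      exact hP₁ ⟨_, h1, rfl⟩
    set γ := (m : G) * γ₁
    have hsm : ∀ x : G, x ∈ ((T : Subgroup G) ⊓ N).map (MulAut.conj γ⁻¹).toMonoidHom →
        x ∈ (S : Subgroup G) ⊓ (γ⁻¹ • T : Sylow 2 G) := by
      rintro x ⟨y, hy, rfl⟩
      refine ⟨?_, ?_⟩
      · have h1 := hTP hy
        rw [Sylow.coe_subgroup_smul, Subgroup.mem_pointwise_smul_iff_inv_smul_mem] at h1
        simp [MulAut.smul_def] at h1 ⊢
        exact h1
      · rw [SetLike.mem_coe, Sylow.coe_subgroup_smul]
        exact Subgroup.smul_mem_pointwise_smul y (MulAut.conj γ⁻¹) _ hy.1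
    have hlt2 : Nat.card G - Nat.card ↥((S : Subgroup G) ⊓ (γ⁻¹ • T : Sylow 2 G)) < n := by
      have h1 := Set.ncard_lt_ncard (SetLike.coe_ssubset_coe.mpr hT') (Set.toFinite _)
      have h2 := Subgroup.card_le_of_le (H := ((T : Subgroup G) ⊓ N).map (MulAut.conj γ⁻¹).toMonoidHom)
        (K := (S : Subgroup G) ⊓ (γ⁻¹ • T : Sylow 2 G)) hsm
      rw [Subgroup.card_map_of_injective (MulAut.conj γ⁻¹).injective] at h2
      rw [← Nat.card_coe_set_eq, ← Nat.card_coe_set_eq] at h1
      have h3 := Subgroup.card_le_card_group ((S : Subgroup G) ⊓ (γ⁻¹ • T : Sylow 2 G))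
      simp only [SetLike.coe_sort_coe] at h1
      omega
    obtain ⟨γ₂, hγ₂, e₂⟩ := IH _ hlt2 (γ⁻¹ • T) (U.map (MulAut.conj γ⁻¹).toMonoidHom)
      (isKleinFour_map _ (MulAut.conj γ⁻¹).injective hU)
      ((Subgroup.map_mono (hUQ.trans hT'.le)).trans hsm) rfl
    exact ⟨γ * γ₂, mul_mem hmS hγ₂, by rw [mul_smul, ← e₂, smul_inv_smul]⟩

theorem disconnected_iff_core (h2 : ¬ Cfsg.PRankLE 2 1 G) (S : Sylow 2 G)
    (hS : Cfsg.IsFourConnected (S : Subgroup G)) :
    ¬ Cfsg.IsFourConnected G ↔ twoCore (S : Subgroup G) ≠ ⊤ := by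
  obtain ⟨W, hW⟩ := exists_four_of_not_prankLE h2
  obtain ⟨T₀, hT₀⟩ := (TwoGroups.isPGroup_of_four hW).exists_le_sylow
  obtain ⟨g₀, hg₀⟩ := MulAction.exists_smul_eq G T₀ S
  set U₀ := W.map (MulAut.conj g₀).toMonoidHom
  have hU₀ : IsKleinFour U₀ := isKleinFour_map _ (MulAut.conj g₀).injective hW
  have hU₀S : U₀ ≤ (S : Subgroup G) := by
    rw [← hg₀, Sylow.coe_subgroup_smul]
    rintro _ ⟨y, hy, rfl⟩
    exact Subgroup.smul_mem_pointwise_smul y (MulAut.conj g₀) _ (hT₀ hy)
  clear_value U₀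
  let r := fun A B : Subgroup G => IsKleinFour A ∧ IsKleinFour B ∧ ∀ a ∈ A, ∀ b ∈ B, a * b = b * a
  have hsymm : ∀ A B, Relation.ReflTransGen r A B → Relation.ReflTransGen r B A := fun A B h => by
    induction h with
    | refl => exact .refl
    | @tail B C _ hbc ih =>
      have h' : r C B := ⟨hbc.2.1, hbc.1, fun a ha b hb => (hbc.2.2 b hb a ha).symm⟩
      exact (Relation.ReflTransGen.single h').trans ih
  have hconj : ∀ (g : G) A B, Relation.ReflTransGen r A B →
      Relation.ReflTransGen r (A.map (MulAut.conj g).toMonoidHom) (B.map (MulAut.conj g).toMonoidHom) := by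
    intro g A B h
    refine Relation.ReflTransGen.lift (fun V : Subgroup G => V.map (MulAut.conj g).toMonoidHom) ?_ _ _ h
    rintro A B ⟨hA, hB, hc⟩
    refine ⟨isKleinFour_map _ (MulAut.conj g).injective hA, isKleinFour_map _ (MulAut.conj g).injective hB, ?_⟩
    rintro _ ⟨a, ha, rfl⟩ _ ⟨b, hb, rfl⟩
    rw [← map_mul, hc a ha b hb, map_mul]
  have hinS : ∀ A B : Subgroup G, IsKleinFour A → IsKleinFour B → A ≤ (S : Subgroup G) → B ≤ (S : Subgroup G) →
      Relation.ReflTransGen r A B := by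
    intro A B hA hB hAS hBS
    have back : ∀ C : Subgroup G, IsKleinFour C → C ≤ (S : Subgroup G) →
        IsKleinFour (C.subgroupOf (S : Subgroup G)) := fun C hC hCS => by
      obtain ⟨h4, hsq, -⟩ := TwoGroups.four_facts hC
      exact TwoGroups.isKleinFour_of (by rw [Nat.card_congr (Subgroup.subgroupOfEquivOfLe hCS).toEquiv, h4])
        fun a ha => Subtype.ext (hsq _ ha)
    have h := hS _ _ (back A hA hAS) (back B hB hBS)
    have h' : Relation.ReflTransGen r ((A.subgroupOf (S : Subgroup G)).map (S : Subgroup G).subtype)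
        ((B.subgroupOf (S : Subgroup G)).map (S : Subgroup G).subtype) := by
      refine Relation.ReflTransGen.lift
        (fun V : Subgroup (S : Subgroup G) => V.map (S : Subgroup G).subtype) ?_ _ _ h
      rintro C D ⟨hC, hD, hc⟩
      refine ⟨isKleinFour_map _ (S : Subgroup G).subtype_injective hC,
        isKleinFour_map _ (S : Subgroup G).subtype_injective hD, ?_⟩
      rintro _ ⟨a, ha, rfl⟩ _ ⟨b, hb, rfl⟩
      rw [← map_mul, hc a ha b hb, map_mul]
    rwa [Subgroup.map_subgroupOf_eq_of_le hAS, Subgroup.map_subgroupOf_eq_of_le hBS] at h'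
  -- every Sylow subgroup containing a four-group of the class of `U₀` is a core conjugate of `S`
  have hgood : ∀ V, Relation.ReflTransGen r U₀ V → ∀ T : Sylow 2 G, V ≤ (T : Subgroup G) →
      ∃ γ ∈ twoCore (S : Subgroup G), T = γ • S := by
    have step : ∀ V : Subgroup G, IsKleinFour V → ∀ γ ∈ twoCore (S : Subgroup G), V ≤ ((γ • S : Sylow 2 G) : Subgroup G) →
        ∀ T : Sylow 2 G, V ≤ (T : Subgroup G) → ∃ δ ∈ twoCore (S : Subgroup G), T = δ • S := by
      intro V hV γ hγ hVγ T hVT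
      have hle : V.map (MulAut.conj γ⁻¹).toMonoidHom ≤ (S : Subgroup G) ⊓ (γ⁻¹ • T : Sylow 2 G) := by
        rintro _ ⟨y, hy, rfl⟩
        refine ⟨?_, ?_⟩
        · have h1 := hVγ hy
          rw [Sylow.coe_subgroup_smul, Subgroup.mem_pointwise_smul_iff_inv_smul_mem] at h1
          simp [MulAut.smul_def] at h1 ⊢
          exact h1
        · rw [SetLike.mem_coe, Sylow.coe_subgroup_smul]
          exact Subgroup.smul_mem_pointwise_smul y (MulAut.conj γ⁻¹) _ (hVT hy)
      obtain ⟨γ₂, hγ₂, e₂⟩ := exists_core_conj S _ (γ⁻¹ • T) (V.map (MulAut.conj γ⁻¹).toMonoidHom)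
        (isKleinFour_map _ (MulAut.conj γ⁻¹).injective hV) hle rfl
      exact ⟨γ * γ₂, mul_mem hγ hγ₂, by rw [mul_smul, ← e₂, smul_inv_smul]⟩
    intro V hV
    induction hV with
    | refl => exact step U₀ hU₀ 1 (one_mem _) (by rw [one_smul]; exact hU₀S)
    | tail _ hbc ih =>
      rename_i B C _
      intro T hT
      obtain ⟨hB, hC, hc⟩ := hbc
      have hBC : IsPGroup 2 (B ⊔ C : Subgroup G) :=
        (TwoGroups.isPGroup_of_four hB).to_sup_of_normal_left' (TwoGroups.isPGroup_of_four hC)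
          ((show C ≤ Subgroup.centralizer (B : Set G) from fun c hc' =>
            Subgroup.mem_centralizer_iff.mpr fun b hb => hc b hb c hc').trans
            (fun x hx => Coprime.mem_normalizer_of_conj_mem fun y hy => by
              rw [← Subgroup.mem_centralizer_iff.mp hx y hy, mul_inv_cancel_right]; exact hy))
      obtain ⟨T', hT'⟩ := hBC.exists_le_sylow
      obtain ⟨γ, hγ, e⟩ := ih T' (le_sup_left.trans hT')
      exact step C hC γ hγ (e ▸ le_sup_right.trans hT') T hT
  constructor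
  · intro hdis htop
    refine hdis fun U V hU hV => ?_
    have key : ∀ g : G, Relation.ReflTransGen r U₀ (U₀.map (MulAut.conj g).toMonoidHom) := by
      intro g
      have hg : g ∈ twoCore (S : Subgroup G) := htop ▸ Subgroup.mem_top g
      refine Subgroup.iSup_induction _ (C := fun g : G =>
        Relation.ReflTransGen r U₀ (U₀.map (MulAut.conj g).toMonoidHom)) hg ?_ ?_ ?_
      · rintro ⟨Q, hQS, hQ⟩ x hx
        have hQ' : ¬ Cfsg.PRankLE 2 1 Q := hQ
        obtain ⟨E, hE⟩ := exists_four_of_not_prankLE hQ'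
        set E' := E.map Q.subtype
        have hE' : IsKleinFour E' := isKleinFour_map _ Q.subtype_injective hE
        have hE'Q : E' ≤ Q := Subgroup.map_subtype_le _
        have hxE : E'.map (MulAut.conj x).toMonoidHom ≤ (S : Subgroup G) := by
          rintro _ ⟨y, hy, rfl⟩
          exact hQS ((Subgroup.mem_normalizer_iff.mp hx y).mp (hE'Q hy))
        exact ((hinS _ _ hU₀ (isKleinFour_map _ (MulAut.conj x).injective hE') hU₀S hxE)).trans
          (hconj x _ _ (hinS _ _ hE' hU₀ (hE'Q.trans hQS) hU₀S))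
      · rw [map_one, MulEquiv.toMonoidHom_eq_coe,
          show ((1 : MulAut G) : G →* G) = MonoidHom.id G from rfl, Subgroup.map_id]
      · intro x y hx hy
        have h := hconj x _ _ hy
        rw [Subgroup.map_map] at h
        rw [map_mul]
        exact hx.trans h
    have all : ∀ V : Subgroup G, IsKleinFour V → Relation.ReflTransGen r U₀ V := by
      intro V hV
      obtain ⟨T, hT⟩ := (TwoGroups.isPGroup_of_four hV).exists_le_sylow
      obtain ⟨g, hg⟩ := MulAction.exists_smul_eq G S T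
      have hle : V.map (MulAut.conj g⁻¹).toMonoidHom ≤ (S : Subgroup G) := by
        rintro _ ⟨y, hy, rfl⟩
        have h1 := hT hy
        rw [← hg, Sylow.coe_subgroup_smul, Subgroup.mem_pointwise_smul_iff_inv_smul_mem] at h1
        simpa [MulAut.smul_def] using h1
      have h := hconj g _ _ (hinS _ _ hU₀ (isKleinFour_map _ (MulAut.conj g⁻¹).injective hV) hU₀S hle)
      rw [Subgroup.map_map, show (MulAut.conj g).toMonoidHom.comp (MulAut.conj g⁻¹).toMonoidHom =
        MonoidHom.id G from MonoidHom.ext fun z => by simp [mul_assoc], Subgroup.map_id] at h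
      exact (key g).trans h
    exact (hsymm _ _ (all U hU)).trans (all V hV)
  · intro hne hcon
    refine hne (eq_top_iff.mpr fun g _ => ?_)
    have hle : U₀.map (MulAut.conj g).toMonoidHom ≤ ((g • S : Sylow 2 G) : Subgroup G) := by
      rintro _ ⟨y, hy, rfl⟩
      rw [Sylow.coe_subgroup_smul]
      exact Subgroup.smul_mem_pointwise_smul y (MulAut.conj g) _ (hU₀S hy)
    obtain ⟨γ, hγ, e⟩ := hgood _ (hcon U₀ _ hU₀ (isKleinFour_map _ (MulAut.conj g).injective hU₀)) _ hle
    have h1 : γ⁻¹ * g ∈ Subgroup.normalizer ((S : Subgroup G) : Set G) := by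
      exact Sylow.smul_eq_iff_mem_normalizer.mp (by rw [mul_smul, e, inv_smul_smul])
    have h2 := normalizer_le_twoCore (le_refl (S : Subgroup G)) hU₀ hU₀S h1
    simpa using mul_mem hγ h2

end Cfsg.Agent.OddChar
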