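import Cfsg.Agent.Golay.CodeFacts
import Cfsg.Agent.Golay.OctadStab

/-! Invariant subspaces of the permutation module on the 24 points. -/

set_option autoImplicit false

namespace Cfsg.Agent.OddChar

open Cfsg.Agent.Golay
open scoped Pointwise

abbrev GWord := GolayPt → ZMod 2

/-- Indicator word of a set. -/
def gind (s : Finset GolayPt) : GWord := fun p => if p ∈ s then 1 else 0

theorem gind_support (v : GWord) : gind (support₂ v) = v := by
  funext p
  simp only [gind, support₂, Finset.mem_filter, Finset.mem_univ, true_and]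
  generalize v p = a
  revert a; decide

theorem support_gind (s : Finset GolayPt) : support₂ (gind s) = s := by
  ext p; simp [gind, support₂]

theorem gind_symmDiff (s t : Finset GolayPt) : gind (symmDiff s t) = gind s + gind t := by
  funext p
  simp only [gind, Finset.mem_symmDiff, Pi.add_apply]
  by_cases a : p ∈ s <;> by_cases b : p ∈ t <;> simp [a, b] <;> decide

theorem gind_univ : gind Finset.univ = 1 := by funext p; simp [gind]

theorem gind_empty : gind ∅ = 0 := by funext p; simp [gind]

theorem gind_smul (σ : Equiv.Perm GolayPt) (s : Finset GolayPt) :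
    (fun p => gind s (σ.symm p)) = gind (σ • s) := by
  funext p
  simp only [gind]
  refine if_congr ?_ rfl rfl
  rw [Finset.mem_smul_finset]
  exact ⟨fun h => ⟨_, h, σ.apply_symm_apply p⟩, by rintro ⟨q, hq, rfl⟩; simpa using hq⟩

theorem gind_mem_code {s : Finset GolayPt} :
    gind s ∈ golayCode ↔ s ∈ supports (golayCode : Set GWord) := by
  refine ⟨fun h => ⟨_, h, support_gind s⟩, ?_⟩
  rintro ⟨v, hv, rfl⟩
  rwa [gind_support]

theorem univ_mem_supports :
    (Finset.univ : Finset GolayPt) ∈ supports (golayCode : Set GWord) := by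
  simpa using compl_mem_supports empty_mem_supports

theorem octad_through {s : Finset GolayPt} (h : 5 ≤ s.card) :
    ∃ o ∈ octads, 5 ≤ (s ∩ o).card := by
  obtain ⟨F, hF, h5⟩ := Finset.exists_subset_card_eq h
  obtain ⟨o, ho, hFo⟩ := exists_octad_of_five F h5
  exact ⟨o, ho, h5 ▸ Finset.card_le_card (Finset.subset_inter hF hFo)⟩

theorem octads_meet_four {o : Finset GolayPt} (ho : o ∈ octads) :
    ∃ o' ∈ octads, (o ∩ o').card = 4 ∧ symmDiff o o' ∈ octads := by
  obtain ⟨q, hq, hq4⟩ := Finset.exists_subset_card_eq (show 4 ≤ o.card by rw [card_octad ho]; norm_num)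
  obtain ⟨y, hy⟩ : ∃ y, y ∉ o := by
    by_contra h; push Not at h
    have := card_octad ho
    rw [Finset.eq_univ_of_forall h, Finset.card_univ, card_golayPt] at this
    omega
  obtain ⟨o', ho', hs⟩ := exists_octad_of_five (insert y q)
    (by rw [Finset.card_insert_of_notMem fun h => hy (hq h), hq4])
  rw [Finset.insert_subset_iff] at hs
  have h4 := Finset.card_le_card (Finset.subset_inter hq hs.2)
  have hne : o ≠ o' := fun e => hy (e ▸ hs.1)
  have h : (o ∩ o').card = 4 := by
    rcases inter_octads ho ho' hne with h | h | h <;> omega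
  refine ⟨o', ho', h, symmDiff_mem_supports ho.1 ho'.1, ?_⟩
  have := card_symmDiff_add (s := o) (t := o')
  rw [card_octad ho, card_octad ho'] at this
  omega

/-- A set of at most four points meeting every octad evenly is empty. -/
theorem small_perp {t : Finset GolayPt} (ht : t.card ≤ 4)
    (h : ∀ o ∈ octads, Even (t ∩ o).card) : t = ∅ := by
  by_contra hne
  obtain ⟨x, hx⟩ := Finset.nonempty_iff_ne_empty.2 hne
  obtain ⟨q, hq1, hq2, hq4⟩ : ∃ q, t.erase x ⊆ q ∧ q ⊆ Finset.univ.erase x ∧ q.card = 4 :=
    Finset.exists_subsuperset_card_eq (Finset.erase_subset_erase x (Finset.subset_univ t))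
      ((Finset.card_erase_le).trans ht)
      (by rw [Finset.card_erase_of_mem (Finset.mem_univ x), Finset.card_univ, card_golayPt]; norm_num)
  have hxq : x ∉ q := fun h => (Finset.mem_erase.1 (hq2 h)).1 rfl
  obtain ⟨O, hO, hqO⟩ := exists_octad_of_five (insert x q)
    (by rw [Finset.card_insert_of_notMem hxq, hq4])
  obtain ⟨y, hy⟩ : ∃ y, y ∉ O := by
    by_contra h'; push Not at h'
    have := card_octad hO
    rw [Finset.eq_univ_of_forall h', Finset.card_univ, card_golayPt] at this
    omega
  rw [Finset.insert_subset_iff] at hqO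
  obtain ⟨o, ho, hso⟩ := exists_octad_of_five (insert y q)
    (by rw [Finset.card_insert_of_notMem fun h' => hy (hqO.2 h'), hq4])
  rw [Finset.insert_subset_iff] at hso
  have hxo : x ∉ o := fun hxo => by
    have h5 := Finset.card_le_card
      (Finset.subset_inter (Finset.insert_subset_iff.2 ⟨hqO.1, hqO.2⟩)
        (Finset.insert_subset_iff.2 ⟨hxo, hso.2⟩) : insert x q ⊆ O ∩ o)
    rw [Finset.card_insert_of_notMem hxq, hq4] at h5
    exact hy ((octad_eq_of_five_le hO ho h5).symm ▸ hso.1)
  have e1 : t ∩ o = t.erase x := by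
    ext p
    simp only [Finset.mem_inter, Finset.mem_erase]
    exact ⟨fun ⟨a, b⟩ => ⟨fun e => hxo (e ▸ b), a⟩,
      fun ⟨a, b⟩ => ⟨b, hso.2 (hq1 (Finset.mem_erase.2 ⟨a, b⟩))⟩⟩
  have e2 : t ∩ O = t := Finset.inter_eq_left.2 fun p hp => by
    by_cases e : p = x
    · exact e ▸ hqO.1
    · exact hqO.2 (hq1 (Finset.mem_erase.2 ⟨e, hp⟩))
  have a := h o ho
  have b := h O hO
  rw [e1, Finset.card_erase_of_mem hx] at a
  rw [e2] at b
  have := Finset.card_pos.2 ⟨x, hx⟩
  obtain ⟨i, hi⟩ := a; obtain ⟨j, hj⟩ := b
  omega

/-- The code is its own orthogonal complement, tested on octads. -/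
theorem mem_code_of_perp {v : GWord} (h : ∀ o ∈ octads, ∑ i, v i * gind o i = 0) :
    v ∈ golayCode := by
  obtain ⟨t, ht, hs⟩ := exists_small_congr (support₂ v)
  have e : gind (symmDiff (support₂ v) t) = v + gind t := by rw [gind_symmDiff, gind_support]
  have hc : v + gind t ∈ golayCode := e ▸ gind_mem_code.2 hs
  have ht0 : t = ∅ := small_perp ht fun o ho => by
    have h1 := self_orthogonal hc (gind_mem_code.2 ho.1)
    simp only [Pi.add_apply, add_mul, Finset.sum_add_distrib] at h1
    rw [h o ho, zero_add, dot_eq, support_gind, support_gind] at h1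
    exact ZMod.natCast_eq_zero_iff_even.1 h1
  rwa [ht0, gind_empty, add_zero] at hc

variable (W : Submodule (ZMod 2) GWord)
  (hW : ∀ σ ∈ M24, ∀ w ∈ W, (fun p => w (σ.symm p)) ∈ W)

include hW in
theorem gind_move {σ : Equiv.Perm GolayPt} (hσ : σ ∈ M24) {s : Finset GolayPt} (h : gind s ∈ W) :
    gind (σ • s) ∈ W := gind_smul σ s ▸ hW σ hσ _ h

theorem code_le_of_octads (h : ∀ o ∈ octads, gind o ∈ W) : golayCode ≤ W := by
  have step : ∀ s, s ∈ supports (golayCode : Set GWord) → 5 ≤ s.card →
      ∃ o ∈ octads, symmDiff s o ∈ supports (golayCode : Set GWord) ∧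
        (symmDiff s o).card < s.card ∧ gind s = gind (symmDiff s o) + gind o := by
    intro s hs h5
    obtain ⟨o, ho, hso⟩ := octad_through h5
    refine ⟨o, ho, symmDiff_mem_supports hs ho.1, ?_, ?_⟩
    · have := card_symmDiff_add (s := s) (t := o)
      rw [card_octad ho] at this
      omega
    · rw [← gind_symmDiff, symmDiff_symmDiff_cancel_right]
  suffices key : ∀ n, ∀ s ∈ supports (golayCode : Set GWord), s.card = n → gind s ∈ W by
    intro v hv
    have := key _ (support₂ v) ⟨v, hv, rfl⟩ rfl
    rwa [gind_support] at this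
  intro n
  induction n using Nat.strong_induction_on with
  | _ n ih =>
    intro s hs hn
    rcases card_of_mem_supports hs with h0 | h8 | hh
    · rw [Finset.card_eq_zero.1 h0, gind_empty]; exact zero_mem _
    · exact h s ⟨hs, h8⟩
    · obtain ⟨o, ho, hd, hlt, he⟩ := step s hs (by omega)
      rw [he]
      exact add_mem (ih _ (hn ▸ hlt) _ hd rfl) (h o ho)

include hW in
theorem code_le_of_coOctad {o : Finset GolayPt} (ho : o ∈ octads) (h : gind oᶜ ∈ W) :
    golayCode ≤ W := by
  have hall : ∀ x ∈ octads, gind xᶜ ∈ W := fun x hx => by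
    obtain ⟨g, hg, hgo⟩ := M24_octad_transitive ho hx
    rw [← hgo, show (g • o)ᶜ = g • oᶜ by
      ext p; simp [← Finset.inv_smul_mem_iff]]
    exact gind_move W hW hg h
  refine code_le_of_octads W fun x hx => ?_
  obtain ⟨y, hy, -, hxy⟩ := octads_meet_four hx
  -- `x` is the sum of the octads `symmDiff x y` and `y`, hence of their complements
  have e : gind x = gind (symmDiff x y)ᶜ + gind yᶜ := by
    funext p
    simp only [gind, Finset.mem_compl, Finset.mem_symmDiff, Pi.add_apply]
    by_cases a : p ∈ x <;> by_cases b : p ∈ y <;> simp [a, b] <;> decide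
  rw [e]
  exact add_mem (hall _ hxy) (hall y hy)

include hW in
theorem code_le_of_octad {o : Finset GolayPt} (ho : o ∈ octads) (h : gind o ∈ W) :
    golayCode ≤ W := by
  refine code_le_of_octads W fun x hx => ?_
  obtain ⟨g, hg, hgo⟩ := M24_octad_transitive ho hx
  exact hgo ▸ gind_move W hW hg h

theorem two_dodecads : 0 < countB (fun i => pc (encode i) == 12 && pc (encode i &&& sqMask) == 8) 12 0 := by
  decide +kernel

include hW in
theorem code_le_of_dodecad {d : Finset GolayPt} (hd : d ∈ dodecads) (h : gind d ∈ W) :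
    golayCode ≤ W := by
  have hne := ncard_dodecad_inter_dodecad hd 8
  obtain ⟨d', hd', h8⟩ := Set.nonempty_of_ncard_ne_zero (hne ▸ two_dodecads.ne')
  obtain ⟨g, hg, hgd⟩ := M24_dodecad_transitive hd hd'
  have hc : symmDiff d d' ∈ octads := ⟨symmDiff_mem_supports hd.1 hd'.1, by
    have := card_symmDiff_add (s := d) (t := d')
    rw [card_dodecad hd, card_dodecad hd', h8] at this
    omega⟩
  refine code_le_of_octad W hW hc ?_
  rw [gind_symmDiff]
  exact add_mem h (hgd ▸ gind_move W hW hg h)

include hW in
theorem code_le_of_not_mem {v : GWord} (hv : v ∈ W) (hvC : v ∉ golayCode) : golayCode ≤ W := by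
  classical
  obtain ⟨o, ho, hodd⟩ : ∃ o ∈ octads, ∑ i ∈ oᶜ, v i ≠ 0 := by
    by_contra hcon
    push Not at hcon
    refine hvC (mem_code_of_perp fun x hx => ?_)
    have dot : ∀ z : Finset GolayPt, ∑ i, v i * gind z i = ∑ i ∈ z, v i := fun z => by
      simp [gind, Finset.sum_ite_mem]
    have htot : ∀ z ∈ octads, ∑ i ∈ z, v i = ∑ i, v i := fun z hz => by
      rw [← Finset.sum_add_sum_compl z, hcon z hz, add_zero]
    obtain ⟨y, hy, -, hxy⟩ := octads_meet_four hx
    have e : ∑ i, v i * gind (symmDiff x y) i = ∑ i, v i * gind x i + ∑ i, v i * gind y i := by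
      rw [gind_symmDiff, ← Finset.sum_add_distrib]
      exact Finset.sum_congr rfl fun i _ => by rw [Pi.add_apply, mul_add]
    rw [dot, dot, dot, htot _ hxy, htot _ hx, htot _ hy] at e
    rw [dot, htot x hx]
    revert e
    generalize ∑ i, v i = a
    revert a; decide
  refine code_le_of_coOctad W hW ho ?_
  set N := M24 ⊓ fixingSubgroup (Equiv.Perm GolayPt) (↑o : Set GolayPt) with hN
  haveI : Fintype N := Fintype.ofFinite _
  have hc16 : Fintype.card N = 16 := by rw [← Nat.card_eq_fintype_card]; exact fixer_card ho
  have hsum : (∑ σ : N, fun p => v ((σ : Equiv.Perm GolayPt).symm p)) = gind oᶜ := by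
    funext p
    rw [Finset.sum_apply]
    simp only [gind, Finset.mem_compl]
    by_cases hp : p ∈ o
    · rw [if_neg (not_not.2 hp), Finset.sum_congr rfl fun σ _ => by
        rw [show (σ : Equiv.Perm GolayPt).symm p = p from
          (Equiv.symm_apply_eq _).2 ((mem_fixingSubgroup_iff _).1 σ.2.2 p hp).symm],
        Finset.sum_const, Finset.card_univ, hc16]
      generalize v p = a
      revert a; decide
    · rw [if_pos hp]
      have hco : oᶜ.card = 16 := by rw [Finset.card_compl, card_golayPt, card_octad ho]
      have himg : Finset.univ.image (fun σ : N => (σ : Equiv.Perm GolayPt).symm p) = oᶜ := by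
        ext q
        simp only [Finset.mem_image, Finset.mem_univ, true_and, Finset.mem_compl]
        constructor
        · rintro ⟨σ, rfl⟩ hq
          have := (mem_fixingSubgroup_iff _).1 σ.2.2 _ hq
          rw [Equiv.Perm.smul_def, Equiv.apply_symm_apply] at this
          exact hp (this ▸ hq)
        · intro hq
          obtain ⟨g, hg, hgq⟩ := fixer_transitive ho hq hp
          exact ⟨⟨g, hg⟩, (Equiv.symm_apply_eq _).2 hgq.symm⟩
      have hinj : Set.InjOn (fun σ : N => (σ : Equiv.Perm GolayPt).symm p)
          ((Finset.univ : Finset N) : Set N) := Finset.injOn_of_card_image_eq (by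
        rw [himg, hco, Finset.card_univ, hc16])
      rw [← Finset.sum_image (f := v) hinj, himg]
      revert hodd
      generalize ∑ i ∈ oᶜ, v i = a
      revert a; decide
  rw [← hsum]
  exact sum_mem fun σ _ => hW _ σ.2.1 v hv

include hW in
theorem perm_module_subspaces :
    W = ⊥ ∨ W = Submodule.span (ZMod 2) {fun _ => (1 : ZMod 2)} ∨ W = golayCode ∨
      (W : Set GWord) = {w | ∑ p, w p = 0} ∨ W = ⊤ := by
  classical
  by_cases hCW : golayCode ≤ W
  · by_cases hWC : W ≤ golayCode
    · exact Or.inr (Or.inr (Or.inl (le_antisymm hWC hCW)))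
    obtain ⟨v, hv, hvC⟩ := SetLike.not_le_iff_exists.1 hWC
    obtain ⟨t, ht, hs⟩ := exists_small_congr (support₂ v)
    have htW : gind t ∈ W := by
      have h1 := hCW (gind_mem_code.2 hs)
      rw [gind_symmDiff, gind_support] at h1
      simpa using sub_mem h1 hv
    have ht0 : t.card ≠ 0 := fun h => hvC (by
      rw [Finset.card_eq_zero] at h
      have h1 := gind_mem_code.2 hs
      rwa [gind_symmDiff, gind_support, h, gind_empty, add_zero] at h1)
    have hmove : ∀ s : Finset GolayPt, s.card = t.card → gind s ∈ W := fun s hs' => by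
      obtain ⟨g, hg, hgs⟩ := exists_mem_M24_finset t s hs'.symm (by omega)
      exact hgs ▸ gind_move W hW hg htW
    have hduad : ∀ a b : GolayPt, a ≠ b → gind {a, b} ∈ W := by
      intro a b hab
      obtain ⟨q, hq, hqc⟩ : ∃ q ⊆ (Finset.univ \ {a, b} : Finset GolayPt), q.card = t.card - 1 :=
        Finset.exists_subset_card_eq (by
          rw [Finset.card_sdiff_of_subset (Finset.subset_univ _), Finset.card_univ, card_golayPt,
            Finset.card_pair hab]
          omega)
      have ha : a ∉ q := fun h => by simpa using hq h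
      have hb : b ∉ q := fun h => by simpa using hq h
      have e : gind {a, b} = gind (insert a q) + gind (insert b q) := by
        rw [← gind_symmDiff]; congr 1
        ext p
        simp only [Finset.mem_symmDiff, Finset.mem_insert, Finset.mem_singleton]
        constructor
        · rintro (rfl | rfl)
          · exact Or.inl ⟨Or.inl rfl, by rintro (h | h); exacts [hab h, ha h]⟩
          · exact Or.inr ⟨Or.inl rfl, by rintro (h | h); exacts [hab h.symm, hb h]⟩
        · rintro (⟨h | h, h'⟩ | ⟨h | h, h'⟩)
          · exact Or.inl h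
          · exact absurd (Or.inr h) h'
          · exact Or.inr h
          · exact absurd (Or.inr h) h'
      rw [e]
      exact add_mem (hmove _ (by rw [Finset.card_insert_of_notMem ha, hqc]; omega))
        (hmove _ (by rw [Finset.card_insert_of_notMem hb, hqc]; omega))
    have hbase : ∀ u : GWord, ∀ a : GolayPt, u + (∑ p, u p) • gind {a} ∈ W := by
      intro u a
      have hu : u = ∑ p, u p • gind {p} := by
        funext q
        rw [Finset.sum_apply]
        simp [gind]
      have e : ∑ p, u p • (gind {p} + gind {a}) = u + (∑ p, u p) • gind {a} := by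
        simp only [smul_add, Finset.sum_add_distrib, ← Finset.sum_smul]
        exact congrArg (fun z => z + (∑ p, u p) • gind {a}) hu.symm
      rw [← e]
      refine sum_mem fun p _ => W.smul_mem _ ?_
      by_cases h : p = a
      · subst h
        have hz : gind {p} + gind {p} = (0 : GWord) := funext fun q => CharTwo.add_self_eq_zero _
        exact hz.symm ▸ W.zero_mem
      · have hsd : symmDiff ({p} : Finset GolayPt) {a} = {p, a} := by
          ext q
          simp only [Finset.mem_symmDiff, Finset.mem_insert, Finset.mem_singleton]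
          constructor
          · rintro (⟨h1, -⟩ | ⟨h1, -⟩)
            exacts [Or.inl h1, Or.inr h1]
          · rintro (rfl | rfl)
            exacts [Or.inl ⟨rfl, h⟩, Or.inr ⟨rfl, Ne.symm h⟩]
        exact (gind_symmDiff {p} {a}).symm ▸ hsd.symm ▸ hduad p a h
    right; right; right
    by_cases hodd : ∀ u ∈ W, ∑ p, u p = 0
    · left
      ext u
      refine ⟨fun hu => hodd u hu, fun hu => ?_⟩
      have := hbase u none
      rwa [show ∑ p, u p = 0 from hu, zero_smul, add_zero] at this
    · right
      push Not at hodd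
      obtain ⟨u, hu, hu1⟩ := hodd
      have h1 : ∑ p, u p = 1 := by revert hu1; generalize ∑ p, u p = z; revert z; decide
      refine eq_top_iff.2 fun x _ => ?_
      have ha : gind {none} ∈ W := by
        have h2 := hbase u none
        rw [h1, one_smul] at h2
        simpa using sub_mem h2 hu
      simpa using sub_mem (hbase x none) (W.smul_mem (∑ p, x p) ha)
  · by_cases hWC : W ≤ golayCode
    swap
    · obtain ⟨v, hv, hvC⟩ := SetLike.not_le_iff_exists.1 hWC
      exact absurd (code_le_of_not_mem W hW hv hvC) hCW
    have hone : ∀ w ∈ W, w = 0 ∨ w = 1 := by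
      intro w hw
      have hs : support₂ w ∈ supports (golayCode : Set GWord) := ⟨w, hWC hw, rfl⟩
      rcases card_of_mem_supports hs with h | h | h | h | h
      · left; rw [← gind_support w, Finset.card_eq_zero.1 h, gind_empty]
      · exact absurd (code_le_of_octad W hW ⟨hs, h⟩ ((gind_support w).symm ▸ hw)) hCW
      · exact absurd (code_le_of_dodecad W hW ⟨hs, h⟩ ((gind_support w).symm ▸ hw)) hCW
      · refine absurd (code_le_of_coOctad W hW (o := (support₂ w)ᶜ)
          ⟨compl_mem_supports hs, by rw [Finset.card_compl, card_golayPt, h]⟩ ?_) hCW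
        rwa [compl_compl, gind_support]
      · right; rw [← gind_support w, Finset.eq_univ_of_card _ (h.trans card_golayPt.symm), gind_univ]
    by_cases h1 : (1 : GWord) ∈ W
    · right; left
      refine le_antisymm (fun w hw => ?_) (Submodule.span_le.2 (Set.singleton_subset_iff.2 h1))
      rcases hone w hw with rfl | rfl
      exacts [zero_mem _, Submodule.mem_span_singleton_self _]
    · left
      refine (Submodule.eq_bot_iff _).2 fun w hw => (hone w hw).resolve_right ?_
      rintro rfl
      exact h1 hw

end Cfsg.Agent.OddChar
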