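import Cfsg.Agent.OddChar.GolayPerm
import Mathlib.GroupTheory.SpecificGroups.Alternating

/-! Stabilisers of code words have no fixed point in the cocode. -/

set_option autoImplicit false

namespace Cfsg.Agent.OddChar

open Cfsg.Agent.Golay
open scoped Pointwise

theorem moves_leader (H : Equiv.Perm GolayPt → Prop) (hH : ∀ σ, H σ → σ ∈ M24)
    (A : Finset GolayPt) (hA : 6 < A.card) (hAc : Aᶜ = ∅ ∨ 3 < Aᶜ.card)
    (h2 : ∀ a ∈ A, ∀ b ∈ A, ∀ a' ∈ A, ∀ b' ∈ A, a ≠ b → a' ≠ b' → ∃ σ, H σ ∧ σ a = a' ∧ σ b = b')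
    (h1 : ∀ a, a ∉ A → ∀ b, b ∉ A → ∃ σ, H σ ∧ σ a = b)
    {t : Finset GolayPt} (ht0 : t.Nonempty) (ht : t.card ≤ 4) :
    ∃ σ, H σ ∧ symmDiff t (σ • t) ∉ supports (golayCode : Set GWord) := by
  classical
  by_contra hcon
  push Not at hcon
  by_cases h4 : t.card = 4
  · have hinv : ∀ σ, H σ → ∀ u ∈ partners t, σ • u ∈ partners t := by
      intro σ hσ u hu
      rw [mem_partners] at hu ⊢
      refine ⟨by rw [Finset.card_smul_finset]; exact hu.1, ?_⟩
      have h' : σ • symmDiff t u ∈ supports (golayCode : Set GWord) :=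
        (mem_M24_iff_forall.1 (hH σ hσ) _ hu.2)
      rw [Finset.smul_finset_symmDiff] at h'
      have h'' := symmDiff_mem_supports (hcon σ hσ) h'
      rwa [symmDiff_assoc, symmDiff_symmDiff_cancel_left] at h''
    have huniq : ∀ u ∈ partners t, ∀ v ∈ partners t, ∀ x, x ∈ u → x ∈ v → u = v := by
      intro u hu v hv x hxu hxv
      rw [mem_partners] at hu hv
      have hs := symmDiff_mem_supports (symmDiff_comm t u ▸ hu.2) hv.2
      rw [symmDiff_assoc, symmDiff_symmDiff_cancel_left] at hs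
      rcases congr_small (by omega) (by omega) hs with h | ⟨-, -, h, -⟩
      · exact h
      · exact absurd hxv (Finset.disjoint_left.1 h hxu)
    have hle : ∀ u ∈ partners t, (u ∩ A).card ≤ 1 := by
      intro u hu
      refine Finset.card_le_one.2 fun a ha b hb => ?_
      by_contra hne
      rw [Finset.mem_inter] at ha hb
      have hsub : A ⊆ u := fun c hc => by
        by_cases hca : c = a
        · exact hca ▸ ha.1
        obtain ⟨σ, hσ, e1, e2⟩ := h2 a ha.2 b hb.2 a ha.2 c hc hne (Ne.symm hca)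
        have hu' := hinv σ hσ u hu
        have : σ • u = u := huniq _ hu' u hu a
          (Finset.mem_smul_finset.2 ⟨a, ha.1, e1⟩) ha.1
        rw [← this]
        exact Finset.mem_smul_finset.2 ⟨b, hb.1, e2⟩
      have := Finset.card_le_card hsub
      have := (mem_partners.1 hu).1
      omega
    have hcov : A ⊆ (partners t).biUnion fun u => u ∩ A := fun a ha => by
      obtain ⟨u, hu, hau⟩ := partners_cover h4 a
      exact Finset.mem_biUnion.2 ⟨u, hu, Finset.mem_inter.2 ⟨hau, ha⟩⟩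
    have := (Finset.card_le_card hcov).trans (Finset.card_biUnion_le.trans (Finset.sum_le_card_nsmul _ _ 1 hle))
    rw [partners_card h4] at this
    simp at this
    omega
  · have hfix : ∀ σ, H σ → σ • t = t := by
      intro σ hσ
      rcases congr_small ht (by rw [Finset.card_smul_finset]; exact ht) (hcon σ hσ) with h | ⟨h, -⟩
      · exact h.symm
      · exact absurd h h4
    obtain ⟨x, hx⟩ := ht0
    have hmem : ∀ σ, H σ → σ x ∈ t := fun σ hσ => by
      have := Finset.smul_mem_smul_finset (a := σ) hx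
      rwa [hfix σ hσ] at this
    by_cases hxA : x ∈ A
    · have hsub : A.erase x ⊆ t := fun c hc => by
        obtain ⟨y, hy⟩ := Finset.card_pos.1
          (show 0 < (A.erase x).card by rw [Finset.card_erase_of_mem hxA]; omega)
        rw [Finset.mem_erase] at hc hy
        obtain ⟨σ, hσ, e1, -⟩ := h2 x hxA y hy.2 c hc.2 x hxA hy.1.symm hc.1
        exact e1 ▸ hmem σ hσ
      have := Finset.card_le_card hsub
      rw [Finset.card_erase_of_mem hxA] at this
      omega
    · have hsub : Aᶜ ⊆ t := fun c hc => by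
        obtain ⟨σ, hσ, e1⟩ := h1 x hxA c (Finset.mem_compl.1 hc)
        exact e1 ▸ hmem σ hσ
      have := Finset.card_le_card hsub
      rcases hAc with h | h
      · exact absurd (Finset.mem_compl.2 hxA) (h ▸ Finset.notMem_empty x)
      · omega

theorem even_perm_two {β : Type*} [Fintype β] [DecidableEq β] (hc : 4 ≤ Fintype.card β)
    {a b a' b' : β} (h : a ≠ b) (h' : a' ≠ b') :
    ∃ π : Equiv.Perm β, π ∈ alternatingGroup β ∧ π a = a' ∧ π b = b' := by
  set π₁ : Equiv.Perm β := Equiv.swap a a' with h1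
  set π₂ : Equiv.Perm β := Equiv.swap (π₁ b) b' * π₁ with h2
  have ea : π₂ a = a' := by
    rw [h2, Equiv.Perm.mul_apply, h1, Equiv.swap_apply_left]
    refine Equiv.swap_apply_of_ne_of_ne ?_ h'
    intro e
    exact h ((Equiv.swap a a').injective ((Equiv.swap_apply_left a a').trans e))
  have eb : π₂ b = b' := by rw [h2, Equiv.Perm.mul_apply, Equiv.swap_apply_left]
  rcases Int.units_eq_one_or (Equiv.Perm.sign π₂) with hs | hs
  · exact ⟨π₂, Equiv.Perm.mem_alternatingGroup.2 hs, ea, eb⟩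
  · obtain ⟨c, e, hce, hset⟩ : ∃ c e, c ≠ e ∧ c ∈ ({a', b'} : Finset β)ᶜ ∧ e ∈ ({a', b'} : Finset β)ᶜ := by
      have : 1 < (({a', b'} : Finset β)ᶜ).card := by
        rw [Finset.card_compl, Finset.card_pair h']; omega
      obtain ⟨c, hc, e, he, hne⟩ := Finset.one_lt_card.1 this
      exact ⟨c, e, hne, hc, he⟩
    simp only [Finset.mem_compl, Finset.mem_insert, Finset.mem_singleton, not_or] at hset
    refine ⟨Equiv.swap c e * π₂, ?_, ?_, ?_⟩
    · rw [Equiv.Perm.mem_alternatingGroup, map_mul, Equiv.Perm.sign_swap hce, hs]; decide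
    · rw [Equiv.Perm.mul_apply, ea, Equiv.swap_apply_of_ne_of_ne (Ne.symm hset.1.1) (Ne.symm hset.2.1)]
    · rw [Equiv.Perm.mul_apply, eb, Equiv.swap_apply_of_ne_of_ne (Ne.symm hset.1.2) (Ne.symm hset.2.2)]

theorem octad_stab_two {o : Finset GolayPt} (ho : o ∈ octads) {a b a' b' : GolayPt}
    (ha : a ∈ o) (hb : b ∈ o) (ha' : a' ∈ o) (hb' : b' ∈ o) (h : a ≠ b) (h' : a' ≠ b') :
    ∃ g, (g ∈ M24 ∧ g • o = o) ∧ g a = a' ∧ g b = b' := by
  classical
  obtain ⟨π, hπ, e1, e2⟩ := even_perm_two (β := ↥o) (by rw [Fintype.card_coe, card_octad ho]; norm_num)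
    (a := ⟨a, ha⟩) (b := ⟨b, hb⟩) (a' := ⟨a', ha'⟩) (b' := ⟨b', hb'⟩)
    (fun e => h (congrArg Subtype.val e)) (fun e => h' (congrArg Subtype.val e))
  rw [← octadRes_range ho] at hπ
  obtain ⟨g, rfl⟩ := hπ
  exact ⟨g.1, ⟨g.2.1, g.2.2⟩, congrArg Subtype.val e1, congrArg Subtype.val e2⟩

theorem dodecad_stab_two {d : Finset GolayPt} (hd : d ∈ dodecads) {a b a' b' : GolayPt}
    (ha : a ∈ d) (hb : b ∈ d) (ha' : a' ∈ d) (hb' : b' ∈ d) (h : a ≠ b) (h' : a' ≠ b') :
    ∃ g, (g ∈ M24 ∧ g • d = d) ∧ g a = a' ∧ g b = b' := by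
  have inj : ∀ {x y : GolayPt}, x ≠ y → Function.Injective (![x, y] : Fin 2 → GolayPt) :=
    fun hxy => by
      intro i j
      fin_cases i <;> fin_cases j <;> simp [hxy, Ne.symm hxy]
  obtain ⟨g, hg, hgd, hgi⟩ := exists_mem_dodecad_stab hd (k := 2) (by norm_num)
    ⟨![a, b], inj h⟩ ⟨![a', b'], inj h'⟩
    (fun i => by fin_cases i <;> simp [ha, hb]) (fun i => by fin_cases i <;> simp [ha', hb'])
  exact ⟨g, ⟨hg, hgd⟩, hgi 0, hgi 1⟩

theorem stab_moves_word (u : GWord) (hu : u ∈ golayCode) (w : GWord) (hw : w ∉ golayCode) :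
    ∃ σ ∈ M24, (fun p => u (σ.symm p)) = u ∧ (fun p => w (σ.symm p)) - w ∉ golayCode := by
  classical
  obtain ⟨t, ht, hs⟩ := exists_small_congr (support₂ w)
  have ht0 : t.Nonempty := by
    rw [Finset.nonempty_iff_ne_empty]
    intro h0
    have h1 := gind_mem_code.2 hs
    rw [h0, gind_symmDiff, gind_support, gind_empty, add_zero] at h1
    exact hw h1
  suffices key : ∃ σ, (σ ∈ M24 ∧ σ • support₂ u = support₂ u) ∧
      symmDiff t (σ • t) ∉ supports (golayCode : Set GWord) by
    obtain ⟨σ, ⟨hσ, hσu⟩, hσt⟩ := key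
    refine ⟨σ, hσ, ?_, fun hc => hσt (gind_mem_code.1 ?_)⟩
    · conv_rhs => rw [← gind_support u, ← hσu, ← gind_smul, gind_support]
    · have hd : w + gind t ∈ golayCode := by
        have h1 := gind_mem_code.2 hs
        rwa [gind_symmDiff, gind_support] at h1
      have hd' : (fun p => (w + gind t) (σ.symm p)) ∈ golayCode := by
        have h1 := gind_mem_code.2 (mem_M24_iff_forall.1 hσ _ hs)
        rwa [← gind_smul, gind_symmDiff, gind_support] at h1
      rw [gind_symmDiff, ← gind_smul]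
      have e : gind t + (fun p => gind t (σ.symm p))
          = ((fun p => (w + gind t) (σ.symm p)) + (w + gind t)) + ((fun p => w (σ.symm p)) - w) := by
        funext p
        simp only [Pi.add_apply, Pi.sub_apply]
        generalize w (σ.symm p) = a; generalize gind t (σ.symm p) = b
        generalize w p = c; generalize gind t p = d
        revert a b c d; decide
      rw [e]
      exact add_mem (add_mem hd' hd) hc
  have hsu : support₂ u ∈ supports (golayCode : Set GWord) := ⟨u, hu, rfl⟩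
  have hfull : ∀ σ : Equiv.Perm GolayPt, σ • (Finset.univ : Finset GolayPt) = Finset.univ :=
    fun σ => Finset.smul_finset_univ
  have hall : support₂ u = ∅ ∨ support₂ u = Finset.univ →
      ∃ σ, (σ ∈ M24 ∧ σ • support₂ u = support₂ u) ∧
        symmDiff t (σ • t) ∉ supports (golayCode : Set GWord) := by
    intro hc
    have hfix : ∀ σ : Equiv.Perm GolayPt, σ • support₂ u = support₂ u := fun σ => by
      rcases hc with h | h <;> rw [h]
      exacts [Finset.smul_finset_empty σ, hfull σ]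
    obtain ⟨σ, hσ, h⟩ := moves_leader (fun σ => σ ∈ M24) (fun _ h => h) Finset.univ
      (by rw [Finset.card_univ, card_golayPt]; norm_num) (Or.inl Finset.compl_univ)
      (fun a _ b _ a' _ b' _ hab hab' => exists_mem_M24_two hab hab')
      (fun a ha => absurd (Finset.mem_univ a) ha) ht0 ht
    exact ⟨σ, ⟨hσ, hfix σ⟩, h⟩
  have hoct : ∀ o ∈ octads, ∃ σ, (σ ∈ M24 ∧ σ • o = o) ∧
      symmDiff t (σ • t) ∉ supports (golayCode : Set GWord) := fun o ho =>
    moves_leader (fun σ => σ ∈ M24 ∧ σ • o = o) (fun _ h => h.1) o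
      (by rw [card_octad ho]; norm_num)
      (Or.inr (by rw [Finset.card_compl, card_golayPt, card_octad ho]; norm_num))
      (fun a ha b hb a' ha' b' hb' => octad_stab_two ho ha hb ha' hb')
      (fun a ha b hb => by
        obtain ⟨g, hg, e⟩ := fixer_transitive ho ha hb
        refine ⟨g, ⟨hg.1, ?_⟩, e⟩
        refine Finset.eq_of_subset_of_card_le (fun x hx => ?_) (by rw [Finset.card_smul_finset])
        obtain ⟨y, hy, rfl⟩ := Finset.mem_smul_finset.1 hx
        rwa [(mem_fixingSubgroup_iff _).1 hg.2 y hy]) ht0 ht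
  have hcompl : ∀ (σ : Equiv.Perm GolayPt) (s : Finset GolayPt), σ • s = s → σ • sᶜ = sᶜ := by
    intro σ s h
    rw [Finset.compl_eq_univ_sdiff, Finset.smul_finset_sdiff, hfull, h]
  rcases card_of_mem_supports hsu with h | h | h | h | h
  · exact hall (Or.inl (Finset.card_eq_zero.1 h))
  · exact hoct _ ⟨hsu, h⟩
  · have hd : support₂ u ∈ dodecads := ⟨hsu, h⟩
    have hd' : (support₂ u)ᶜ ∈ dodecads := ⟨compl_mem_supports hsu, by rw [Finset.card_compl, card_golayPt, h]⟩
    refine moves_leader (fun σ => σ ∈ M24 ∧ σ • support₂ u = support₂ u) (fun _ h => h.1) (support₂ u)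
      (by omega) (Or.inr (by rw [Finset.card_compl, card_golayPt, h]; norm_num))
      (fun a ha b hb a' ha' b' hb' => dodecad_stab_two hd ha hb ha' hb') (fun a ha b hb => ?_) ht0 ht
    by_cases hab : a = b
    · exact ⟨1, ⟨one_mem _, one_smul _ _⟩, hab⟩
    · obtain ⟨g, ⟨hg, hgd⟩, e, -⟩ := dodecad_stab_two hd' (Finset.mem_compl.2 ha) (Finset.mem_compl.2 hb)
        (Finset.mem_compl.2 hb) (Finset.mem_compl.2 ha) hab (Ne.symm hab)
      refine ⟨g, ⟨hg, ?_⟩, e⟩
      have := hcompl g _ hgd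
      rwa [compl_compl] at this
  · obtain ⟨σ, ⟨hσ, hσo⟩, hx⟩ := hoct (support₂ u)ᶜ
      ⟨compl_mem_supports hsu, by rw [Finset.card_compl, card_golayPt, h]⟩
    have := hcompl σ _ hσo
    rw [compl_compl] at this
    exact ⟨σ, ⟨hσ, this⟩, hx⟩
  · exact hall (Or.inr (Finset.eq_univ_of_card _ (h.trans card_golayPt.symm)))

end Cfsg.Agent.OddChar
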