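import Cfsg.Agent.OddChar.GridSearch
import Mathlib.Algebra.BigOperators.Ring.Finset
import Mathlib.Algebra.Order.BigOperators.Ring.Finset
import Mathlib.Data.Fintype.BigOperators
import Mathlib.Algebra.Ring.Parity
import Mathlib.Data.Finset.Card
import Mathlib.Tactic.Linarith
import Mathlib.Tactic.IntervalCases
import Mathlib.Tactic.FinCases
import Mathlib.Tactic.LinearCombination
import Mathlib.Tactic.Abel
import Mathlib.Tactic.Ring
import Mathlib.Logic.Equiv.Fin.Basic

/-!
Decomposition of a grid of norm-three integer vectors `b i j` with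
`b i j · b k l = δᵢₖ + δⱼₗ + δᵢₖδⱼₗ` into orthonormal `X i + Y j + Z i j`.
-/

set_option autoImplicit false
set_option linter.unusedSectionVars false

open scoped Classical

namespace Cfsg.Agent.OddChar

variable {P : Type*} [Fintype P]

/-- The standard inner product of integer vectors. -/
def vdot (u v : P → ℤ) : ℤ := ∑ p, u p * v p

theorem vdot_comm (u v : P → ℤ) : vdot u v = vdot v u :=
  Finset.sum_congr rfl fun _ _ => mul_comm _ _

theorem vdot_sub_left (u u' v : P → ℤ) : vdot (u - u') v = vdot u v - vdot u' v := by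
  simp [vdot, sub_mul, Finset.sum_sub_distrib]

theorem vdot_sub_right (u v v' : P → ℤ) : vdot u (v - v') = vdot u v - vdot u v' := by
  simp [vdot, mul_sub, Finset.sum_sub_distrib]

theorem vdot_single_left (p : P) (s : ℤ) (v : P → ℤ) : vdot (Pi.single p s) v = s * v p := by
  unfold vdot
  rw [Finset.sum_eq_single p (fun q _ hq => by simp [hq]) (by simp)]
  simp

theorem vdot_single_right (p : P) (s : ℤ) (v : P → ℤ) : vdot v (Pi.single p s) = v p * s := by
  rw [vdot_comm, vdot_single_left, mul_comm]

/-- The support of a vector. -/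
noncomputable def vsupp (u : P → ℤ) : Finset P := Finset.univ.filter fun p => u p ≠ 0

theorem mem_vsupp {u : P → ℤ} {p : P} : p ∈ vsupp u ↔ u p ≠ 0 := by simp [vsupp]

theorem entry_small {u : P → ℤ} (h : vdot u u ≤ 3) (p : P) : u p = -1 ∨ u p = 0 ∨ u p = 1 := by
  have h1 : u p * u p ≤ vdot u u :=
    Finset.single_le_sum (f := fun q => u q * u q) (fun q _ => mul_self_nonneg _) (Finset.mem_univ p)
  have h2 : -1 ≤ u p := by nlinarith
  have h3 : u p ≤ 1 := by nlinarith
  omega

theorem card_vsupp {u : P → ℤ} (h : vdot u u ≤ 3) : ((vsupp u).card : ℤ) = vdot u u := by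
  unfold vdot
  rw [show ((vsupp u).card : ℤ) = ∑ p, if u p ≠ 0 then (1 : ℤ) else 0 by
    rw [Finset.sum_boole]; rfl]
  refine Finset.sum_congr rfl fun p _ => ?_
  rcases entry_small h p with e | e | e <;> simp [e]

theorem entry_sq {u : P → ℤ} (h : vdot u u ≤ 3) {p : P} (hp : u p ≠ 0) : u p * u p = 1 := by
  rcases entry_small h p with e | e | e <;> simp_all

/-- Two vectors meet in exactly one coordinate, with the same sign. -/
def PairOne (u v : P → ℤ) : Prop := ∃ p, u p = v p ∧ u p ≠ 0 ∧ ∀ q, q ≠ p → u q * v q = 0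

theorem PairOne.symm {u v : P → ℤ} (h : PairOne u v) : PairOne v u := by
  obtain ⟨p, h1, h2, h3⟩ := h
  exact ⟨p, h1.symm, h1 ▸ h2, fun q hq => by rw [mul_comm]; exact h3 q hq⟩

theorem PairOne.unique {u v : P → ℤ} (h : PairOne u v) {q r : P} (h1 : u q ≠ 0) (h2 : v q ≠ 0)
    (h3 : u r ≠ 0) (h4 : v r ≠ 0) : q = r := by
  obtain ⟨p, -, -, hp⟩ := h
  have hq : q = p := by
    by_contra hne; exact mul_ne_zero h1 h2 (hp q hne)
  have hr : r = p := by
    by_contra hne; exact mul_ne_zero h3 h4 (hp r hne)
  rw [hq, hr]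

theorem PairOne.agree {u v : P → ℤ} (h : PairOne u v) {q : P} (h1 : u q ≠ 0) (h2 : v q ≠ 0) :
    u q = v q := by
  obtain ⟨p, hp1, -, hp⟩ := h
  have hq : q = p := by
    by_contra hne; exact mul_ne_zero h1 h2 (hp q hne)
  rw [hq]; exact hp1

theorem pairOne_of_vdot {u v : P → ℤ} (hu : vdot u u ≤ 3) (hv : vdot v v ≤ 3) (huv : vdot u v = 1)
    (hdeg : vdot u u = 3 → vdot v v = 3 →
      ∃ d : P → ℤ, (∀ p, d p ≠ 0) ∧ vdot u d = vdot v d) : PairOne u v := by
  set A := Finset.univ.filter (fun p => u p * v p = 1) with hA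
  set B := Finset.univ.filter (fun p => u p * v p = -1) with hB
  have hval : ∀ p, u p * v p = -1 ∨ u p * v p = 0 ∨ u p * v p = 1 := fun p => by
    rcases entry_small hu p with e | e | e <;> rcases entry_small hv p with f | f | f <;> simp [e, f]
  have hsum : (A.card : ℤ) - B.card = 1 := by
    rw [← huv, vdot, hA, hB, ← Finset.sum_boole, ← Finset.sum_boole, ← Finset.sum_sub_distrib]
    refine Finset.sum_congr rfl fun p _ => ?_
    rcases hval p with e | e | e <;> simp [e]
  have hdisj : Disjoint A B := Finset.disjoint_filter.mpr fun p _ h1 h2 => by omega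
  have hsubu : A ∪ B ⊆ vsupp u := fun p hp => by
    rw [mem_vsupp]; intro h0
    simp [hA, hB, h0] at hp
  have hsubv : A ∪ B ⊆ vsupp v := fun p hp => by
    rw [mem_vsupp]; intro h0
    simp [hA, hB, h0] at hp
  have hcu := Finset.card_le_card hsubu
  have hcv := Finset.card_le_card hsubv
  rw [Finset.card_union_of_disjoint hdisj] at hcu hcv
  have e1 := card_vsupp hu
  have e2 := card_vsupp hv
  rcases Nat.eq_zero_or_pos B.card with hB0 | hBpos
  · have hA1 : A.card = 1 := by omega
    obtain ⟨p, hp⟩ := Finset.card_eq_one.mp hA1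
    have hp1 : u p * v p = 1 := by
      have : p ∈ A := by rw [hp]; simp
      simpa [hA] using this
    refine ⟨p, ?_, fun h0 => by simp [h0] at hp1, fun q hq => ?_⟩
    · rcases Int.eq_one_or_neg_one_of_mul_eq_one' hp1 with ⟨a, b⟩ | ⟨a, b⟩ <;> rw [a, b]
    · rcases hval q with e | e | e
      · have : q ∈ B := by simp [hB, e]
        rw [Finset.card_eq_zero] at hB0
        simp [hB0] at this
      · exact e
      · have : q ∈ A := by simp [hA, e]
        rw [hp] at this
        exact absurd (Finset.mem_singleton.mp this) hq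
  · exfalso
    have hB1 : B.card = 1 := by omega
    obtain ⟨d, hd, hdd⟩ := hdeg (by omega) (by omega)
    have huB : A ∪ B = vsupp u := Finset.eq_of_subset_of_card_le hsubu (by
      rw [Finset.card_union_of_disjoint hdisj]; omega)
    have hvB : A ∪ B = vsupp v := Finset.eq_of_subset_of_card_le hsubv (by
      rw [Finset.card_union_of_disjoint hdisj]; omega)
    obtain ⟨r, hr⟩ := Finset.card_eq_one.mp hB1
    have hr1 : u r * v r = -1 := by
      have : r ∈ B := by rw [hr]; simp
      simpa [hB] using this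
    have h0 : vdot (u - v) d = (u r - v r) * d r := by
      unfold vdot
      rw [Finset.sum_eq_single r ?_ (by simp)]
      · simp
      intro q _ hq
      by_cases hqu : q ∈ A ∪ B
      · have hqA : q ∈ A := by
          rcases Finset.mem_union.mp hqu with h | h
          · exact h
          · rw [hr] at h; exact absurd (Finset.mem_singleton.mp h) hq
        have h1 : u q * v q = 1 := by simpa [hA] using hqA
        rcases Int.eq_one_or_neg_one_of_mul_eq_one' h1 with ⟨a, b⟩ | ⟨a, b⟩ <;> simp [a, b]
      · have h1 : u q = 0 := by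
          by_contra h; exact hqu (huB ▸ mem_vsupp.mpr h)
        have h2 : v q = 0 := by
          by_contra h; exact hqu (hvB ▸ mem_vsupp.mpr h)
        simp [h1, h2]
    rw [vdot_sub_left, hdd, sub_self] at h0
    have hne : u r - v r ≠ 0 := by
      intro h
      rw [sub_eq_zero.mp h] at hr1
      nlinarith [mul_self_nonneg (v r)]
    exact mul_ne_zero hne (hd r) h0.symm

/-- Four lines of a row with no common point admit no second row. -/
theorem four_common {b u : Fin 4 → P → ℤ} (hb : ∀ i, vdot (b i) (b i) = 3)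
    (hu : ∀ i, vdot (u i) (u i) = 3) (hbb : ∀ i j, i ≠ j → PairOne (b i) (b j))
    (huu : ∀ i j, i ≠ j → PairOne (u i) (u j))
    (hbu : ∀ i j, vdot (b i) (u j) = if i = j then 1 else 0) : ∃ p, ∀ i, b i p ≠ 0 := by
  by_contra hno
  push Not at hno
  by_cases htri : ∃ p i₃, b i₃ p = 0 ∧ ∀ i, i ≠ i₃ → b i p ≠ 0
  · obtain ⟨x, i₃, hx3, hx⟩ := htri
    -- relabel
    let e : Equiv.Perm (Fin 4) := Equiv.swap 3 i₃
    let L := b ∘ e
    let U := u ∘ e
    have hL : ∀ i, vdot (L i) (L i) = 3 := fun i => hb _
    have hU : ∀ i, vdot (U i) (U i) = 3 := fun i => hu _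
    have hLL : ∀ i j, i ≠ j → PairOne (L i) (L j) := fun i j h => hbb _ _ (fun he => h (e.injective he))
    have hUU : ∀ i j, i ≠ j → PairOne (U i) (U j) := fun i j h => huu _ _ (fun he => h (e.injective he))
    have hLU : ∀ i j, vdot (L i) (U j) = if i = j then 1 else 0 := fun i j => by
      simp only [L, U, Function.comp_apply, hbu, e.injective.eq_iff]
    have hLx3 : L 3 x = 0 := by simp [L, e, hx3]
    have hLx : ∀ i : Fin 4, i ≠ 3 → L i x ≠ 0 := fun i hi => hx _ fun he => hi (by
      have := congrArg e he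
      simpa [e] using this)
    let c : Fin 3 → Fin 4 := Fin.castSucc
    have hc3 : ∀ i, c i ≠ 3 := fun i => by
      intro h; have := congrArg Fin.val h; simp [c] at this; omega
    have hcc : ∀ {i j}, i ≠ j → c i ≠ c j := fun h he => h (Fin.castSucc_injective 3 he)
    choose p hp1 hp2 _hp3 using fun i : Fin 3 => hLL (c i) 3 (hc3 i)
    have hp3 : ∀ i, L 3 (p i) ≠ 0 := fun i => by rw [← hp1]; exact hp2 i
    have hpx : ∀ i, p i ≠ x := fun i h => hp3 i (by rw [h, hLx3])
    have hq : ∀ i : Fin 3, ∃ q, L (c i) q ≠ 0 ∧ q ≠ x ∧ q ≠ p i ∧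
        vsupp (L (c i)) = {x, p i, q} := by
      intro i
      have hcard : (vsupp (L (c i))).card = 3 := by
        have := card_vsupp (hL (c i)).le
        rw [hL] at this; exact_mod_cast this
      have hsub : ({x, p i} : Finset P) ⊆ vsupp (L (c i)) := by
        intro y hy
        simp only [Finset.mem_insert, Finset.mem_singleton] at hy
        rcases hy with rfl | rfl
        · exact mem_vsupp.mpr (hLx _ (hc3 i))
        · exact mem_vsupp.mpr (hp2 i)
      have h2 : ({x, p i} : Finset P).card = 2 := Finset.card_pair (hpx i).symm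
      obtain ⟨q, hq1, hq2⟩ := Finset.exists_mem_notMem_of_card_lt_card
        (s := ({x, p i} : Finset P)) (t := vsupp (L (c i))) (by omega)
      simp only [Finset.mem_insert, Finset.mem_singleton, not_or] at hq2
      refine ⟨q, mem_vsupp.mp hq1, hq2.1, hq2.2, ?_⟩
      symm
      refine Finset.eq_of_subset_of_card_le ?_ ?_
      · intro y hy
        simp only [Finset.mem_insert, Finset.mem_singleton] at hy
        rcases hy with h | h | h
        · exact hsub (by simp [h])
        · exact hsub (by simp [h])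
        · exact h ▸ hq1
      · rw [hcard, Finset.card_insert_of_notMem (by simp [(hpx i).symm, Ne.symm hq2.1]),
          Finset.card_pair (Ne.symm hq2.2)]
    choose q hq0 hqx hqp hsupp using hq
    have hpinj : Function.Injective p := by
      intro i j h
      by_contra hne
      exact hpx i ((hLL _ _ (hcc hne)).unique (hp2 i) (h ▸ hp2 j) (hLx _ (hc3 i)) (hLx _ (hc3 j)))
    have hpj : ∀ i j, i ≠ j → L (c j) (p i) = 0 := by
      intro i j hne
      by_contra h
      exact hpx i ((hLL _ _ (hcc hne)).unique (hp2 i) h (hLx _ (hc3 i)) (hLx _ (hc3 j)))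
    have hqj : ∀ i j, i ≠ j → L (c j) (q i) = 0 := by
      intro i j hne
      by_contra h
      exact hqx i ((hLL _ _ (hcc hne)).unique (hq0 i) h (hLx _ (hc3 i)) (hLx _ (hc3 j)))
    have hq3 : ∀ i, L 3 (q i) = 0 := by
      intro i
      by_contra h
      exact hqp i ((hLL _ _ (hc3 i)).unique (hq0 i) h (hp2 i) (hp3 i))
    have hsupp3 : vsupp (L 3) = {p 0, p 1, p 2} := by
      symm
      refine Finset.eq_of_subset_of_card_le ?_ ?_
      · intro y hy
        simp only [Finset.mem_insert, Finset.mem_singleton] at hy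
        rcases hy with h | h | h <;> rw [h] <;> exact mem_vsupp.mpr (hp3 _)
      · have h01 : p 0 ≠ p 1 := fun h => absurd (hpinj h) (by decide)
        have h02 : p 0 ≠ p 2 := fun h => absurd (hpinj h) (by decide)
        have h12 : p 1 ≠ p 2 := fun h => absurd (hpinj h) (by decide)
        rw [Finset.card_insert_of_notMem (by simp [h01, h02]), Finset.card_pair h12]
        have := card_vsupp (hL 3).le
        rw [hL] at this; omega
    let pt : Fin 7 → P := ![x, p 0, p 1, p 2, q 0, q 1, q 2]
    have hqp' : ∀ i j, q i ≠ p j := fun i j h => hp3 j (h ▸ hq3 i)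
    have hqq : ∀ i j, i ≠ j → q i ≠ q j := fun i j hne h => hq0 j (h ▸ hqj i j hne)
    have hpp : ∀ i j, i ≠ j → p i ≠ p j := fun i j hne h => hne (hpinj h)
    have hpt : Function.Injective pt := by
      intro i j h
      fin_cases i <;> fin_cases j <;> first | rfl | (exfalso; simp [pt] at h; first
        | exact hpx _ h | exact hpx _ h.symm | exact hqx _ h | exact hqx _ h.symm
        | exact hqp' _ _ h | exact hqp' _ _ h.symm
        | exact hqq _ _ (by decide) h | exact hpp _ _ (by decide) h)
    let s : Fin 7 → ℤ := ![L 0 x, L 0 (p 0), L 1 (p 1), L 2 (p 2), L 0 (q 0), L 1 (q 1), L 2 (q 2)]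
    have hs : ∀ k, s k * s k = 1 := by
      intro k
      fin_cases k
      · exact entry_sq (hL 0).le (hLx 0 (by decide))
      · exact entry_sq (hL 0).le (hp2 0)
      · exact entry_sq (hL 1).le (hp2 1)
      · exact entry_sq (hL 2).le (hp2 2)
      · exact entry_sq (hL 0).le (hq0 0)
      · exact entry_sq (hL 1).le (hq0 1)
      · exact entry_sq (hL 2).le (hq0 2)
    let cl : Fin 4 → List Int := fun j => List.ofFn fun k => s k * U j (pt k)
    have hget : ∀ (j : Fin 4) (k : Fin 7), (cl j).getD (k : ℕ) 0 = s k * U j (pt k) := by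
      intro j k
      simp only [cl]
      fin_cases k <;> rfl
    have hne : ∀ j k, (cl j).getD (k : Fin 7).1 0 ≠ 0 ↔ U j (pt k) ≠ 0 := by
      intro j k
      rw [hget]
      exact ⟨fun h h0 => h (by rw [h0, mul_zero]),
        fun h => mul_ne_zero (fun h0 => by simpa [h0] using hs k) h⟩
    have hcount : ∀ f : ℕ → Bool, (List.range 7).countP f =
        (Finset.univ.filter fun k : Fin 7 => f (k : ℕ) = true).card := by
      intro f
      have h1 : ((Finset.range 7).filter fun k => f k = true).card = (List.range 7).countP f := by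
        simp [Finset.card, Finset.filter, Finset.range, Multiset.range, List.countP_eq_length_filter]
      rw [← h1, ← Finset.card_image_of_injective _ Fin.val_injective]
      congr 1
      ext a
      simp only [Finset.mem_filter, Finset.mem_range, Finset.mem_image, Finset.mem_univ, true_and]
      exact ⟨fun ⟨h, h'⟩ => ⟨⟨a, h⟩, h', rfl⟩, fun ⟨k, h, e⟩ => e ▸ ⟨k.2, h⟩⟩
    have hgc : ∀ j, gridCount (cl j) = (Finset.univ.filter fun k => U j (pt k) ≠ 0).card := by
      intro j
      rw [gridCount, hcount]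
      congr 1; ext k; simp [hget, ← hne]
    have hcard3 : ∀ j, (vsupp (U j)).card = 3 := fun j => by
      have := card_vsupp (hU j).le
      rw [hU] at this; exact_mod_cast this
    have himg : ∀ j, (Finset.univ.filter fun k => U j (pt k) ≠ 0).image pt ⊆ vsupp (U j) := by
      intro j y hy
      obtain ⟨k, hk, rfl⟩ := Finset.mem_image.mp hy
      exact mem_vsupp.mpr (Finset.mem_filter.mp hk).2
    have hle : ∀ j, gridCount (cl j) ≤ 3 := fun j => by
      rw [hgc, ← Finset.card_image_of_injective _ hpt, ← hcard3 j]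
      exact Finset.card_le_card (himg j)
    have hdotL : ∀ (i : Fin 3) (j : Fin 4),
        vdot (L (c i)) (U j) = L (c i) x * U j x + L (c i) (p i) * U j (p i) + L (c i) (q i) * U j (q i) := by
      intro i j
      unfold vdot
      rw [← Finset.sum_subset (Finset.subset_univ (vsupp (L (c i)))) fun y _ hy => by
        rw [mem_vsupp, not_not] at hy; rw [hy, zero_mul]]
      rw [hsupp i, Finset.sum_insert (by simp [(hpx i).symm, (hqx i).symm]),
        Finset.sum_pair (hqp i).symm, add_assoc]
    have hdot3 : ∀ j : Fin 4, vdot (L 3) (U j) =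
        L 0 (p 0) * U j (p 0) + L 1 (p 1) * U j (p 1) + L 2 (p 2) * U j (p 2) := by
      intro j
      have h01 : p 0 ≠ p 1 := hpp _ _ (by decide)
      have h02 : p 0 ≠ p 2 := hpp _ _ (by decide)
      have h12 : p 1 ≠ p 2 := hpp _ _ (by decide)
      unfold vdot
      rw [← Finset.sum_subset (Finset.subset_univ (vsupp (L 3))) fun y _ hy => by
        rw [mem_vsupp, not_not] at hy; rw [hy, zero_mul]]
      rw [hsupp3, Finset.sum_insert (by simp [h01, h02]), Finset.sum_pair h12, add_assoc]
      congr 1
      · rw [← hp1 0]; rfl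
      · congr 1
        · rw [← hp1 1]; rfl
        · rw [← hp1 2]; rfl
    have hx01 : L 1 x = L 0 x := (hLL 1 0 (by decide)).agree (hLx 1 (by decide)) (hLx 0 (by decide))
    have hx02 : L 2 x = L 0 x := (hLL 2 0 (by decide)).agree (hLx 2 (by decide)) (hLx 0 (by decide))
    have hcand : ∀ j : Fin 4, cl j ∈ gridCand (j : ℕ) := by
      intro j
      rw [gridCand, List.mem_filter]
      refine ⟨?_, ?_⟩
      · have h := mem_gridVecs (cl j) ?_
        · simpa [cl] using h
        intro y hy
        simp only [cl, List.mem_ofFn] at hy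
        obtain ⟨k, rfl⟩ := hy
        rcases entry_small (hU j).le (pt k) with e | e | e <;>
          rcases Int.eq_one_or_neg_one_of_mul_eq_one (hs k) with f | f <;> simp [e, f]
      · have g := fun k => hget j k
        have e0 := hdotL 0 j
        have e1 := hdotL 1 j
        have e2 := hdotL 2 j
        have e3 := hdot3 j
        rw [show c 0 = 0 from rfl, hLU] at e0
        rw [show c 1 = 1 from rfl, hLU, hx01] at e1
        rw [show c 2 = 2 from rfl, hLU, hx02] at e2
        rw [hLU] at e3
        have g0 := g 0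
        have g1 := g 1
        have g2 := g 2
        have g3 := g 3
        have g4 := g 4
        have g5 := g 5
        have g6 := g 6
        simp [s, pt] at g0 g1 g2 g3 g4 g5 g6
        simp only [gridOk, Bool.and_eq_true, decide_eq_true_eq, beq_iff_eq, List.getD_eq_getElem?_getD,
          g0, g1, g2, g3, g4, g5, g6]
        refine ⟨⟨⟨⟨hle j, ?_⟩, ?_⟩, ?_⟩, ?_⟩
        · rw [← e0]; fin_cases j <;> simp
        · rw [← e1]; fin_cases j <;> simp
        · rw [← e2]; fin_cases j <;> simp
        · rw [← e3]; fin_cases j <;> simp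
    have hcompat : ∀ j k, j ≠ k → gridCompat (cl j) (cl k) = true := by
      intro j k hjk
      obtain ⟨r, hr1, hr2, hr3⟩ := hUU j k hjk
      have hprod : ∀ m : Fin 7,
          (cl j).getD m 0 * (cl k).getD m 0 = U j (pt m) * U k (pt m) := by
        intro m
        rw [hget, hget]
        linear_combination (U j (pt m) * U k (pt m)) * hs m
      simp only [gridCompat, Bool.and_eq_true, List.all_eq_true, decide_eq_true_eq, List.mem_range,
        Bool.or_eq_true]
      have hnz : ∀ m : Fin 7, U j (pt m) * U k (pt m) ≠ 0 → pt m = r := fun m h => by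
        by_contra hne; exact h (hr3 _ hne)
      refine ⟨⟨fun m hm => ?_, ?_⟩, ?_⟩
      · rw [hprod ⟨m, hm⟩]
        by_cases he : pt ⟨m, hm⟩ = r
        · rw [he, hr1]; exact mul_self_nonneg _
        · rw [hr3 _ he]
      · rw [hcount]
        refine Finset.card_le_one.mpr fun a ha b hb => ?_
        simp only [Finset.mem_filter, bne_iff_ne, hprod, Finset.mem_univ, true_and] at ha hb
        exact hpt ((hnz a ha).trans (hnz b hb).symm)
      · by_cases hm : ∃ m, pt m = r
        · left
          obtain ⟨m, hm⟩ := hm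
          rw [hcount, Finset.card_eq_one]
          refine ⟨m, Finset.ext fun a => ?_⟩
          simp only [Finset.mem_filter, bne_iff_ne, hprod, Finset.mem_univ, true_and,
            Finset.mem_singleton]
          refine ⟨fun ha => hpt ((hnz a ha).trans hm.symm), fun ha => ?_⟩
          rw [ha, hm, hr1]
          exact mul_ne_zero (hr1 ▸ hr2) (hr1 ▸ hr2)
        · right
          push Not at hm
          have hlt : ∀ i, U i r ≠ 0 → gridCount (cl i) < 3 := by
            intro i hi
            rw [hgc, ← Finset.card_image_of_injective _ hpt, ← hcard3 i]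
            refine Finset.card_lt_card ⟨himg i, fun hsub => ?_⟩
            obtain ⟨m, -, hm'⟩ := Finset.mem_image.mp (hsub (mem_vsupp.mpr hi))
            exact hm m hm'
          exact ⟨hlt j hr2, hlt k (hr1 ▸ hr2)⟩
    exact grid_no_second_row _ _ _ _ (hcand 3) (hcand 0) (hcand 1) (hcand 2)
      (hcompat 3 0 (by decide)) (hcompat 3 1 (by decide)) (hcompat 0 1 (by decide))
      (hcompat 3 2 (by decide)) (hcompat 0 2 (by decide)) (hcompat 1 2 (by decide))
  -- no three concurrent: parity
  push Not at htri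
  have hpar : ∀ p, Even (∑ i, b i p) := by
    intro p
    by_cases hp : ∀ i, b i p = 0
    · simp [hp]
    push Not at hp
    obtain ⟨i, hi⟩ := hp
    choose c hc1 hc2 _hc3 using fun j : {j : Fin 4 // j ≠ i} => hbb i j.1 j.2.symm
    have hc4 : ∀ j, b j.1 (c j) ≠ 0 := fun j => (hc1 j) ▸ hc2 j
    have hthree : ∀ (y : P) (j k : Fin 4), j ≠ i → k ≠ i → j ≠ k → b i y ≠ 0 → b j y ≠ 0 →
        b k y ≠ 0 → False := by
      intro y j k hji hki hjk h1 h2 h3
      obtain ⟨l, hl⟩ := hno y
      obtain ⟨m, hm1, hm2⟩ := htri y l hl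
      have d1 : i ≠ l := fun h => h1 (h ▸ hl)
      have d2 : j ≠ l := fun h => h2 (h ▸ hl)
      have d3 : k ≠ l := fun h => h3 (h ▸ hl)
      have d4 : i ≠ m := fun h => h1 (h ▸ hm2)
      have d5 : j ≠ m := fun h => h2 (h ▸ hm2)
      have d6 : k ≠ m := fun h => h3 (h ▸ hm2)
      omega
    have hcinj : Function.Injective c := by
      intro j k h
      by_contra hne
      exact hthree (c j) j.1 k.1 j.2 k.2 (fun he => hne (Subtype.ext he)) (hc2 j) (hc4 j) (h ▸ hc4 k)
    have himg : (Finset.univ.image c) = vsupp (b i) := by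
      refine Finset.eq_of_subset_of_card_le ?_ ?_
      · intro y hy
        obtain ⟨j, -, rfl⟩ := Finset.mem_image.mp hy
        exact mem_vsupp.mpr (hc2 j)
      · rw [Finset.card_image_of_injective _ hcinj, Finset.card_univ, Fintype.card_subtype_compl]
        have := card_vsupp (hb i).le
        rw [hb] at this
        simp; omega
    obtain ⟨j, -, hj⟩ := Finset.mem_image.mp (himg.ge (mem_vsupp.mpr hi))
    refine ⟨b i p, ?_⟩
    rw [← Finset.add_sum_erase _ _ (Finset.mem_univ i),
      Finset.sum_eq_single_of_mem j.1 (Finset.mem_erase.mpr ⟨j.2, Finset.mem_univ _⟩) ?_]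
    · rw [← hj, ← hc1 j]
    · intro k hk hkj
      by_contra h
      exact hthree p j.1 k j.2 (Finset.mem_erase.mp hk).1 hkj.symm hi (hj ▸ hc4 j) h
  have hodd : ∑ p, (∑ i, b i p) * u 0 p = 1 := by
    simp only [Finset.sum_mul]
    rw [Finset.sum_comm]
    show ∑ i, vdot (b i) (u 0) = 1
    simp [hbu]
  have heven : Even (∑ p, (∑ i, b i p) * u 0 p) :=
    Finset.sum_induction _ Even (fun _ _ ha hb => ha.add hb) Even.zero fun p _ => (hpar p).mul_right _
  rw [hodd] at heven
  exact absurd heven (by decide)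

/-- The decomposition of the grid. -/
theorem grid_decompose {I J : Type*} [Fintype I] [Fintype J] (hI : 2 ≤ Fintype.card I)
    (hI3 : Fintype.card I ≠ 3) (hJ : 4 ≤ Fintype.card J) (b : I → J → P → ℤ) (d : P → ℤ)
    (hd : ∀ p, d p ≠ 0) (c₀ : ℤ) (hdeg : ∀ i j, vdot (b i j) d = c₀)
    (hgram : ∀ i j k l, vdot (b i j) (b k l) = (if i = k then (1 : ℤ) else 0) +
      (if j = l then 1 else 0) + if i = k ∧ j = l then 1 else 0) :
    ∃ (X : I → P → ℤ) (Y : J → P → ℤ) (Z : I → J → P → ℤ),
      (∀ i j, b i j = X i + Y j + Z i j) ∧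
      (∀ i k, vdot (X i) (X k) = if i = k then 1 else 0) ∧
      (∀ j l, vdot (Y j) (Y l) = if j = l then 1 else 0) ∧
      (∀ i j k l, vdot (Z i j) (Z k l) = if i = k ∧ j = l then 1 else 0) ∧
      (∀ i j, vdot (X i) (Y j) = 0) ∧ (∀ i k l, vdot (X i) (Z k l) = 0) ∧
      (∀ j k l, vdot (Y j) (Z k l) = 0) ∧
      ∀ p, (∀ i j, b i j p = 0) →
        (∀ i, X i p = 0) ∧ (∀ j, Y j p = 0) ∧ ∀ i j, Z i j p = 0 := by
  have hb3 : ∀ i j, vdot (b i j) (b i j) = 3 := fun i j => by rw [hgram]; simp
  have hrow : ∀ i j l, j ≠ l → PairOne (b i j) (b i l) := fun i j l h =>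
    pairOne_of_vdot (hb3 i j).le (hb3 i l).le (by rw [hgram]; simp [h])
      fun _ _ => ⟨d, hd, by rw [hdeg, hdeg]⟩
  obtain ⟨i₀, i₁, hi01⟩ := Fintype.one_lt_card_iff.mp (by omega : 1 < Fintype.card I)
  obtain ⟨j₀, j₁, hj01⟩ := Fintype.one_lt_card_iff.mp (by omega : 1 < Fintype.card J)
  have hX : ∀ i, ∃ x, ∀ j, b i j x ≠ 0 ∧ b i j x = b i j₀ x := by
    intro i
    obtain ⟨k, hk⟩ : ∃ k, k ≠ i := by
      by_cases h : i₀ = i
      · exact ⟨i₁, fun h' => hi01 (h.trans h'.symm)⟩
      · exact ⟨i₀, h⟩
    obtain ⟨x, hx1, hx2, -⟩ := hrow i j₀ j₁ hj01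
    have hkey : ∀ l, b i l x ≠ 0 := by
      intro l
      by_cases hl0 : l = j₀
      · rw [hl0]; exact hx2
      by_cases hl1 : l = j₁
      · rw [hl1]; exact hx1 ▸ hx2
      obtain ⟨m, hm⟩ : ∃ m, m ∉ ({j₀, j₁, l} : Finset J) := by
        by_contra h
        push Not at h
        have h1 : Fintype.card J ≤ ({j₀, j₁, l} : Finset J).card :=
          Finset.card_le_card fun y _ => h y
        have h2 : ({j₀, j₁, l} : Finset J).card ≤ 3 := Finset.card_le_three
        omega
      simp only [Finset.mem_insert, Finset.mem_singleton, not_or] at hm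
      let e : Fin 4 → J := ![j₀, j₁, l, m]
      have he : Function.Injective e := by
        intro a a' h
        fin_cases a <;> fin_cases a' <;> simp_all [e]
      obtain ⟨y, hy⟩ := four_common (b := fun a => b i (e a)) (u := fun a => b k (e a))
        (fun a => hb3 _ _) (fun a => hb3 _ _) (fun a a' h => hrow i _ _ fun hh => h (he hh))
        (fun a a' h => hrow k _ _ fun hh => h (he hh))
        (fun a a' => by rw [hgram]; simp [hk.symm, he.eq_iff])
      have hyx : y = x := (hrow i j₀ j₁ hj01).unique (hy 0) (hy 1) hx2 (hx1 ▸ hx2)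
      exact hyx ▸ hy 2
    refine ⟨x, fun j => ⟨hkey j, ?_⟩⟩
    by_cases h : j = j₀
    · rw [h]
    · exact (hrow i j j₀ h).agree (hkey j) hx2
  choose xp hxp using hX
  set s : I → ℤ := fun i => b i j₀ (xp i) with hsdef
  have hss : ∀ i, s i * s i = 1 := fun i => entry_sq (hb3 i j₀).le (hxp i j₀).1
  have habs : ∀ i k j, k ≠ i → b k j (xp i) = 0 := by
    intro i k j hk
    by_contra hne
    have hex : ∀ l : {l // l ≠ j}, ∃ q, q ≠ xp i ∧ b k j q ≠ 0 ∧ b i l.1 q ≠ 0 := by
      intro l
      by_contra hcon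
      push Not at hcon
      have h0 : vdot (b k j) (b i l.1) = 0 := by rw [hgram]; simp [hk, l.2.symm]
      unfold vdot at h0
      rw [Finset.sum_eq_single (xp i) ?_ (by simp)] at h0
      · exact mul_ne_zero hne (hxp i l.1).1 h0
      · intro q _ hq
        by_cases h : b k j q = 0
        · simp [h]
        · simp [hcon q hq h]
    choose q hq1 hq2 hq3 using hex
    have hinj : Function.Injective q := by
      intro l l' h
      by_contra hne'
      exact hq1 l ((hrow i l.1 l'.1 fun he => hne' (Subtype.ext he)).unique (hq3 l) (h ▸ hq3 l')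
        (hxp i l.1).1 (hxp i l'.1).1)
    have h1 := Finset.card_le_card (s := Finset.univ.image q)
      (t := (vsupp (b k j)).erase (xp i)) (by
        intro y hy
        obtain ⟨l, -, rfl⟩ := Finset.mem_image.mp hy
        exact Finset.mem_erase.mpr ⟨hq1 l, mem_vsupp.mpr (hq2 l)⟩)
    rw [Finset.card_image_of_injective _ hinj, Finset.card_univ, Fintype.card_subtype_compl,
      Finset.card_erase_of_mem (mem_vsupp.mpr hne)] at h1
    have h2 := card_vsupp (hb3 k j).le
    rw [hb3] at h2
    simp at h1
    omega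
  set X : I → P → ℤ := fun i => Pi.single (xp i) (s i) with hXdef
  have hXb : ∀ i k l, vdot (X i) (b k l) = if i = k then 1 else 0 := by
    intro i k l
    simp only [hXdef, vdot_single_left]
    split_ifs with h
    · subst h; rw [(hxp i l).2]; exact hss i
    · rw [habs i k l (Ne.symm h), mul_zero]
  have hxinj : Function.Injective xp := by
    intro i k h
    by_contra hne
    exact (hxp k j₀).1 (h ▸ habs i k j₀ (Ne.symm hne))
  have hXX : ∀ i k, vdot (X i) (X k) = if i = k then 1 else 0 := by
    intro i k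
    simp only [hXdef, vdot_single_left]
    split_ifs with h
    · subst h; simp [hss]
    · rw [Pi.single_eq_of_ne (fun he => h (hxinj he)), mul_zero]
  set v : I → J → P → ℤ := fun i j => b i j - X i with hvdef
  have hXv : ∀ i k l, vdot (X i) (v k l) = 0 := fun i k l => by
    simp only [hvdef, vdot_sub_right, hXb, hXX, sub_self]
  have hvv : ∀ i j k l, vdot (v i j) (v k l) =
      (if j = l then 1 else 0) + if i = k ∧ j = l then 1 else 0 := by
    intro i j k l
    simp only [hvdef, vdot_sub_left, vdot_sub_right, hgram, hXb, hXX,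
      vdot_comm (b i j) (X k)]
    by_cases h : i = k
    · subst h; simp; omega
    · simp [h, Ne.symm h]
  have hv2 : ∀ i j, vdot (v i j) (v i j) = 2 := fun i j => by rw [hvv]; simp
  have hcol : ∀ j i k, i ≠ k → PairOne (v i j) (v k j) := fun j i k h =>
    pairOne_of_vdot (by rw [hv2]; norm_num) (by rw [hv2]; norm_num) (by rw [hvv]; simp [h])
      fun h3 => by rw [hv2] at h3; norm_num at h3
  have hY : ∀ j, ∃ y, ∀ i, v i j y ≠ 0 ∧ v i j y = v i₀ j y := by
    intro j
    obtain ⟨y, hy1, hy2, -⟩ := hcol j i₀ i₁ hi01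
    have hy3 : v i₁ j y ≠ 0 := hy1 ▸ hy2
    have hkey : ∀ i, v i j y ≠ 0 := by
      intro k
      by_contra hk
      have hk0 : k ≠ i₀ := fun h => hy2 (h ▸ hk)
      have hk1 : k ≠ i₁ := fun h => hy3 (h ▸ hk)
      obtain ⟨q0, a1, a2, -⟩ := hcol j k i₀ hk0
      obtain ⟨q1, b1, b2, -⟩ := hcol j k i₁ hk1
      have a3 : v i₀ j q0 ≠ 0 := a1 ▸ a2
      have b3 : v i₁ j q1 ≠ 0 := b1 ▸ b2
      have e0 : q0 ≠ y := fun h => a2 (h ▸ hk)
      have e1 : q1 ≠ y := fun h => b2 (h ▸ hk)
      have e01 : q0 ≠ q1 := fun h => e0 ((hcol j i₀ i₁ hi01).unique a3 (h ▸ b3) hy2 hy3)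
      obtain ⟨m, hm⟩ : ∃ m, m ∉ ({i₀, i₁, k} : Finset I) := by
        by_contra h
        push Not at h
        have h1 : Fintype.card I ≤ ({i₀, i₁, k} : Finset I).card :=
          Finset.card_le_card fun z _ => h z
        have h2 : ({i₀, i₁, k} : Finset I).card ≤ 3 := Finset.card_le_three
        have h3 : 3 ≤ Fintype.card I := by
          refine le_of_eq_of_le ?_ (Finset.card_le_univ ({i₀, i₁, k} : Finset I))
          rw [Finset.card_insert_of_notMem (by simp [hi01, Ne.symm hk0]), Finset.card_pair (Ne.symm hk1)]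
        omega
      simp only [Finset.mem_insert, Finset.mem_singleton, not_or] at hm
      have hsupp : ∀ (i : I) (a a' z : P), a ≠ a' → v i j a ≠ 0 → v i j a' ≠ 0 → v i j z ≠ 0 →
          z = a ∨ z = a' := by
        intro i a a' z hne h1 h2 h3
        have hc := card_vsupp (u := v i j) (by rw [hv2]; norm_num)
        rw [hv2] at hc
        have hsub : ({a, a'} : Finset P) ⊆ vsupp (v i j) := by
          intro w hw
          simp only [Finset.mem_insert, Finset.mem_singleton] at hw
          rcases hw with rfl | rfl <;> exact mem_vsupp.mpr (by assumption)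
        have heq : ({a, a'} : Finset P) = vsupp (v i j) :=
          Finset.eq_of_subset_of_card_le hsub (by rw [Finset.card_pair hne]; omega)
        have := heq.symm ▸ mem_vsupp.mpr h3
        simpa using this
      obtain ⟨r, r1, r2, -⟩ := hcol j m k hm.2.2
      have r3 : v k j r ≠ 0 := r1 ▸ r2
      obtain ⟨t, t1, t2, -⟩ := hcol j m i₀ hm.1
      have t3 : v i₀ j t ≠ 0 := t1 ▸ t2
      obtain ⟨w, w1, w2, -⟩ := hcol j m i₁ hm.2.1
      have w3 : v i₁ j w ≠ 0 := w1 ▸ w2
      rcases hsupp k q0 q1 r e01 a2 b2 r3 with hr | hr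
      · rw [hr] at r2
        rcases hsupp i₁ y q1 w e1.symm hy3 b3 w3 with hw | hw
        · rw [hw] at w2
          exact e0 ((hcol j m i₀ hm.1).unique r2 a3 w2 hy2)
        · rw [hw] at w2
          exact e01 ((hcol j m k hm.2.2).unique r2 a2 w2 b2)
      · rw [hr] at r2
        rcases hsupp i₀ y q0 t e0.symm hy2 a3 t3 with ht | ht
        · rw [ht] at t2
          exact e1 ((hcol j m i₁ hm.2.1).unique r2 b3 t2 hy3)
        · rw [ht] at t2
          exact e01 ((hcol j m k hm.2.2).unique t2 a2 r2 b2)
    refine ⟨y, fun i => ⟨hkey i, ?_⟩⟩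
    by_cases h : i = i₀
    · rw [h]
    · exact (hcol j i i₀ h).agree (hkey i) hy2
  choose yp hyp using hY
  set t : J → ℤ := fun j => v i₀ j (yp j) with htdef
  have htt : ∀ j, t j * t j = 1 := fun j => entry_sq (u := v i₀ j) (by rw [hv2]; norm_num) (hyp j i₀).1
  have habs' : ∀ j l k, l ≠ j → v k l (yp j) = 0 := by
    intro j l k hl
    by_contra hne
    have hex : ∀ i : I, ∃ q, q ≠ yp j ∧ v k l q ≠ 0 ∧ v i j q ≠ 0 := by
      intro i
      by_contra hcon
      push Not at hcon
      have h0 : vdot (v k l) (v i j) = 0 := by rw [hvv]; simp [hl]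
      unfold vdot at h0
      rw [Finset.sum_eq_single (yp j) ?_ (by simp)] at h0
      · exact mul_ne_zero hne (hyp j i).1 h0
      · intro q _ hq
        by_cases h : v k l q = 0
        · simp [h]
        · simp [hcon q hq h]
    choose q hq1 hq2 hq3 using hex
    have hinj : Function.Injective q := by
      intro i i' h
      by_contra hne'
      exact hq1 i ((hcol j i i' hne').unique (hq3 i) (h ▸ hq3 i') (hyp j i).1 (hyp j i').1)
    have h1 := Finset.card_le_card (s := Finset.univ.image q)
      (t := (vsupp (v k l)).erase (yp j)) (by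
        intro y hy
        obtain ⟨i, -, rfl⟩ := Finset.mem_image.mp hy
        exact Finset.mem_erase.mpr ⟨hq1 i, mem_vsupp.mpr (hq2 i)⟩)
    rw [Finset.card_image_of_injective _ hinj, Finset.card_univ,
      Finset.card_erase_of_mem (mem_vsupp.mpr hne)] at h1
    have h2 := card_vsupp (u := v k l) (by rw [hv2]; norm_num)
    rw [hv2] at h2
    omega
  set Y : J → P → ℤ := fun j => Pi.single (yp j) (t j) with hYdef
  have hYv : ∀ j k l, vdot (Y j) (v k l) = if j = l then 1 else 0 := by
    intro j k l
    simp only [hYdef, vdot_single_left]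
    split_ifs with h
    · subst h; rw [(hyp j k).2]; exact htt j
    · rw [habs' j l k (Ne.symm h), mul_zero]
  have hyinj : Function.Injective yp := by
    intro j l h
    by_contra hne
    exact (hyp l i₀).1 (h ▸ habs' j l i₀ (Ne.symm hne))
  have hYY : ∀ j l, vdot (Y j) (Y l) = if j = l then 1 else 0 := by
    intro j l
    simp only [hYdef, vdot_single_left]
    split_ifs with h
    · subst h; simp [htt]
    · rw [Pi.single_eq_of_ne (fun he => h (hyinj he)), mul_zero]
  have hXY : ∀ i j, vdot (X i) (Y j) = 0 := by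
    intro i j
    simp only [hXdef, hYdef, vdot_single_left]
    by_cases h : xp i = yp j
    · exfalso
      have h0 := hXv i i₀ j
      simp only [hXdef, vdot_single_left, h] at h0
      exact mul_ne_zero (fun h1 => by simpa [h1] using hss i) (hyp j i₀).1 h0
    · rw [Pi.single_eq_of_ne h, mul_zero]
  refine ⟨X, Y, fun i j => v i j - Y j, fun i j => by simp only [hvdef]; abel, hXX, hYY, ?_, hXY,
    fun i k l => by rw [vdot_sub_right, hXv, hXY, sub_self],
    fun j k l => by rw [vdot_sub_right, hYv, hYY, sub_self], ?_⟩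
  · intro i j k l
    simp only [vdot_sub_left, vdot_sub_right, hvv, hYv, hYY, vdot_comm (v i j) (Y l)]
    by_cases h : j = l
    · subst h; simp
    · simp [h, Ne.symm h]
  · intro p hp
    have hx : ∀ i, X i p = 0 := fun i => by
      simp only [hXdef]
      refine Pi.single_eq_of_ne (fun h => ?_) _
      exact (hxp i j₀).1 (h ▸ hp i j₀)
    have hv0 : ∀ i j, v i j p = 0 := fun i j => by simp [hvdef, hp i j, hx i]
    have hy : ∀ j, Y j p = 0 := fun j => by
      simp only [hYdef]
      refine Pi.single_eq_of_ne (fun h => ?_) _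
      exact (hyp j i₀).1 (h ▸ hv0 i₀ j)
    exact ⟨hx, hy, fun i j => by simp [hv0 i j, hy j]⟩

end Cfsg.Agent.OddChar
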