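import Mathlib.Data.List.Basic

/-!
A finite search used in the decomposition of a grid of norm-three integer vectors: four lines
`{0,1,4}, {0,2,5}, {0,3,6}, {1,2,3}` on seven points admit no compatible second row.
-/

set_option autoImplicit false

namespace Cfsg.Agent.OddChar

/-- All vectors with entries in `{-1, 0, 1}` of a given length. -/
def gridVecs : ℕ → List (List Int)
  | 0 => [[]]
  | n + 1 => (gridVecs n).flatMap fun l => [(-1) :: l, 0 :: l, 1 :: l]

/-- Number of nonzero entries among the seven coordinates. -/
def gridCount (c : List Int) : ℕ :=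
  (List.range 7).countP fun k => c.getD k 0 != 0

/-- `c` is a possible trace of the vector in column `j` of a second row. -/
def gridOk (j : ℕ) (c : List Int) : Bool :=
  decide (gridCount c ≤ 3) &&
    (c.getD 0 0 + c.getD 1 0 + c.getD 4 0 == if j == 0 then 1 else 0) &&
    (c.getD 0 0 + c.getD 2 0 + c.getD 5 0 == if j == 1 then 1 else 0) &&
    (c.getD 0 0 + c.getD 3 0 + c.getD 6 0 == if j == 2 then 1 else 0) &&
    (c.getD 1 0 + c.getD 2 0 + c.getD 3 0 == if j == 3 then 1 else 0)

/-- Two traces from one row share at most one coordinate, with equal sign, and otherwise leave room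
for a common coordinate outside. -/
def gridCompat (c e : List Int) : Bool :=
  ((List.range 7).all fun k => decide (0 ≤ c.getD k 0 * e.getD k 0)) &&
    decide ((List.range 7).countP (fun k => c.getD k 0 * e.getD k 0 != 0) ≤ 1) &&
    (decide ((List.range 7).countP (fun k => c.getD k 0 * e.getD k 0 != 0) = 1) ||
      (decide (gridCount c < 3) && decide (gridCount e < 3)))

/-- The candidates for column `j`. -/
def gridCand (j : ℕ) : List (List Int) := (gridVecs 7).filter (gridOk j)

/-- No compatible choice exists. -/
def gridCheck : Bool :=
  (gridCand 3).all fun a => (gridCand 0).all fun b => !gridCompat a b ||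
    ((gridCand 1).all fun c => !(gridCompat a c && gridCompat b c) ||
      ((gridCand 2).all fun e => !(gridCompat a e && gridCompat b e && gridCompat c e)))

theorem gridCheck_true : gridCheck = true := by decide +kernel

theorem mem_gridVecs : ∀ l : List Int, (∀ x ∈ l, x = -1 ∨ x = 0 ∨ x = 1) →
    l ∈ gridVecs l.length := by
  intro l
  induction l with
  | nil => intro _; simp [gridVecs]
  | cons a l ih =>
    intro h
    simp only [List.length_cons, gridVecs, List.mem_flatMap]
    refine ⟨l, ih fun x hx => h x (by simp [hx]), ?_⟩
    rcases h a (by simp) with rfl | rfl | rfl <;> simp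

theorem grid_no_second_row (a b c e : List Int) (ha : a ∈ gridCand 3) (hb : b ∈ gridCand 0)
    (hc : c ∈ gridCand 1) (he : e ∈ gridCand 2) (hab : gridCompat a b = true)
    (hac : gridCompat a c = true) (hbc : gridCompat b c = true) (hae : gridCompat a e = true)
    (hbe : gridCompat b e = true) (hce : gridCompat c e = true) : False := by
  have h := gridCheck_true
  unfold gridCheck at h
  have h1 := List.all_eq_true.mp h a ha
  have h2 := List.all_eq_true.mp h1 b hb
  simp only [hab, Bool.not_true, Bool.false_or] at h2
  have h3 := List.all_eq_true.mp h2 c hc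
  simp only [hac, hbc, Bool.and_self, Bool.not_true, Bool.false_or] at h3
  have h4 := List.all_eq_true.mp h3 e he
  simp [hae, hbe, hce] at h4

end Cfsg.Agent.OddChar
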