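import Cfsg.Agent.OddChar.LeechPar
import Cfsg.Agent.Golay.LeechMinGen
import Cfsg.Agent.Golay.LeechModTwo
import Cfsg.Agent.Golay.LeechTrans
import Cfsg.Agent.Golay.LeechOrder

/-! The lattice modulo twice itself as a module for its automorphism group. -/

set_option autoImplicit false
set_option maxRecDepth 20000

namespace Cfsg.Agent.OddChar

open Cfsg.Agent.Golay

theorem dot_single_pair (v : GolayPt → ℤ) (i j : GolayPt) (a b : ℤ) :
    dotInt v (Pi.single i a + Pi.single j b) = v i * a + v j * b := by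
  simp [dotInt, Pi.single_apply, mul_add, Finset.sum_add_distrib, mul_ite]

theorem two_mul_smul_aux (z : GolayPt → ℤ) : (2 : ℕ) • z = (2 : ℤ) • z := by
  funext i; simp

theorem co0_fix_mod_two {g : ↥Co0}
    (h : ∀ v : ↥leechLattice, ∃ w : ↥leechLattice,
      ((g • v : ↥leechLattice) : GolayPt → ℤ) - (v : GolayPt → ℤ) = 2 • (w : GolayPt → ℤ)) :
    g = 1 ∨ g = negEl := by
  -- a sign on every minimal vector
  have hpm : ∀ v : ↥leechLattice, sqNorm (v : GolayPt → ℤ) = 32 → g • v = v ∨ g • v = -v := by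
    intro v hv
    obtain ⟨w, hw⟩ := h v
    rcases leech_congr_two (g • v).2 v.2 (by rw [co0_norm g v, hv]; norm_num) (by rw [hv]; norm_num)
      ⟨_, w.2, hw⟩ with h1 | h1 | ⟨-, h1, -⟩
    · exact Or.inl (Subtype.ext h1)
    · exact Or.inr (Subtype.ext h1)
    · omega
  -- vectors that are not orthogonal get the same sign
  have hlink : ∀ v w : ↥leechLattice, sqNorm (w : GolayPt → ℤ) = 32 →
      dotInt (v : GolayPt → ℤ) w ≠ 0 → (g • v = v → g • w = w) ∧ (g • v = -v → g • w = -w) := by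
    intro v w hw hd
    have hn : ∀ a b : GolayPt → ℤ, dotInt a (-b) = -dotInt a b ∧ dotInt (-a) b = -dotInt a b := fun a b => by
      simp [dotInt]
    have hdot := co0_dot g v w
    refine ⟨fun hv => (hpm w hw).resolve_right fun h' => ?_, fun hv => (hpm w hw).resolve_left fun h' => ?_⟩
    · rw [hv, h', AddSubgroup.coe_neg, (hn _ _).1] at hdot; omega
    · rw [hv, h', AddSubgroup.coe_neg, (hn _ _).2] at hdot; omega
  have pm : ∀ (i j : GolayPt) (ε : ℤ), i ≠ j → (ε = 1 ∨ ε = -1) →
      (Pi.single i (4 : ℤ) + Pi.single j (4 * ε) : GolayPt → ℤ) ∈ leechLattice :=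
    fun i j ε hij hε => minSpan_le (four_pair_mem hij ε hε)
  let P : ∀ (i j : GolayPt) (ε : ℤ), i ≠ j → (ε = 1 ∨ ε = -1) → ↥leechLattice :=
    fun i j ε hij hε => ⟨_, pm i j ε hij hε⟩
  have pn : ∀ i j ε (hij : i ≠ j) (hε : ε = 1 ∨ ε = -1),
      sqNorm ((P i j ε hij hε : ↥leechLattice) : GolayPt → ℤ) = 32 := by
    intro i j ε hij hε
    have e : ∀ k, (Pi.single i (4 : ℤ) + Pi.single j (4 * ε) : GolayPt → ℤ) k ^ 2
        = (if k = i then 16 else 0) + (if k = j then 16 else 0) := by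
      intro k
      simp only [Pi.add_apply, Pi.single_apply]
      split_ifs with h1 h2 h2
      · exact absurd (h1.symm.trans h2) hij
      · norm_num
      · rcases hε with rfl | rfl <;> norm_num
      · norm_num
    show sqNorm (Pi.single i (4 : ℤ) + Pi.single j (4 * ε) : GolayPt → ℤ) = 32
    rw [sqNorm, Finset.sum_congr rfl fun k _ => e k, Finset.sum_add_distrib,
      Finset.sum_ite_eq', Finset.sum_ite_eq']
    simp
  have h00 : (none : GolayPt) ≠ some 0 := by simp
  set base := P none (some 0) 1 h00 (Or.inl rfl) with hbase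
  -- every minimal vector is linked to the base vector
  have main : ∀ (s : ↥leechLattice → Prop),
      (∀ v w : ↥leechLattice, sqNorm (w : GolayPt → ℤ) = 32 → dotInt (v : GolayPt → ℤ) w ≠ 0 → s v → s w) →
      s base → ∀ w : ↥leechLattice, sqNorm (w : GolayPt → ℤ) = 32 → s w := by
    intro s hs hb
    have hnone : ∀ j (hj : none ≠ j) ε (hε : ε = 1 ∨ ε = -1), s (P none j ε hj hε) := by
      intro j hj ε hε
      by_cases hj0 : j = some 0
      · subst hj0
        have hj1 : (none : GolayPt) ≠ some 1 := by simp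
        refine hs (P none (some 1) 1 hj1 (Or.inl rfl)) _ (pn _ _ _ hj hε) ?_ (hs base _ (pn _ _ _ hj1 (Or.inl rfl)) ?_ hb)
        · show dotInt _ (Pi.single none (4 : ℤ) + Pi.single (some 0) (4 * ε) : GolayPt → ℤ) ≠ 0
          rw [dot_single_pair]
          simp [P, Pi.single_apply, show (0 : ZMod 23) ≠ 1 by decide, show (1 : ZMod 23) ≠ 0 by decide]
        · show dotInt _ (Pi.single none (4 : ℤ) + Pi.single (some 1) (4 * 1) : GolayPt → ℤ) ≠ 0
          rw [dot_single_pair]
          simp [base, P, Pi.single_apply, show (0 : ZMod 23) ≠ 1 by decide, show (1 : ZMod 23) ≠ 0 by decide]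
      · refine hs base _ (pn _ _ _ hj hε) ?_ hb
        show dotInt _ (Pi.single none (4 : ℤ) + Pi.single j (4 * ε) : GolayPt → ℤ) ≠ 0
        rw [dot_single_pair]
        simp [base, P, Pi.single_apply, hj.symm, hj0]
    intro w hw
    obtain ⟨j, hj⟩ : ∃ j, (w : GolayPt → ℤ) j ≠ 0 := by
      by_contra hcon
      push Not at hcon
      simp [sqNorm, hcon] at hw
    by_cases hjn : j = none
    · subst hjn
      by_cases hd : (w : GolayPt → ℤ) none + (w : GolayPt → ℤ) (some 0) = 0
      · refine hs (P none (some 0) (-1) h00 (Or.inr rfl)) w hw ?_ (hnone (some 0) h00 (-1) (Or.inr rfl))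
        rw [Leech2dot_comm]
        show dotInt _ (Pi.single none (4 : ℤ) + Pi.single (some 0) (4 * (-1 : ℤ)) : GolayPt → ℤ) ≠ 0
        rw [dot_single_pair]
        omega
      · refine hs base w hw ?_ hb
        rw [Leech2dot_comm]
        show dotInt _ (Pi.single none (4 : ℤ) + Pi.single (some 0) (4 * (1 : ℤ)) : GolayPt → ℤ) ≠ 0
        rw [dot_single_pair]
        omega
    · have hne : (none : GolayPt) ≠ j := Ne.symm hjn
      by_cases hd : (w : GolayPt → ℤ) none + (w : GolayPt → ℤ) j = 0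
      · refine hs (P none j (-1) hne (Or.inr rfl)) w hw ?_ (hnone j hne (-1) (Or.inr rfl))
        rw [Leech2dot_comm]
        show dotInt _ (Pi.single none (4 : ℤ) + Pi.single j (4 * (-1 : ℤ)) : GolayPt → ℤ) ≠ 0
        rw [dot_single_pair]
        omega
      · refine hs (P none j 1 hne (Or.inl rfl)) w hw ?_ (hnone j hne 1 (Or.inl rfl))
        rw [Leech2dot_comm]
        show dotInt _ (Pi.single none (4 : ℤ) + Pi.single j (4 * (1 : ℤ)) : GolayPt → ℤ) ≠ 0
        rw [dot_single_pair]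
        omega
  have hgen : ∀ (c : ℤ), (∀ w : ↥leechLattice, sqNorm (w : GolayPt → ℤ) = 32 → g • w = c • w) →
      ∀ v : ↥leechLattice, g • v = c • v := by
    intro c hc v
    have hv : (v : GolayPt → ℤ) ∈ minSpan := by rw [leech_eq_minSpan]; exact v.2
    suffices hh : ∀ x ∈ minSpan, ∃ hx : x ∈ leechLattice, g • (⟨x, hx⟩ : ↥leechLattice) = c • ⟨x, hx⟩ by
      obtain ⟨hx, e⟩ := hh _ hv; exact e
    intro x hx
    induction hx using AddSubgroup.closure_induction with
    | mem y hy => exact ⟨hy.1, hc ⟨y, hy.1⟩ hy.2⟩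
    | zero =>
      refine ⟨zero_mem _, ?_⟩
      have h0 := co0_add g (0 : ↥leechLattice) 0
      rw [add_zero] at h0
      show g • (0 : ↥leechLattice) = c • 0
      rw [smul_zero, left_eq_add.1 h0]
    | add a b _ _ ha hb =>
      obtain ⟨ha, ea⟩ := ha
      obtain ⟨hb, eb⟩ := hb
      refine ⟨add_mem ha hb, ?_⟩
      show g • ((⟨a, ha⟩ : ↥leechLattice) + ⟨b, hb⟩) = c • ((⟨a, ha⟩ : ↥leechLattice) + ⟨b, hb⟩)
      rw [co0_add, ea, eb, smul_add]
    | neg a _ ha =>
      obtain ⟨ha, ea⟩ := ha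
      refine ⟨neg_mem ha, ?_⟩
      show g • (-(⟨a, ha⟩ : ↥leechLattice)) = c • (-(⟨a, ha⟩ : ↥leechLattice))
      rw [co0_neg, ea, smul_neg]
  rcases hpm base (pn none (some 0) 1 h00 (Or.inl rfl)) with hb | hb
  · refine Or.inl (co0_ext fun i => ?_)
    rw [hgen 1 (fun w hw => by
      rw [one_smul]; exact main (fun w => g • w = w) (fun v w hw hd => (hlink v w hw hd).1) hb w hw),
      one_smul, one_smul]
  · refine Or.inr (co0_ext fun i => ?_)
    rw [hgen (-1) (fun w hw => by
      rw [neg_smul, one_smul]; exact main (fun w => g • w = -w) (fun v w hw hd => (hlink v w hw hd).2) hb w hw),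
      neg_smul, one_smul, negEl_apply]
where
  Leech2dot_comm (x y : GolayPt → ℤ) : dotInt x y = dotInt y x := by
    simp only [dotInt]; exact Finset.sum_congr rfl fun i _ => mul_comm _ _

/-- The vector with an eight at the extra point, and others used below. -/
theorem shell_diffs :
    (∃ v w : GolayPt → ℤ, v ∈ leechLattice ∧ w ∈ leechLattice ∧ sqNorm v = 48 ∧ sqNorm w = 48 ∧
      sqNorm (v - w) = 32) ∧
    (∃ v w : GolayPt → ℤ, v ∈ leechLattice ∧ w ∈ leechLattice ∧ sqNorm v = 64 ∧ sqNorm w = 64 ∧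
      sqNorm (v - w) = 32) := by
  refine ⟨⟨fun i => if i = none then 5 else 1, fun i => if i = some 0 then 5 else 1,
    leechTest_sound (by decide +kernel), leechTest_sound (by decide +kernel),
    by decide +kernel, by decide +kernel, by decide +kernel⟩,
    ⟨fun i => if i ∈ ([none, some 0, some 1, some 2] : List GolayPt) then 4 else 0,
    fun i => if i ∈ ([none, some 0, some 1, some 3] : List GolayPt) then 4 else 0,
    leechTest_sound (by decide +kernel), leechTest_sound (by decide +kernel),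
    by decide +kernel, by decide +kernel, by decide +kernel⟩⟩

theorem invariant_between {M : AddSubgroup (GolayPt → ℤ)}
    (h2 : ∀ v ∈ leechLattice, (2 : ℤ) • v ∈ M) (hle : M ≤ leechLattice)
    (hinv : ∀ g : ↥Co0, ∀ v : ↥leechLattice, (v : GolayPt → ℤ) ∈ M →
      ((g • v : ↥leechLattice) : GolayPt → ℤ) ∈ M) :
    (∀ x ∈ M, ∃ w ∈ leechLattice, x = (2 : ℤ) • w) ∨ M = leechLattice := by
  by_cases hall : ∀ x ∈ M, ∃ w ∈ leechLattice, x = (2 : ℤ) • w
  · exact Or.inl hall
  right
  push Not at hall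
  obtain ⟨x, hx, hnot⟩ := hall
  obtain ⟨y, hy, hyn, z, hz, hxy⟩ := leech_short_rep (hle hx)
  have h2z : (2 : ℤ) • z ∈ M := h2 z hz
  have he : x - y = (2 : ℤ) • z := by rw [hxy, ← two_mul_smul_aux z]
  have hyM : y ∈ M := by
    have := sub_mem hx h2z
    rwa [← he, sub_sub_cancel] at this
  have hy0 : y ≠ 0 := fun h0 => hnot z hz (by rw [← he, h0, sub_zero])
  obtain ⟨c, hc⟩ := sqNorm_dvd hy
  have hge := sqNorm_ge hy hy0
  have hshell : ∀ v : GolayPt → ℤ, v ∈ leechLattice → sqNorm v = sqNorm y → v ∈ M := by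
    intro v hv hn
    have hn3 : sqNorm y = 32 ∨ sqNorm y = 48 ∨ sqNorm y = 64 := by omega
    obtain ⟨g, hg⟩ := co0_transitive hn3 (v := ⟨y, hy⟩) (w := ⟨v, hv⟩) rfl hn
    have := hinv g ⟨y, hy⟩ hyM
    rwa [hg] at this
  have h32 : ∃ m ∈ M, sqNorm m = 32 := by
    rcases (show sqNorm y = 32 ∨ sqNorm y = 48 ∨ sqNorm y = 64 by omega) with h | h | h
    · exact ⟨y, hyM, h⟩
    · obtain ⟨v, w, hv, hw, a, b, d⟩ := shell_diffs.1
      exact ⟨v - w, sub_mem (hshell v hv (a.trans h.symm)) (hshell w hw (b.trans h.symm)), d⟩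
    · obtain ⟨v, w, hv, hw, a, b, d⟩ := shell_diffs.2
      exact ⟨v - w, sub_mem (hshell v hv (a.trans h.symm)) (hshell w hw (b.trans h.symm)), d⟩
  obtain ⟨m, hm, hm32⟩ := h32
  refine le_antisymm hle (leech_eq_minSpan.symm.le.trans ((AddSubgroup.closure_le _).2 fun v hv => ?_))
  obtain ⟨g, hg⟩ := co0_transitive (Or.inl rfl) (v := ⟨m, hle hm⟩) (w := ⟨v, hv.1⟩) hm32 hv.2
  have := hinv g ⟨m, hle hm⟩ hm
  rwa [hg] at this

end Cfsg.Agent.OddChar
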