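import Cfsg.Agent.Golay.Leech

/-! Congruent short vectors of the lattice modulo twice the lattice. -/

set_option autoImplicit false

namespace Cfsg.Agent.OddChar

open Cfsg.Agent.Golay

theorem sqNorm_sub_add_eq (v w : GolayPt → ℤ) :
    sqNorm (v - w) + sqNorm (v + w) = 2 * sqNorm v + 2 * sqNorm w := by
  simp only [sqNorm, Finset.mul_sum, ← Finset.sum_add_distrib]
  exact Finset.sum_congr rfl fun i _ => by simp only [Pi.sub_apply, Pi.add_apply]; ring

theorem sqNorm_add_eq (v w : GolayPt → ℤ) :
    sqNorm (v + w) = sqNorm v + sqNorm w + 2 * dotInt v w := by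
  simp only [sqNorm, dotInt, Finset.mul_sum, ← Finset.sum_add_distrib]
  exact Finset.sum_congr rfl fun i _ => by simp only [Pi.add_apply]; ring

theorem leech_congr_two {v w : GolayPt → ℤ} (hv : v ∈ leechLattice) (hw : w ∈ leechLattice)
    (hvn : sqNorm v ≤ 64) (hwn : sqNorm w ≤ 64) (hc : ∃ z ∈ leechLattice, v - w = 2 • z) :
    v = w ∨ v = -w ∨ (sqNorm v = 64 ∧ sqNorm w = 64 ∧ dotInt v w = 0) := by
  obtain ⟨z, hz, hzw⟩ := hc
  have four : ∀ u : GolayPt → ℤ, sqNorm (2 • u) = 4 * sqNorm u := fun u => by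
    simp only [sqNorm, Finset.mul_sum]
    exact Finset.sum_congr rfl fun i _ => by simp only [Pi.smul_apply]; ring
  have hs : v + w = 2 • (z + w) := by
    funext i
    have := congrFun hzw i
    simp only [Pi.sub_apply, Pi.add_apply, Pi.smul_apply, smul_add, nsmul_eq_mul] at this ⊢
    push_cast at this ⊢
    linarith
  by_cases h1 : z = 0
  · left; rw [h1, smul_zero, sub_eq_zero] at hzw; exact hzw
  by_cases h2 : z + w = 0
  · right; left; rw [h2, smul_zero, add_eq_zero_iff_eq_neg] at hs; exact hs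
  right; right
  have a := sqNorm_ge hz h1
  have b := sqNorm_ge (add_mem hz hw) h2
  have hp := sqNorm_sub_add_eq v w
  have hd := sqNorm_add_eq v w
  rw [hzw, hs, four, four] at hp
  rw [hs, four] at hd
  refine ⟨by omega, by omega, by omega⟩

end Cfsg.Agent.OddChar
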