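import Cfsg.Agent.Golay.Leech
import Cfsg.Agent.Golay.Mathieu
import Cfsg.Agent.OddChar.GolayPerm

/-! A square root of negation on the lattice, and a totally singular subgroup. -/

set_option autoImplicit false

namespace Cfsg.Agent.OddChar

open Cfsg.Agent.Golay
open scoped Pointwise

/-- The lattice map twisting by the square dodecad and `x ↦ -1/x`. -/
def twistVec (x : GolayPt → ℤ) : GolayPt → ℤ := fun p =>
  if p ∈ Cfsg.Spor.squareDodecad then x (projInv p) else -x (projInv p)

theorem projInv_swaps : ∀ p : GolayPt,
    projInv p ∈ Cfsg.Spor.squareDodecad ↔ p ∉ Cfsg.Spor.squareDodecad := by decide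

theorem projInv_involutive : ∀ p : GolayPt, projInv (projInv p) = p := fun p =>
  projInv.left_inv p

theorem twistVec_twistVec (x : GolayPt → ℤ) : twistVec (twistVec x) = -x := by
  funext p
  simp only [twistVec, projInv_involutive, Pi.neg_apply]
  by_cases h : p ∈ Cfsg.Spor.squareDodecad
  · rw [if_pos h, if_neg fun h' => (projInv_swaps p).1 h' h]
  · rw [if_neg h, if_pos ((projInv_swaps p).2 h), ]

theorem twistVec_sqNorm (x : GolayPt → ℤ) : sqNorm (twistVec x) = sqNorm x := by
  simp only [sqNorm]
  refine (Finset.sum_congr rfl fun p _ => ?_).trans (Equiv.sum_comp projInv (fun p => x p ^ 2))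
  simp only [twistVec]
  split_ifs <;> ring

theorem twistVec_mem {x : GolayPt → ℤ} (hx : x ∈ leechLattice) : twistVec x ∈ leechLattice := by
  classical
  rw [mem_leech_iff] at hx ⊢
  obtain ⟨m, y, hxy, hw, hs⟩ := hx
  set d := Cfsg.Spor.squareDodecad with hd
  refine ⟨m, fun p => if p ∈ d then y (projInv p) else -m - y (projInv p), fun p => ?_, ?_, ?_⟩
  · simp only [twistVec, ← hd]
    split_ifs <;> rw [hxy] <;> ring
  · have e : red2 (fun p => if p ∈ d then y (projInv p) else -m - y (projInv p))
        = (fun p => red2 y (projInv.symm p)) + (m : ZMod 2) • gind dᶜ := by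
      funext p
      simp only [red2, gind, Pi.add_apply, Pi.smul_apply, Finset.mem_compl, smul_eq_mul]
      have hsym : projInv.symm p = projInv p := rfl
      rw [hsym]
      by_cases h : p ∈ d
      · simp [h]
      · rw [if_neg h, if_pos h]
        push_cast
        rw [CharTwo.sub_eq_add, CharTwo.neg_eq, mul_one, add_comm]
    rw [e]
    refine add_mem ?_ (Submodule.smul_mem _ _ (gind_mem_code.2 (compl_mem_supports squareDodecad_mem.1)))
    rw [← gind_support (red2 y), gind_smul]
    exact gind_mem_code.2 (mem_M24_iff_forall.1 projInv_mem _ ⟨_, hw, rfl⟩)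
  · have hsum : ∑ p, twistVec x p = ∑ p, x p - 2 * ∑ q ∈ d, x q := by
      have h1 : ∑ p, twistVec x p = ∑ p, (if projInv p ∈ d then -x (projInv p) else x (projInv p)) := by
        refine Finset.sum_congr rfl fun p _ => ?_
        simp only [twistVec, ← hd]
        by_cases h : p ∈ d
        · rw [if_pos h, if_neg fun h' => (projInv_swaps p).1 h' h]
        · rw [if_neg h, if_pos ((projInv_swaps p).2 h)]
      rw [h1, Equiv.sum_comp projInv (fun q => if q ∈ d then -x q else x q), Finset.mul_sum,
        eq_sub_iff_add_eq, ← Finset.univ_inter d, ← Finset.sum_ite_mem, ← Finset.sum_add_distrib]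
      refine Finset.sum_congr rfl fun q _ => ?_
      simp only [Finset.univ_inter]
      split_ifs <;> ring
    have hev : (2 : ℤ) ∣ ∑ q ∈ d, y q := by
      have h := self_orthogonal hw (gind_mem_code.2 squareDodecad_mem.1)
      have e : ((∑ q ∈ d, y q : ℤ) : ZMod 2) = ∑ i, red2 y i * gind d i := by
        simp [red2, gind, Finset.sum_ite_mem]
      rw [← e] at h
      exact_mod_cast (ZMod.intCast_zmod_eq_zero_iff_dvd _ 2).1 h
    have hdx : ∑ q ∈ d, x q = 12 * m + 2 * ∑ q ∈ d, y q := by
      rw [Finset.sum_congr rfl fun q _ => hxy q, Finset.sum_add_distrib, ← Finset.mul_sum,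
        Finset.sum_const, squareDodecad_mem.2, nsmul_eq_mul]
      norm_num
    rw [hsum, hdx]
    omega

/-- The twist as a permutation of the lattice. -/
def twistPerm : Equiv.Perm leechLattice where
  toFun v := ⟨twistVec v, twistVec_mem v.2⟩
  invFun v := ⟨-twistVec v, neg_mem (twistVec_mem v.2)⟩
  left_inv v := Subtype.ext (show -twistVec (twistVec v) = v by rw [twistVec_twistVec, neg_neg])
  right_inv v := Subtype.ext (show twistVec (-twistVec v) = v by
    have e : twistVec (-twistVec v) = -twistVec (twistVec v) := by
      funext p; simp only [twistVec, Pi.neg_apply]; split_ifs <;> ring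
    rw [e, twistVec_twistVec, neg_neg])

theorem twistPerm_mem : twistPerm ∈ Co0 := by
  refine ⟨fun v w => Subtype.ext ?_, fun v => twistVec_sqNorm _⟩
  show twistVec ((v : GolayPt → ℤ) + (w : GolayPt → ℤ)) = twistVec v + twistVec w
  funext p
  simp only [twistVec, Pi.add_apply]
  split_ifs <;> ring

/-- The all-odd minimal vector. -/
def oddVec : GolayPt → ℤ := fun p => if p = none then -3 else 1

theorem oddVec_mem : oddVec ∈ leechLattice := by
  refine mem_leech_iff.2 ⟨1, fun p => if p = none then -2 else 0, fun p => ?_, ?_, ?_⟩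
  · simp only [oddVec]; split_ifs <;> ring
  · have e : red2 (fun p : GolayPt => if p = none then (-2 : ℤ) else 0) = 0 := by
      funext p; simp only [red2, Pi.zero_apply]; split_ifs <;> decide
    rw [e]; exact zero_mem _
  · decide

theorem leech_even_mem {z : GolayPt → ℤ} (hz : (2 : ℤ) ∣ ∑ i, z i) :
    (fun i => 4 * z i) ∈ leechLattice := by
  refine mem_leech_iff.2 ⟨0, fun i => 2 * z i, fun i => by ring, ?_, ?_⟩
  · have e : red2 (fun i => 2 * z i) = 0 := by
      funext i; simp [red2, show (2 : ZMod 2) = 0 from rfl]
    rw [e]; exact zero_mem _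
  · rw [← Finset.mul_sum]; omega

/-- The parity and code class of a lattice vector. -/
noncomputable def leechClass :
    leechLattice →+ ZMod 2 × (↥golayCode ⧸ (Submodule.span (ZMod 2) {(⟨1, one_mem_golayCode⟩ : ↥golayCode)})) where
  toFun v := ((((v : GolayPt → ℤ) none : ℤ) : ZMod 2),
    Submodule.Quotient.mk ⟨red2 fun i => ((v : GolayPt → ℤ) i - (v : GolayPt → ℤ) none) / 2, by
      obtain ⟨m, y, hxy, hw, -⟩ := mem_leech_iff.1 v.2
      have e : (red2 fun i => ((v : GolayPt → ℤ) i - (v : GolayPt → ℤ) none) / 2)
          = red2 y + ((y none : ℤ) : ZMod 2) • (1 : GolayPt → ZMod 2) := by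
        funext i
        simp only [red2, Pi.add_apply, Pi.smul_apply, Pi.one_apply, smul_eq_mul, mul_one]
        rw [hxy i, hxy none, show (m + 2 * y i - (m + 2 * y none)) / 2 = y i - y none by omega,
          Int.cast_sub, CharTwo.sub_eq_add]
      rw [e]
      exact add_mem hw (Submodule.smul_mem _ _ one_mem_golayCode)⟩)
  map_zero' := by
    refine Prod.ext (by simp) ?_
    show Submodule.Quotient.mk _ = 0
    rw [Submodule.Quotient.mk_eq_zero]
    convert (Submodule.span _ _).zero_mem using 1
    exact Subtype.ext (funext fun i => by simp [red2])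
  map_add' v w := by
    refine Prod.ext (by simp) ?_
    show Submodule.Quotient.mk _ = Submodule.Quotient.mk _ + Submodule.Quotient.mk _
    rw [← Submodule.Quotient.mk_add]
    congr 1
    refine Subtype.ext (funext fun i => ?_)
    obtain ⟨m, y, hy, -, -⟩ := mem_leech_iff.1 v.2
    obtain ⟨n, z, hz, -, -⟩ := mem_leech_iff.1 w.2
    simp only [red2, AddSubgroup.coe_add, Pi.add_apply, Submodule.coe_add, hy, hz]
    rw [← Int.cast_add]
    congr 1
    omega

theorem leechClass_surjective : Function.Surjective leechClass := by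
  rintro ⟨b, c⟩
  induction c using Submodule.Quotient.induction_on with
  | _ c =>
    set t : GolayPt → ℤ := fun i => ((c : GolayPt → ZMod 2) i).val with ht
    have hred : red2 t = c := by funext i; simp [red2, ht]
    have hsum : (4 : ℤ) ∣ ∑ i, t i := by
      have h4 := card_code_dvd c.2
      have e : ∑ i, t i = ((support₂ (c : GolayPt → ZMod 2)).card : ℤ) := by
        rw [support₂, Finset.card_filter, Nat.cast_sum]
        refine Finset.sum_congr rfl fun i _ => ?_
        simp only [ht]
        generalize (c : GolayPt → ZMod 2) i = a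
        revert a; decide
      rw [e]; exact_mod_cast h4
    have hmem : (fun i => (b.val : ℤ) * oddVec i + 2 * t i) ∈ leechLattice := by
      have h2 : (fun i => 2 * t i) ∈ leechLattice :=
        mem_leech_iff.2 ⟨0, t, fun i => by ring, hred ▸ c.2, by rw [← Finset.mul_sum]; omega⟩
      have hv : (fun i => (b.val : ℤ) * oddVec i) ∈ leechLattice := by
        have h3 : (b.val : ℤ) • oddVec ∈ leechLattice := AddSubgroup.zsmul_mem _ oddVec_mem _
        simpa [Pi.smul_def] using h3
      exact add_mem hv h2
    refine ⟨⟨_, hmem⟩, Prod.ext ?_ ?_⟩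
    · show ((((b.val : ℤ) * oddVec none + 2 * t none : ℤ)) : ZMod 2) = b
      simp only [oddVec, if_pos]
      push_cast
      generalize (t none : ZMod 2) = a
      clear hmem hsum hred
      revert a b; decide
    · show Submodule.Quotient.mk _ = Submodule.Quotient.mk c
      rw [Submodule.Quotient.eq, Submodule.mem_span_singleton]
      refine ⟨((t none : ℤ) : ZMod 2), Subtype.ext (funext fun i => ?_)⟩
      have ho : (b.val : ℤ) * oddVec i + 2 * t i - ((b.val : ℤ) * oddVec none + 2 * t none)
          = 2 * ((if i = none then 0 else 2) * (b.val : ℤ) + t i - t none) := by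
        simp only [oddVec]
        split_ifs with h <;> first | subst h | skip
        all_goals simp
        all_goals ring
      simp only [SetLike.val_smul, Submodule.coe_sub, Pi.smul_apply, Pi.sub_apply, Pi.one_apply,
        smul_eq_mul, mul_one, red2]
      rw [ho, Int.mul_ediv_cancel_left _ (by norm_num : (2 : ℤ) ≠ 0), ← congrFun hred i]
      simp only [red2]
      push_cast
      split_ifs <;> simp [show (2 : ZMod 2) = 0 from rfl, CharTwo.sub_eq_add]
      all_goals generalize ((t none : ℤ) : ZMod 2) = a
      all_goals generalize ((t i : ℤ) : ZMod 2) = a'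
      all_goals clear hmem hsum hred ho ht
      all_goals revert a a'
      all_goals decide

theorem leechClass_card :
    Nat.card (ZMod 2 × (↥golayCode ⧸ (Submodule.span (ZMod 2) {(⟨1, one_mem_golayCode⟩ : ↥golayCode)}))) = 2 ^ 12 := by
  set S := Submodule.span (ZMod 2) {(⟨1, one_mem_golayCode⟩ : ↥golayCode)}
  have hS : Nat.card S = 2 := by
    rw [Module.natCard_eq_pow_finrank (K := ZMod 2), Nat.card_zmod, finrank_span_singleton, pow_one]
    intro h
    exact one_ne_zero (congrFun (congrArg Subtype.val h) none)
  have h := Submodule.card_eq_card_quotient_mul_card S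
  rw [golayCode_card, hS] at h
  rw [Nat.card_prod, Nat.card_zmod]
  omega

end Cfsg.Agent.OddChar
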