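/-
An irreducible character of degree `p - 1` with a self-centralizing element of order `p`.
-/
import Cfsg.Agent.OddChar.SelfCentPrime
import Cfsg.Agent.OddChar.CoverCount
import Cfsg.Agent.Chars.Linear
import Cfsg.Agent.Chars.Eigen
import Cfsg.Agent.Chars.Blichfeldt
import Cfsg.Agent.Chars2.Linear

set_option autoImplicit false
set_option linter.style.haveILetI false
set_option linter.unusedSectionVars false

open scoped Classical ComplexConjugate commutatorElement

namespace Cfsg.Agent.OddChar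

universe u

/-- The determinant of an element of order `m = 2 * i` acting with trace `0` at all nontrivial powers. -/
theorem det_eq_neg_one {G : Type u} [Group G] [Finite G] {d : ℕ}
    (ρ : Representation ℂ G (Fin d → ℂ)) {w : G} {m : ℕ} (hw : orderOf w = m) (hm : Even m) (hm0 : m ≠ 0)
    (htr : ∀ j, ¬ m ∣ j → ρ.character (w ^ j) = 0) {k : ℕ} (hd : d = m * k) (hk : Odd k) :
    LinearMap.det (ρ w) = -1 := by
  obtain ⟨b, z, hb, hz⟩ := Chars.exists_eigenbasis ρ w
  have hp : ∀ (j : ℕ) i, ρ (w ^ j) (b i) = z i ^ j • b i := by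
    intro j i
    induction j with
    | zero => simp
    | succ j ih => rw [pow_succ', map_mul, Module.End.mul_apply, ih, map_smul, hb, smul_smul, ← pow_succ]
  have hsum : ∀ j : ℕ, ρ.character (w ^ j) = ∑ i, z i ^ j := by
    intro j
    rw [Representation.character, LinearMap.trace_eq_matrix_trace ℂ b]
    simp only [Matrix.trace, Matrix.diag, LinearMap.toMatrix_apply, hp]
    simp
  rw [hw] at hz
  have hdet : LinearMap.det (ρ w) = ∏ i, z i := by
    rw [← LinearMap.det_toMatrix b, show LinearMap.toMatrix b b (ρ w) = Matrix.diagonal z from ?_,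
      Matrix.det_diagonal]
    ext i j
    rw [LinearMap.toMatrix_apply, hb, map_smul, Module.Basis.repr_self]
    by_cases h : i = j <;> simp [Matrix.diagonal, h]
  obtain ⟨ζ, hζ⟩ : ∃ ζ : ℂ, IsPrimitiveRoot ζ m := ⟨_, Complex.isPrimitiveRoot_exp m hm0⟩
  haveI : NeZero m := ⟨hm0⟩
  have hex : ∀ i, ∃ j : Fin m, ζ ^ (j : ℕ) = z i := fun i => by
    obtain ⟨j, hj, h⟩ := hζ.eq_pow_of_pow_eq_one (hz i)
    exact ⟨⟨j, hj⟩, h⟩
  choose f hf using hex
  have hcount : ∀ j : Fin m, (Finset.univ.filter fun i => f i = j).card = k := by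
    intro j
    have hs : (ζ ^ (j : ℕ)) ^ m = 1 := by rw [← pow_mul, mul_comm, pow_mul, hζ.pow_eq_one, one_pow]
    have hfil : (Finset.univ.filter fun i => f i = j) =
        Finset.univ.filter fun i => z i = ζ ^ (j : ℕ) := by
      ext i
      simp only [Finset.mem_filter, Finset.mem_univ, true_and]
      exact ⟨fun h => by rw [← hf i, h], fun h => Fin.ext (hζ.pow_inj (f i).2 j.2 ((hf i).trans h))⟩
    rw [hfil]
    have hs0 : ζ ^ (j : ℕ) ≠ 0 := pow_ne_zero _ (hζ.ne_zero hm0)
    have key : ∑ i, ∑ l ∈ Finset.range m, (z i / ζ ^ (j : ℕ)) ^ l =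
        (m : ℂ) * ((Finset.univ.filter fun i => z i = ζ ^ (j : ℕ)).card : ℂ) := by
      rw [Finset.sum_congr rfl fun i _ => Chars.sum_pow_root (N := m) (t := z i / ζ ^ (j : ℕ))
        (by rw [div_pow, hz, hs, div_one]), Finset.sum_ite, Finset.sum_const_zero, add_zero,
        Finset.sum_const, nsmul_eq_mul, mul_comm]
      congr 3
      ext i
      simp [div_eq_one_iff_eq hs0]
    have key2 : ∑ i, ∑ l ∈ Finset.range m, (z i / ζ ^ (j : ℕ)) ^ l = (d : ℂ) := by
      rw [Finset.sum_comm, Finset.sum_eq_single 0]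
      · simp
      · intro l hl hl0
        simp only [div_pow, ← Finset.sum_div, ← hsum]
        rw [htr l fun h => hl0 (Nat.eq_zero_of_dvd_of_lt h (Finset.mem_range.mp hl)), zero_div]
      · intro h; exact absurd (Finset.mem_range.mpr (Nat.pos_of_ne_zero hm0)) h
    have hdC : (d : ℂ) = (m : ℂ) * k := by exact_mod_cast hd
    rw [key, hdC] at key2
    exact_mod_cast mul_left_cancel₀ (Nat.cast_ne_zero.mpr hm0) key2
  have hmul : ∏ i, z i = (∏ j : Fin m, ζ ^ (j : ℕ)) ^ k := by
    rw [← Finset.prod_pow, ← Finset.prod_fiberwise Finset.univ f z]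
    refine Finset.prod_congr rfl fun j _ => ?_
    rw [Finset.prod_congr rfl (g := fun _ => ζ ^ (j : ℕ)) (fun i hi => by
      rw [← hf i, (Finset.mem_filter.mp hi).2]), Finset.prod_const, hcount]
  obtain ⟨i, hi⟩ := hm
  have hi' : m = 2 * i := by omega
  have hneg : ζ ^ i = -1 := by
    have h1 : (ζ ^ i) * (ζ ^ i) = 1 := by rw [← pow_add, ← hi, hζ.pow_eq_one]
    rcases mul_self_eq_one_iff.mp h1 with h | h
    · exact absurd (hζ.dvd_of_pow_eq_one i h) fun hd => by
        have := Nat.le_of_dvd (by omega) hd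
        omega
    · exact h
  have hprod : ∏ j : Fin m, ζ ^ (j : ℕ) = -1 := by
    rw [Finset.prod_pow_eq_pow_sum, Fin.sum_univ_eq_sum_range (fun j => j) m]
    have h2 := Finset.sum_range_id_mul_two m
    have h3 : ∑ j ∈ Finset.range m, j = i * (m - 1) := by
      rw [hi', mul_assoc, mul_comm 2 (i * _)] at h2
      rw [hi']
      exact Nat.eq_of_mul_eq_mul_right two_pos h2
    rw [h3, pow_mul, hneg, Odd.neg_one_pow]
    exact ⟨i - 1, by omega⟩
  rw [hdet, hmul, hprod, hk.neg_one_pow]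

namespace SelfCent

variable {G : Type u} [Group G] [Fintype G] {p : ℕ} [hp : Fact p.Prime] {x : G}
  (hx : orderOf x = p) (hC : Subgroup.centralizer ({x} : Set G) = Subgroup.zpowers x)
  {P : Sylow p G} (hP : (P : Subgroup G) = Subgroup.zpowers x)

include hx hC hP

theorem index_even_of_degree (he : Even (e P)) {t : ℕ} (hte : t * e P = p - 1) (hodd : Odd t)
    (χ : Cfsg.IrrCharacter G) (hχ : (χ : G → ℂ) 1 = ((p - 1 : ℕ) : ℂ)) :
    Even (commutator G).index := by
  set N := Subgroup.normalizer ((P : Subgroup G) : Set G)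
  set K := (P : Subgroup G).subgroupOf N
  haveI hKn : K.Normal := Subgroup.normal_in_normalizer
  have he0 := e_pos hx hC hP
  have he2 : 2 ≤ e P := by obtain ⟨k, hk⟩ := he; omega
  have hp1 := hp.out.two_le
  have hidx : K.index = e P := rfl
  have hPN : (P : Subgroup G) ≤ N := Subgroup.le_normalizer
  have hKcard : Nat.card K = p := by
    rw [Nat.card_congr (Subgroup.subgroupOfEquivOfLe hPN).toEquiv]; exact card_P hx hC hP
  have hcardN : Nat.card N = p * e P := card_normalizer hx hC hP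
  have hFrob : ∀ k ∈ K, k ≠ 1 → Subgroup.centralizer ({k} : Set N) ≤ K := by
    intro k hk hk1 g hg
    exact centralizer_le hx hC hP hk (fun h => hk1 (Subtype.ext h))
      (Subgroup.mem_centralizer_singleton_iff.mpr
        (congrArg Subtype.val (Subgroup.mem_centralizer_singleton_iff.mp hg)))
  have hTI : Cfsg.IsTISubset ((P : Subgroup G) : Set G) := fun g hg y hy hgy => by
    by_contra hy1
    exact hg (mem_normalizer_of_conj_mem hx hC hP hy hy1 hgy)
  set f : N → ℂ := fun y => (χ : G → ℂ) y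
  have hfc : Cfsg.IsCharacter N f := by
    obtain ⟨n, ρ, hρ⟩ := Chars.isCharacter_of_isIrr χ.2
    exact ⟨n, ρ.comp N.subtype, funext fun y => congrFun hρ (y : G)⟩
  have hfcl := Chars.isClassFunction_of_isCharacter hfc
  set g : K → ℂ := fun y => (χ : G → ℂ) (y : N)
  have hgc : Cfsg.IsCharacter K g := by
    obtain ⟨n, ρ, hρ⟩ := hfc
    exact ⟨n, ρ.comp K.subtype, funext fun y => congrFun hρ (y : N)⟩
  obtain ⟨c, hc, hgsum⟩ := Chars.exists_eq_sum_nsmul hgc
  haveI hKcyc : IsCyclic K := isCyclic_of_prime_card hKcard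
  have hlin : ∀ θ : Cfsg.IrrCharacter K, (θ : K → ℂ) 1 = 1 := fun θ => by
    letI := IsCyclic.commGroup (α := K)
    exact Chars.irr_apply_one_of_comm (fun a b => mul_comm a b) θ.2
  have hsumc : ∑ θ, c θ = p - 1 := by
    have h := congrFun hgsum 1
    simp only [g, Finset.sum_apply, nsmul_eq_mul, Pi.mul_apply, Pi.natCast_apply, hlin, mul_one] at h
    rw [show (((1 : K) : N) : G) = 1 from rfl, hχ] at h
    exact_mod_cast h.symm
  let one' : Cfsg.IrrCharacter K := ⟨fun _ => 1, Chars.isIrrCharacter_one⟩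
  set m₀ := c one' with hm₀
  have hsq : m₀ ^ 2 + (p - 1 - m₀) ≤ ∑ θ, c θ ^ 2 := by
    rw [← hsumc, ← Finset.add_sum_erase _ _ (Finset.mem_univ one'),
      ← Finset.add_sum_erase _ _ (Finset.mem_univ one'), Nat.add_sub_cancel_left]
    exact Nat.add_le_add_left (Finset.sum_le_sum fun θ _ => by
      rcases Nat.eq_zero_or_pos (c θ) with h | h
      · simp [h]
      · nlinarith) _
  have hm₀le : m₀ ≤ p - 1 := hsumc ▸ Finset.single_le_sum (fun θ _ => Nat.zero_le (c θ)) (Finset.mem_univ one')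
  -- the norm on `P`
  have hgnorm : Cfsg.classInner g g = ((∑ θ, c θ ^ 2 : ℕ) : ℂ) := by
    rw [Chars.classInner_eq_sum (Chars.isClassFunction_of_isCharacter hgc)]
    push_cast
    refine Finset.sum_congr rfl fun θ _ => ?_
    rw [← Chars.classInner_conj_symm g (θ : K → ℂ), hc, map_natCast, pow_two]
  have hbound : p * (∑ θ, c θ ^ 2) < p * e P + (p - 1) ^ 2 := by
    have hmass := cmass_ti (P : Subgroup G) N hPN hTI rfl
      (f := fun y => (χ : G → ℂ) y * conj ((χ : G → ℂ) y))
      (fun a b => by simp only; rw [Chars.isClassFunction_irr χ a b])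
    rw [cmass_eq_rmass] at hmass
    have hK1 : ∑ y : N, (if (y : G) ∈ (P : Subgroup G) ∧ y ≠ 1 then
        (χ : G → ℂ) y * conj ((χ : G → ℂ) y) else 0) = (p : ℂ) * Cfsg.classInner g g - ((p - 1 : ℕ) : ℂ) ^ 2 := by
      rw [Chars.classInner_def, hKcard, mul_inv_cancel_left₀ (Nat.cast_ne_zero.mpr hp.out.ne_zero)]
      have h1 : ∑ y : K, g y * conj (g y) = ∑ y : N, if y ∈ K then f y * conj (f y) else 0 := by
        rw [← Finset.sum_filter, ← Finset.sum_subtype_eq_sum_filter]
        refine Finset.sum_congr ?_ fun y _ => rfl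
        ext y; simp
      rw [h1, eq_sub_iff_add_eq, ← Finset.add_sum_erase _ _ (Finset.mem_univ (1 : N)),
        ← Finset.add_sum_erase _ _ (Finset.mem_univ (1 : N))]
      rw [if_neg (by simp), zero_add, if_pos K.one_mem, add_comm]
      congr 1
      · show _ = (χ : G → ℂ) (((1 : N) : G)) * conj ((χ : G → ℂ) ((1 : N) : G))
        rw [show ((1 : N) : G) = 1 from rfl, hχ, map_natCast, pow_two]
      · refine Finset.sum_congr rfl fun y hy => ?_
        have hy1 := (Finset.mem_erase.mp hy).1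
        by_cases hyK : y ∈ K
        · have hyP : (y : G) ∈ (P : Subgroup G) := hyK
          simp [hyP, hy1, hyK, f]
        · have hyP : (y : G) ∉ (P : Subgroup G) := hyK
          simp [hyP, hyK]
    rw [hK1, hgnorm, hcardN] at hmass
    set R := rmass (cov (P : Subgroup G)) (χ : G → ℂ) with hR
    have hlt : R < 1 := by
      have h1 : (Nat.card G : ℝ)⁻¹ * ∑ y : G, Complex.normSq ((χ : G → ℂ) y) = 1 := by
        have h2 : (((Nat.card G : ℝ)⁻¹ * ∑ y : G, Complex.normSq ((χ : G → ℂ) y) : ℝ) : ℂ) = 1 := by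
          rw [← Chars.classInner_self_irr χ.2, Chars.classInner_def]
          push_cast
          simp [Complex.mul_conj]
        exact_mod_cast h2
      rw [hR, rmass, ← h1]
      refine mul_lt_mul_of_pos_left (Finset.sum_lt_sum (fun y _ => ?_) ⟨1, Finset.mem_univ _, ?_⟩)
        (inv_pos.mpr (by exact_mod_cast Nat.card_pos))
      · split_ifs
        · exact le_rfl
        · exact Complex.normSq_nonneg _
      · rw [if_neg (fun h => h.1 rfl), hχ, Complex.normSq_natCast]
        exact mul_pos (by exact_mod_cast (show 0 < p - 1 by omega)) (by exact_mod_cast (show 0 < p - 1 by omega))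
    have hR' : R = ((p : ℝ) * e P)⁻¹ * ((p : ℝ) * (∑ θ, c θ ^ 2 : ℕ) - ((p - 1 : ℕ) : ℝ) ^ 2) := by
      have h' : (R : ℂ) = ((((p : ℝ) * e P)⁻¹ * ((p : ℝ) * (∑ θ, c θ ^ 2 : ℕ) - ((p - 1 : ℕ) : ℝ) ^ 2) : ℝ) : ℂ) := by
        rw [hmass]; push_cast; ring
      exact_mod_cast h'
    rw [hR', inv_mul_lt_iff₀ (by positivity), mul_one, sub_lt_iff_lt_add] at hlt
    exact_mod_cast hlt
  -- the trivial multiplicity is divisible by `e P`
  have hm₀inner : (e P : ℂ) * Cfsg.classInner f (kInd K) = (m₀ : ℂ) := by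
    rw [← hc one', classInner_kInd, Chars.classInner_def, hcardN, hKcard]
    simp only [one', map_one, mul_one]
    rw [← Finset.sum_filter, ← Finset.sum_subtype_eq_sum_filter]
    have hne : (e P : ℂ) ≠ 0 := Nat.cast_ne_zero.mpr he0.ne'
    push_cast
    rw [mul_inv, ← mul_assoc, mul_comm (p : ℂ)⁻¹, ← mul_assoc, mul_inv_cancel₀ hne, one_mul]
    congr 1
    refine Finset.sum_congr ?_ fun y _ => rfl
    ext y; simp
  obtain ⟨a, ha, hfsum⟩ := Chars.exists_eq_sum_nsmul hfc
  set S₀ := Cfsg.inducedIrrAbove K ⊥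
  have hdeg : ∀ φ ∈ S₀, ∃ n : ℕ, φ 1 = (e P : ℂ) * n ∧ Cfsg.classInner φ (kInd K) = 0 := by
    rintro φ ⟨θ, hθ, hne, -, rfl⟩
    obtain ⟨n, -, hn⟩ := Chars.exists_irr_apply_one_eq hθ
    exact ⟨n, by rw [Chars.indFun_apply_one, hn, hidx], kInd_orth K hθ hne⟩
  have hout : ∀ φ : Cfsg.IrrCharacter N, (φ : N → ℂ) ∉ S₀ →
      Cfsg.classInner (φ : N → ℂ) (kInd K) = (φ : N → ℂ) 1 / (e P : ℂ) := by
    intro φ hφ
    have hall : ∀ k ∈ K, (φ : N → ℂ) k = (φ : N → ℂ) 1 := by
      intro k hk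
      by_contra h
      exact hφ (show (φ : N → ℂ) ∈ Cfsg.inducedIrrAbove K ⊥ by
        rw [frob_indAbove_eq hFrob]; exact ⟨φ.2, k, hk, h⟩)
    rw [classInner_kInd, ← Finset.sum_filter, Finset.sum_congr rfl (g := fun _ => (φ : N → ℂ) 1)
      (fun k hk => hall k (Finset.mem_filter.mp hk).2), Finset.sum_const, nsmul_eq_mul, ← Fintype.card_subtype,
      ← Nat.card_eq_fintype_card, hKcard, hcardN]
    push_cast
    field_simp [Nat.cast_ne_zero.mpr hp.out.ne_zero]
  have hJ : (m₀ : ℂ) = ((∑ φ : Cfsg.IrrCharacter N,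
      if (φ : N → ℂ) ∈ S₀ then 0 else a φ * deg (φ : N → ℂ) : ℕ) : ℂ) := by
    rw [← hm₀inner, hfsum, Chars.classInner_sum_left, Finset.mul_sum, Nat.cast_sum]
    refine Finset.sum_congr rfl fun φ _ => ?_
    rw [← Nat.cast_smul_eq_nsmul ℂ, Chars.classInner_smul_left]
    by_cases hφ : (φ : N → ℂ) ∈ S₀
    · obtain ⟨-, -, h0⟩ := hdeg _ hφ
      rw [if_pos hφ, h0, mul_zero, mul_zero, Nat.cast_zero]
    · rw [if_neg hφ, hout φ hφ, deg_spec (Chars.isCharacter_of_isIrr φ.2), Nat.cast_mul]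
      field_simp [Nat.cast_ne_zero.mpr he0.ne']
  have hm₀sum : m₀ = ∑ φ : Cfsg.IrrCharacter N,
      if (φ : N → ℂ) ∈ S₀ then 0 else a φ * deg (φ : N → ℂ) := by exact_mod_cast hJ
  have hdegsum : p - 1 = ∑ φ : Cfsg.IrrCharacter N, a φ * deg (φ : N → ℂ) := by
    have h := congrFun hfsum 1
    simp only [f, Finset.sum_apply, nsmul_eq_mul, Pi.mul_apply, Pi.natCast_apply] at h
    rw [show ((1 : N) : G) = 1 from rfl, hχ, Finset.sum_congr rfl (g := fun φ : Cfsg.IrrCharacter N =>
      ((a φ * deg (φ : N → ℂ) : ℕ) : ℂ)) (fun φ _ => by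
        rw [deg_spec (Chars.isCharacter_of_isIrr φ.2), Nat.cast_mul]), ← Nat.cast_sum] at h
    exact_mod_cast h
  have hdvd : e P ∣ m₀ := by
    have hsplit : p - 1 = m₀ + ∑ φ : Cfsg.IrrCharacter N,
        if (φ : N → ℂ) ∈ S₀ then a φ * deg (φ : N → ℂ) else 0 := by
      rw [hdegsum, hm₀sum, ← Finset.sum_add_distrib]
      exact Finset.sum_congr rfl fun φ _ => by split_ifs <;> simp
    have h1 : e P ∣ ∑ φ : Cfsg.IrrCharacter N, if (φ : N → ℂ) ∈ S₀ then a φ * deg (φ : N → ℂ) else 0 :=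
      Finset.dvd_sum fun φ _ => by
        split_ifs with hφ
        · obtain ⟨n, hn, -⟩ := hdeg _ hφ
          rw [deg_spec (Chars.isCharacter_of_isIrr φ.2)] at hn
          exact Dvd.dvd.mul_left ⟨n, by exact_mod_cast hn⟩ _
        · exact dvd_zero _
    exact (Nat.dvd_add_left h1).mp (hsplit ▸ Dvd.intro_left t hte)
  have hm0 : m₀ = 0 := by
    by_contra h0
    have h1 : e P ≤ m₀ := Nat.le_of_dvd (Nat.pos_of_ne_zero h0) hdvd
    have h2 : e P ≤ m₀ * (m₀ - 1) :=
      h1.trans (Nat.le_mul_of_pos_right _ (by omega))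
    have h4 : m₀ * (m₀ - 1) + (p - 1) ≤ ∑ θ, c θ ^ 2 := by
      refine le_trans ?_ hsq
      obtain ⟨r, hr⟩ : ∃ r, p - 1 = m₀ + r := ⟨p - 1 - m₀, by omega⟩
      obtain ⟨s, hs⟩ : ∃ s, m₀ = s + 1 := ⟨m₀ - 1, by omega⟩
      rw [hr, Nat.add_sub_cancel_left, hs, Nat.add_sub_cancel]
      nlinarith
    have h5 : (p - 1) ^ 2 ≤ p * (p - 1) := by rw [pow_two]; exact Nat.mul_le_mul_right _ (Nat.sub_le p 1)
    nlinarith [Nat.mul_le_mul_left p h4, Nat.mul_le_mul_left p h2]
  have hvanish : ∀ y : N, y ∉ K → f y = 0 := by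
    intro y hy
    rw [hfsum, Finset.sum_apply]
    refine Finset.sum_eq_zero fun φ _ => ?_
    by_cases hφ : (φ : N → ℂ) ∈ S₀
    · rw [Pi.smul_apply, indAbove_vanish_outside (zspan_subset_apply hφ) hy, smul_zero]
    · have h1 := (Finset.sum_eq_zero_iff.mp (hm₀sum.symm.trans hm0)) φ (Finset.mem_univ _)
      rw [if_neg hφ, mul_eq_zero] at h1
      rw [Pi.smul_apply, h1.resolve_right (deg_pos_irr φ.2).ne', zero_smul]
  -- an element of 2-power order
  haveI : Fact (Nat.Prime 2) := ⟨Nat.prime_two⟩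
  have hp2 : p ≠ 2 := fun h => by
    have := Nat.le_mul_of_pos_left (e P) hodd.pos
    omega
  obtain ⟨W⟩ : Nonempty (Sylow 2 N) := inferInstance
  have hWK : ∀ w ∈ (W : Subgroup N), w ∈ K → w = 1 := fun w hw hwK =>
    Core.ThompsonComplement.eq_one_of_mem W.isPGroup' hw
      (Nat.Coprime.coprime_dvd_left (hKcard ▸ Subgroup.orderOf_dvd_natCard K hwK)
        ((Nat.coprime_primes hp.out Nat.prime_two).mpr hp2))
  haveI hWcyc : IsCyclic (W : Subgroup N) := by
    haveI : IsCyclic (P : Subgroup G) := isCyclic_P hx hC hP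
    haveI : NeZero (Nat.card (P : Subgroup G)) := ⟨Nat.card_pos.ne'⟩
    haveI : IsCyclic (ZMod (Nat.card (P : Subgroup G)))ˣ := by
      rw [card_P hx hC hP]; exact ZMod.isCyclic_units_prime hp.out
    haveI : IsCyclic (MulAut (P : Subgroup G)) :=
      isCyclic_of_surjective (IsCyclic.mulAutMulEquiv _).symm.toMonoidHom (IsCyclic.mulAutMulEquiv _).symm.surjective
    refine isCyclic_of_injective ((P : Subgroup G).normalizerMonoidHom.comp (W : Subgroup N).subtype) ?_
    rw [← MonoidHom.ker_eq_bot_iff, Subgroup.eq_bot_iff_forall]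
    intro w hw
    rw [MonoidHom.mem_ker, MonoidHom.comp_apply, ← MonoidHom.mem_ker, Subgroup.normalizerMonoidHom_ker] at hw
    refine Subtype.ext (hWK _ w.2 ?_)
    exact centralizer_le hx hC hP (mem_P hx hC hP) (x_ne hx hC hP)
      (Subgroup.mem_centralizer_singleton_iff.mpr
        (Subgroup.mem_centralizer_iff.mp hw x (mem_P hx hC hP)).symm)
  obtain ⟨w, hw⟩ := IsCyclic.exists_generator (α := (W : Subgroup N))
  have hord : orderOf (w : N) = Nat.card (W : Subgroup N) := by
    rw [Subgroup.orderOf_coe]; exact orderOf_eq_card_of_forall_mem_zpowers hw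
  set m := Nat.card (W : Subgroup N)
  have hmp : m.Coprime p := by
    obtain ⟨i, hi⟩ := IsPGroup.iff_card.mp W.isPGroup'
    rw [show m = 2 ^ i from hi]
    exact Nat.Coprime.pow_left i ((Nat.coprime_primes Nat.prime_two hp.out).mpr (Ne.symm hp2))
  have hmi : m * (W : Subgroup N).index = p * e P := by rw [Subgroup.card_mul_index, hcardN]
  have hiodd : Odd (W : Subgroup N).index :=
    Nat.not_even_iff_odd.mp fun h => W.not_dvd_index (even_iff_two_dvd.mp h)
  have hmeven : Even m := by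
    rcases Nat.even_or_odd m with h | h
    · exact h
    · exact absurd (hmi ▸ he.mul_left p) (Nat.not_even_iff_odd.mpr (h.mul hiodd))
  obtain ⟨k, hk⟩ : m ∣ p - 1 := by
    rw [← hte]
    exact Dvd.dvd.mul_left (hmp.dvd_of_dvd_mul_left (hmi ▸ dvd_mul_right m _)) t
  have hkodd : Odd k := by
    have h1 : m * (p * k) = m * (t * (W : Subgroup N).index) := by
      rw [mul_left_comm m t, hmi, mul_left_comm m p, ← hk, ← hte]; ring
    have h2 : p * k = t * (W : Subgroup N).index := Nat.eq_of_mul_eq_mul_left Nat.card_pos h1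
    exact Nat.Odd.of_mul_right (h2 ▸ hodd.mul hiodd)
  obtain ⟨d, ρ, hρ⟩ := Chars.isCharacter_of_isIrr χ.2
  have hd : d = p - 1 := by
    have h := congrFun hρ 1
    rw [hχ, Representation.char_one, Module.finrank_fin_fun] at h
    exact Nat.cast_injective h
  have hdet := det_eq_neg_one ρ (w := ((w : N) : G)) (m := m) (by rw [Subgroup.orderOf_coe]; exact hord) hmeven
    Nat.card_pos.ne' (fun j hj => by
      refine (congrFun hρ _).trans ?_
      rw [← Subgroup.coe_pow]
      exact hvanish ((w : N) ^ j) fun h => hj (by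
        rw [← hord]
        exact orderOf_dvd_of_pow_eq_one (hWK _ (pow_mem w.2 j) h))) (hd.trans hk) hkodd
  by_contra heven
  have hker : ∀ y ∈ commutator G, LinearMap.det (ρ y) = 1 := fun y hy => by
    have h := Abelianization.commutator_subset_ker (Chars2.detHom ρ) hy
    rw [MonoidHom.mem_ker] at h
    rw [← Chars2.detHom_apply, h, Units.val_one]
  have h1 := hker _ (Subgroup.pow_index_mem (commutator G) ((w : N) : G))
  rw [map_pow, map_pow, hdet, (Nat.not_even_iff_odd.mp heven).neg_one_pow] at h1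
  norm_num at h1

end SelfCent

end Cfsg.Agent.OddChar
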