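import Mathlib

/-! A self-dual binary code of length 24 and distance 8 is doubly even. -/

set_option autoImplicit false

namespace Cfsg.Agent.OddChar

abbrev F24 := Fin 24 → ZMod 2

theorem zmod2_mul_self (a : ZMod 2) : a * a = if a ≠ 0 then 1 else 0 := by
  revert a; decide

theorem norm_cast_eq (w : F24) : (hammingNorm w : ZMod 2) = ∑ i, w i * w i := by
  rw [hammingNorm, Finset.sum_congr rfl fun i _ => zmod2_mul_self (w i), Finset.sum_boole]

theorem norm_add_one (w : F24) : hammingNorm (w + 1) + hammingNorm w = 24 := by
  have e : ∀ a : ZMod 2, (a + 1 ≠ 0) ↔ ¬ (a ≠ 0) := by decide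
  simp only [hammingNorm, Pi.add_apply, Pi.one_apply]
  rw [Finset.filter_congr fun i _ => e (w i), add_comm,
    Finset.card_filter_add_card_filter_not]
  simp

variable (C : Submodule (ZMod 2) F24) (hdim : Module.finrank (ZMod 2) C = 12)
  (horth : ∀ v ∈ C, ∀ w ∈ C, ∑ i, v i * w i = 0) (hmin : ∀ w ∈ C, w ≠ 0 → 8 ≤ hammingNorm w)

include horth in
theorem weight_even {w : F24} (hw : w ∈ C) : 2 ∣ hammingNorm w := by
  rw [← ZMod.natCast_eq_zero_iff, norm_cast_eq, horth w hw w hw]

include hdim horth in
theorem one_mem_selfDual : (1 : F24) ∈ C := by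
  classical
  let Φ : F24 →ₗ[ZMod 2] Module.Dual (ZMod 2) C :=
    { toFun := fun x =>
        { toFun := fun c => ∑ i, x i * (c : F24) i
          map_add' := fun a b => by
            simp only [Submodule.coe_add, Pi.add_apply, mul_add, Finset.sum_add_distrib]
          map_smul' := fun r a => by
            simp only [SetLike.val_smul, Pi.smul_apply, smul_eq_mul, RingHom.id_apply, Finset.mul_sum]
            exact Finset.sum_congr rfl fun i _ => by ring }
      map_add' := fun a b => by
        apply LinearMap.ext; intro c
        simp [add_mul, Finset.sum_add_distrib]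
      map_smul' := fun r a => by
        apply LinearMap.ext; intro c
        simp [Finset.mul_sum, mul_assoc] }
  have hsurj : Function.Surjective Φ := by
    intro f
    obtain ⟨g, hg⟩ := LinearMap.exists_extend f
    refine ⟨fun i => g (Pi.single i 1), LinearMap.ext fun c => ?_⟩
    rw [← hg]
    show ∑ i, g (Pi.single i 1) * (c : F24) i = g c
    conv_rhs => rw [pi_eq_sum_univ' (c : F24), map_sum]
    exact Finset.sum_congr rfl fun i _ => by rw [map_smul, smul_eq_mul, mul_comm]
  have hr : Module.finrank (ZMod 2) (LinearMap.ker Φ) = 12 := by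
    have h := Φ.finrank_range_add_finrank_ker
    rw [LinearMap.range_eq_top.2 hsurj, finrank_top, Subspace.dual_finrank_eq, hdim,
      Module.finrank_fin_fun] at h
    omega
  have hle : C ≤ LinearMap.ker Φ := fun x hx => LinearMap.mem_ker.2 (LinearMap.ext fun c => horth x hx c c.2)
  have heq := Submodule.eq_of_le_of_finrank_eq hle (hdim.trans hr.symm)
  rw [heq, LinearMap.mem_ker]
  apply LinearMap.ext; intro c
  show ∑ i, (1 : F24) i * (c : F24) i = 0
  have e : ∀ a : ZMod 2, 1 * a = a * a := by decide
  exact (Finset.sum_congr rfl fun i _ => e _).trans (horth c c.2 c c.2)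

include hdim horth hmin in
theorem weight_ne_ten {c : F24} (hc : c ∈ C) : hammingNorm c ≠ 10 := by
  classical
  intro h10
  let T := Finset.univ.filter fun i => c i ≠ 0
  have hT : T.card = 10 := h10
  let P : C →ₗ[ZMod 2] (T → ZMod 2) := (LinearMap.funLeft (ZMod 2) (ZMod 2) Subtype.val).comp C.subtype
  let S : (T → ZMod 2) →ₗ[ZMod 2] ZMod 2 := ∑ i, LinearMap.proj i
  have hrange : LinearMap.range P ≤ LinearMap.ker S := by
    rintro _ ⟨d, rfl⟩
    rw [LinearMap.mem_ker]
    simp only [S, LinearMap.sum_apply, LinearMap.proj_apply]
    show ∑ i : T, (d : F24) i = 0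
    rw [Finset.sum_coe_sort T (fun i => (d : F24) i), ← horth c hc d d.2, Finset.sum_filter]
    have e : ∀ a b : ZMod 2, (if a ≠ 0 then b else 0) = a * b := by decide
    exact Finset.sum_congr rfl fun i _ => e _ _
  have hS : Module.finrank (ZMod 2) (LinearMap.ker S) < 10 := by
    obtain ⟨t, ht⟩ := Finset.card_pos.1 (show 0 < T.card by omega)
    have hlt := Submodule.finrank_lt (s := LinearMap.ker S) (fun htop => by
      have hmem : Pi.single (⟨t, ht⟩ : T) (1 : ZMod 2) ∈ LinearMap.ker S := htop ▸ Submodule.mem_top
      simp [S, LinearMap.sum_apply] at hmem)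
    rw [Module.finrank_fintype_fun_eq_card, Fintype.card_coe, hT] at hlt
    exact hlt
  let u : C := ⟨c + 1, add_mem hc (one_mem_selfDual C hdim horth)⟩
  have hker : LinearMap.ker P ≤ ZMod 2 ∙ u := by
    intro d hd
    by_cases hd0 : d = 0
    · rw [hd0]; exact zero_mem _
    by_cases hdu : d = u
    · rw [hdu]; exact Submodule.mem_span_singleton_self _
    exfalso
    have hz : ∀ i, c i ≠ 0 → (d : F24) i = 0 := fun i hi =>
      congrFun (LinearMap.mem_ker.1 hd) ⟨i, Finset.mem_filter.2 ⟨Finset.mem_univ i, hi⟩⟩
    have hnz : (d : F24) + (u : F24) ≠ 0 := fun h => hdu (Subtype.ext (by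
      funext i
      have := congrFun h i
      revert this
      simp only [Pi.add_apply, Pi.zero_apply]
      generalize (d : F24) i = a; generalize (u : F24) i = b
      revert a b; decide))
    have h1 := hmin _ d.2 fun h => hd0 (Subtype.ext h)
    have h2 := hmin _ (add_mem d.2 u.2) hnz
    have key : hammingNorm (d : F24) + hammingNorm ((d : F24) + (u : F24)) = hammingNorm (c + 1) := by
      rw [hammingNorm, hammingNorm, hammingNorm, ← Finset.card_union_of_disjoint]
      · congr 1
        ext i
        simp only [Finset.mem_union, Finset.mem_filter, Finset.mem_univ, true_and, u, Pi.add_apply,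
          Pi.one_apply]
        have := hz i
        revert this
        generalize (d : F24) i = a; generalize c i = b
        revert a b; decide
      · rw [Finset.disjoint_left]
        intro i
        simp only [Finset.mem_filter, Finset.mem_univ, true_and, u, Pi.add_apply, Pi.one_apply]
        have := hz i
        revert this
        generalize (d : F24) i = a; generalize c i = b
        revert a b; decide
    have := norm_add_one c
    omega
  have hk : Module.finrank (ZMod 2) (LinearMap.ker P) ≤ 1 :=
    (Submodule.finrank_mono hker).trans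
      ((finrank_span_le_card ({u} : Set C)).trans (by simp))
  have h := P.finrank_range_add_finrank_ker
  have := Submodule.finrank_mono hrange
  omega

include hdim horth hmin in
theorem selfDual24_doublyEven : ∀ w ∈ C, 4 ∣ hammingNorm w := by
  intro w hw
  have h1 := one_mem_selfDual C hdim horth
  by_cases h0 : w = 0
  · simp [h0]
  obtain ⟨k, hk⟩ := weight_even C horth hw
  have a := hmin w hw h0
  have b := norm_add_one w
  by_cases h24 : w + 1 = 0
  · rw [h24, hammingNorm_zero] at b; omega
  have c := hmin _ (add_mem hw h1) h24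
  have n1 := weight_ne_ten C hdim horth hmin hw
  have n2 := weight_ne_ten C hdim horth hmin (add_mem hw h1)
  omega

end Cfsg.Agent.OddChar
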