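import Cfsg.Agent.OddChar.SelfDual24

/-! Short coset leaders of a self-dual code of length 24 and distance 8, by counting. -/

set_option autoImplicit false

namespace Cfsg.Agent.OddChar

/-- The support of a binary word of length 24. -/
def supp24 (u : F24) : Finset (Fin 24) := Finset.univ.filter fun i => u i ≠ 0

theorem card_weight (k : ℕ) :
    (Finset.univ.filter fun u : F24 => hammingNorm u = k).card = Nat.choose 24 k := by
  classical
  have h := Finset.card_powersetCard k (Finset.univ : Finset (Fin 24))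
  rw [Finset.card_univ, Fintype.card_fin] at h
  rw [← h]
  refine Finset.card_nbij' supp24 (fun s i => if i ∈ s then 1 else 0) ?_ ?_ ?_ ?_
  · intro u hu
    simp only [Finset.mem_coe, Finset.mem_filter] at hu
    simp only [Finset.mem_coe, Finset.mem_powersetCard]
    exact ⟨Finset.subset_univ _, hu.2⟩
  · intro s hs
    simp only [Finset.mem_coe, Finset.mem_powersetCard] at hs
    simp only [Finset.mem_coe, Finset.mem_filter, Finset.mem_univ, true_and, hammingNorm]
    rw [← hs.2]
    congr 1
    ext i
    simp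
  · intro u _
    funext i
    simp only [supp24, Finset.mem_filter, Finset.mem_univ, true_and]
    generalize u i = a
    revert a; decide
  · intro s _
    ext i
    simp [supp24]

variable (C : Submodule (ZMod 2) F24) (hmin : ∀ w ∈ C, w ≠ 0 → 8 ≤ hammingNorm w)

include hmin in
theorem leaders_apart {u v : F24} (hne : u ≠ v) (huv : u - v ∈ C) (hu : hammingNorm u ≤ 4)
    (hv : hammingNorm v ≤ 4) :
    hammingNorm u = 4 ∧ hammingNorm v = 4 ∧ Disjoint (supp24 u) (supp24 v) := by
  have h8 := hmin _ huv (sub_ne_zero.2 hne)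
  have hsub : supp24 (u - v) ⊆ supp24 u ∪ supp24 v := by
    intro i
    simp only [supp24, Finset.mem_filter, Finset.mem_univ, true_and, Finset.mem_union, Pi.sub_apply]
    generalize u i = a; generalize v i = b
    revert a b; decide
  have hc : hammingNorm (u - v) ≤ (supp24 u ∪ supp24 v).card := Finset.card_le_card hsub
  have hle := Finset.card_union_le (supp24 u) (supp24 v)
  have hu' : (supp24 u).card = hammingNorm u := rfl
  have hv' : (supp24 v).card = hammingNorm v := rfl
  refine ⟨by omega, by omega, ?_⟩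
  rw [← Finset.card_union_eq_card_add_card]
  omega

variable (hdim : Module.finrank (ZMod 2) C = 12)

include hmin hdim in
theorem coset_leaders (w : F24) :
    (∃ u : F24, {u : F24 | u - w ∈ C ∧ hammingNorm u ≤ 4} = {u} ∧ hammingNorm u ≤ 3) ∨
      ({u : F24 | u - w ∈ C ∧ hammingNorm u ≤ 4}.ncard = 6 ∧
        ∀ u ∈ {u : F24 | u - w ∈ C ∧ hammingNorm u ≤ 4}, hammingNorm u = 4 ∧
          ∀ v ∈ {u : F24 | u - w ∈ C ∧ hammingNorm u ≤ 4}, u ≠ v → Disjoint (supp24 u) (supp24 v)) := by
  classical
  obtain ⟨W, hW⟩ : ∃ W : Finset F24, ∀ u, u ∈ W ↔ hammingNorm u ≤ 4 :=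
    ⟨Finset.univ.filter fun u => hammingNorm u ≤ 4, fun u => by simp⟩
  let g : F24 → ℕ := fun u => if hammingNorm u = 4 then 1 else 6
  let f : (F24 ⧸ C) → Finset F24 := fun q => W.filter fun u => Submodule.Quotient.mk u = q
  haveI : Fintype (F24 ⧸ C) := Fintype.ofFinite _
  have hQ : Fintype.card (F24 ⧸ C) = 4096 := by
    rw [Module.card_eq_pow_finrank (K := ZMod 2) (V := F24 ⧸ C), ZMod.card]
    have h := C.finrank_quotient_add_finrank
    rw [hdim, Module.finrank_fin_fun] at h
    rw [show Module.finrank (ZMod 2) (F24 ⧸ C) = 12 by omega]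
    norm_num
  have hmem : ∀ {q : F24 ⧸ C} {u : F24}, u ∈ f q ↔
      hammingNorm u ≤ 4 ∧ Submodule.Quotient.mk u = q := by
    intro q u; simp [f, hW]
  have hshape : ∀ q, ∑ u ∈ f q, g u ≤ 6 ∧
      (∀ u ∈ f q, hammingNorm u ≠ 4 → f q = {u}) ∧
      (∀ u ∈ f q, ∀ v ∈ f q, u ≠ v → Disjoint (supp24 u) (supp24 v)) := by
    intro q
    have key : ∀ u ∈ f q, ∀ v ∈ f q, u ≠ v →
        hammingNorm u = 4 ∧ hammingNorm v = 4 ∧ Disjoint (supp24 u) (supp24 v) := fun u hu v hv hne =>
      leaders_apart C hmin hne
        ((Submodule.Quotient.eq C).1 ((hmem.1 hu).2.trans (hmem.1 hv).2.symm)) (hmem.1 hu).1 (hmem.1 hv).1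
    have hone : ∀ u ∈ f q, hammingNorm u ≠ 4 → f q = {u} := fun u hu hne4 =>
      Finset.eq_singleton_iff_unique_mem.2 ⟨hu, fun v hv => by
        by_contra hne
        exact hne4 (key v hv u hu hne).2.1⟩
    refine ⟨?_, hone, fun u hu v hv hne => (key u hu v hv hne).2.2⟩
    by_cases h : ∃ u ∈ f q, hammingNorm u ≠ 4
    · obtain ⟨u, hu, hne4⟩ := h
      rw [hone u hu hne4, Finset.sum_singleton]
      simp [g, hne4]
    · push Not at h
      rw [Finset.sum_congr rfl fun u hu => show g u = 1 by simp [g, h u hu], ← Finset.card_eq_sum_ones]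
      have hd : ((f q : Set F24)).PairwiseDisjoint supp24 :=
        fun u hu v hv hne => (key u hu v hv hne).2.2
      have hcard := Finset.card_biUnion hd
      rw [Finset.sum_congr rfl fun u hu => show (supp24 u).card = 4 from h u hu, Finset.sum_const,
        smul_eq_mul] at hcard
      have := Finset.card_le_univ ((f q).biUnion supp24)
      rw [hcard, Fintype.card_fin] at this
      omega
  have htot : ∑ q, ∑ u ∈ f q, g u = 24576 := by
    refine (Finset.sum_fiberwise W (fun u : F24 => (Submodule.Quotient.mk u : F24 ⧸ C)) g).trans ?_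
    have h5 : ∀ u ∈ W, hammingNorm u ∈ Finset.range 5 := fun u hu => by
      have := (hW u).1 hu; simp; omega
    have hk : ∀ k ∈ Finset.range 5, ∑ u ∈ W with hammingNorm u = k, g u
        = (if k = 4 then 1 else 6) * Nat.choose 24 k := by
      intro k hk
      have e : W.filter (fun u => hammingNorm u = k)
          = Finset.univ.filter (fun u : F24 => hammingNorm u = k) := by
        ext u
        simp only [hW, Finset.mem_filter, Finset.mem_univ, true_and]
        have := Finset.mem_range.1 hk
        omega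
      rw [e, ← card_weight k, mul_comm]
      exact (Finset.sum_congr rfl fun u hu =>
        show g u = if k = 4 then 1 else 6 by simp only [Finset.mem_filter] at hu; simp [g, hu.2]).trans
        ((Finset.sum_const _).trans (smul_eq_mul _ _))
    refine (Finset.sum_fiberwise_of_maps_to h5 g).symm.trans ((Finset.sum_congr rfl hk).trans ?_)
    simp only [Finset.sum_range_succ, Finset.sum_range_zero, Nat.choose_eq_factorial_div_factorial
      (show 4 ≤ 24 by norm_num)]
    decide
  have h6 : ∀ q, ∑ u ∈ f q, g u = 6 := by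
    by_contra h
    push Not at h
    obtain ⟨q, hq⟩ := h
    have hlt : ∑ q, ∑ u ∈ f q, g u < ∑ _q : F24 ⧸ C, 6 :=
      Finset.sum_lt_sum (fun q _ => (hshape q).1) ⟨q, Finset.mem_univ q, lt_of_le_of_ne (hshape q).1 hq⟩
    rw [htot, Finset.sum_const, Finset.card_univ, hQ] at hlt
    norm_num at hlt
  have hset : {u : F24 | u - w ∈ C ∧ hammingNorm u ≤ 4} = (f (Submodule.Quotient.mk w) : Set F24) := by
    ext u
    simp only [Set.mem_setOf_eq, Finset.mem_coe, hmem, Submodule.Quotient.eq, and_comm]
  rw [hset]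
  obtain ⟨-, hone, hdisj⟩ := hshape (Submodule.Quotient.mk w)
  by_cases h : ∃ u ∈ f (Submodule.Quotient.mk w), hammingNorm u ≠ 4
  · obtain ⟨u, hu, hne4⟩ := h
    left
    refine ⟨u, by rw [hone u hu hne4, Finset.coe_singleton], ?_⟩
    have := (hmem.1 hu).1
    omega
  · push Not at h
    right
    refine ⟨?_, fun u hu => ⟨h u hu, fun v hv hne => hdisj u hu v hv hne⟩⟩
    rw [Set.ncard_coe_finset]
    have := h6 (Submodule.Quotient.mk w)
    rwa [Finset.sum_congr rfl fun u hu => show g u = 1 by simp [g, h u hu],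
      ← Finset.card_eq_sum_ones] at this

variable (horth : ∀ v ∈ C, ∀ w ∈ C, ∑ i, v i * w i = 0)

include hmin hdim horth in
theorem octad_cover (F : Finset (Fin 24)) (hF : F.card = 5) :
    ∃ c ∈ C, hammingNorm c = 8 ∧ F ⊆ supp24 c := by
  classical
  let x : F24 := fun i => if i ∈ F then 1 else 0
  have hsx : supp24 x = F := by
    ext i; simp [supp24, x]
  have hx : hammingNorm x = 5 := by rw [← hF, ← hsx]; rfl
  obtain ⟨u, hu, hu4⟩ : ∃ u, u - x ∈ C ∧ hammingNorm u ≤ 4 := by
    rcases coset_leaders C hmin hdim x with ⟨u, hs, -⟩ | ⟨hn, -⟩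
    · exact ⟨u, (hs.symm ▸ Set.mem_singleton u : u ∈ {u : F24 | u - x ∈ C ∧ hammingNorm u ≤ 4})⟩
    · obtain ⟨v, hv⟩ := Set.nonempty_of_ncard_ne_zero (ne_of_eq_of_ne hn (by norm_num))
      exact ⟨v, hv⟩
  have hne : u - x ≠ 0 := fun h => by
    rw [sub_eq_zero] at h
    rw [h, hx] at hu4
    omega
  have h8 := hmin _ hu hne
  obtain ⟨k, hk⟩ := selfDual24_doublyEven C hdim horth hmin _ hu
  have huc : (supp24 u).card = hammingNorm u := rfl
  have hsc : (supp24 (u - x)).card = hammingNorm (u - x) := rfl
  have hsd : supp24 (u - x) = (supp24 u \ F) ∪ (F \ supp24 u) := by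
    ext i
    rw [← hsx]
    simp only [supp24, Finset.mem_filter, Finset.mem_univ, true_and, Finset.mem_union,
      Finset.mem_sdiff, Pi.sub_apply]
    generalize u i = a; generalize x i = b
    revert a b; decide
  have hd : Disjoint (supp24 u \ F) (F \ supp24 u) := disjoint_sdiff_sdiff
  have e1 := Finset.card_sdiff_add_card_inter (supp24 u) F
  have e2 := Finset.card_sdiff_add_card_inter F (supp24 u)
  rw [Finset.inter_comm] at e2
  rw [hsd, Finset.card_union_of_disjoint hd] at hsc
  refine ⟨u - x, hu, by omega, ?_⟩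
  have h0 : (supp24 u ∩ F).card = 0 := by omega
  intro i hi
  rw [hsd, Finset.mem_union, Finset.mem_sdiff, Finset.mem_sdiff]
  exact Or.inr ⟨hi, fun h => Finset.notMem_empty i
    (Finset.card_eq_zero.1 h0 ▸ Finset.mem_inter.2 ⟨h, hi⟩)⟩

include hmin in
theorem octad_unique {a b : F24} (ha : a ∈ C) (hb : b ∈ C) (ha8 : hammingNorm a = 8)
    (hb8 : hammingNorm b = 8) {F : Finset (Fin 24)} (hF : F.card = 5) (hFa : F ⊆ supp24 a)
    (hFb : F ⊆ supp24 b) : a = b := by
  classical
  by_contra hne
  have h8 := hmin _ (sub_mem ha hb) (sub_ne_zero.2 hne)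
  have hsub : supp24 (a - b) ⊆ (supp24 a \ F) ∪ (supp24 b \ F) := by
    intro i hi
    by_cases hiF : i ∈ F
    · have h1 := hFa hiF
      have h2 := hFb hiF
      exfalso
      revert hi h1 h2
      simp only [supp24, Finset.mem_filter, Finset.mem_univ, true_and, Pi.sub_apply]
      generalize a i = p; generalize b i = q
      revert p q
      decide
    · revert hi
      simp only [supp24, Finset.mem_filter, Finset.mem_univ, true_and, Finset.mem_union,
        Finset.mem_sdiff, Pi.sub_apply, hiF, not_false_eq_true, and_true]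
      generalize a i = p; generalize b i = q
      revert p q; decide
  have h1 : hammingNorm (a - b) ≤ _ := Finset.card_le_card hsub
  have h2 := Finset.card_union_le (supp24 a \ F) (supp24 b \ F)
  rw [Finset.card_sdiff_of_subset hFa, Finset.card_sdiff_of_subset hFb, hF] at h2
  have h3 : (supp24 a).card = 8 := ha8
  have h4 : (supp24 b).card = 8 := hb8
  rw [h3, h4] at h2
  omega

end Cfsg.Agent.OddChar
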