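import Cfsg.Agent.OddChar.SelfDual24Cover

/-! The octads span a self-dual code of length 24 and distance 8. -/

set_option autoImplicit false

namespace Cfsg.Agent.OddChar

variable (C : Submodule (ZMod 2) F24) (hdim : Module.finrank (ZMod 2) C = 12)
  (horth : ∀ v ∈ C, ∀ w ∈ C, ∑ i, v i * w i = 0) (hmin : ∀ w ∈ C, w ≠ 0 → 8 ≤ hammingNorm w)

include hdim horth hmin in
theorem octad_span : Submodule.span (ZMod 2) {w : F24 | w ∈ C ∧ hammingNorm w = 8} = C := by
  classical
  set D := Submodule.span (ZMod 2) {w : F24 | w ∈ C ∧ hammingNorm w = 8} with hD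
  have hle : D ≤ C := Submodule.span_le.2 fun w hw => hw.1
  refine le_antisymm hle fun w hw => ?_
  have h1 := one_mem_selfDual C hdim horth
  suffices key : ∀ n, ∀ v ∈ C, hammingNorm v = n → v ∈ D from key _ w hw rfl
  intro n
  induction n using Nat.strong_induction_on with
  | _ n ih =>
    intro v hv hn
    by_cases h0 : v = 0
    · rw [h0]; exact zero_mem _
    by_cases h8 : n = 8
    · exact Submodule.subset_span ⟨hv, hn.trans h8⟩
    have hge := hmin v hv h0
    obtain ⟨k, hk⟩ := selfDual24_doublyEven C hdim horth hmin v hv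
    have hsv : (supp24 v).card = hammingNorm v := rfl
    obtain ⟨F, hF, hF5⟩ := Finset.exists_subset_card_eq (show 5 ≤ (supp24 v).card by omega)
    obtain ⟨o, ho, ho8, hFo⟩ := octad_cover C hmin hdim horth F hF5
    have hoD : o ∈ D := Submodule.subset_span ⟨ho, ho8⟩
    have hd : supp24 (v + o) = (supp24 v \ supp24 o) ∪ (supp24 o \ supp24 v) := by
      ext i
      simp only [supp24, Finset.mem_filter, Finset.mem_univ, true_and, Finset.mem_union,
        Finset.mem_sdiff, Pi.add_apply]
      generalize v i = a; generalize o i = b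
      revert a b; decide
    have hvo : (supp24 (v + o)).card = hammingNorm (v + o) := rfl
    have hso : (supp24 o).card = hammingNorm o := rfl
    rw [hd, Finset.card_union_of_disjoint disjoint_sdiff_sdiff] at hvo
    have e1 := Finset.card_sdiff_add_card_inter (supp24 v) (supp24 o)
    have e2 := Finset.card_sdiff_add_card_inter (supp24 o) (supp24 v)
    rw [Finset.inter_comm] at e2
    have h5 := Finset.card_le_card (Finset.subset_inter hF hFo)
    have hlt : hammingNorm (v + o) < n := by omega
    have := sub_mem (ih _ hlt _ (add_mem hv ho) rfl) hoD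
    rwa [add_sub_cancel_right] at this

end Cfsg.Agent.OddChar
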