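import Cfsg.Agent.OddChar.AbelianInertia
import Cfsg.Agent.OddChar.Elem
import Cfsg.Agent.Coprime.Action
import Mathlib.GroupTheory.SpecificGroups.Cyclic.Basic
import Mathlib.Tactic.Group

/-!
A semidirect product `L = K W₁` with `W₁` cyclic and every non-identity element of `W₁` having the
same cyclic fixed-point subgroup `W₂` in `K`: the irreducible characters fixed by `W₁`.
-/

set_option autoImplicit false
set_option linter.unusedSectionVars false

open scoped Classical ComplexConjugate commutatorElement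

namespace Cfsg.Agent.OddChar

universe u

variable {L : Type u} [Group L]

/-- The hypotheses on `L = K W₁`. -/
structure SemiCyclic (K W₁ W₂ : Subgroup L) : Prop where
  inf_eq : K ⊓ W₁ = ⊥
  sup_eq : K ⊔ W₁ = ⊤
  ne₁ : W₁ ≠ ⊥
  cyclic₁ : IsCyclic W₁
  hall : Nat.Coprime (Nat.card W₁) W₁.index
  ne₂ : W₂ ≠ ⊥
  cyclic₂ : IsCyclic W₂
  le₂ : W₂ ≤ K
  centralizer_eq : ∀ x ∈ W₁, x ≠ 1 → K ⊓ Subgroup.centralizer ({x} : Set L) = W₂

variable {K W₁ W₂ : Subgroup L} [hK : K.Normal] (h : SemiCyclic K W₁ W₂)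

include h

theorem semi_decomp (g : L) : ∃ k ∈ K, ∃ a ∈ W₁, g = k * a := by
  have hg : g ∈ K ⊔ W₁ := h.sup_eq ▸ Subgroup.mem_top g
  obtain ⟨k, hk, a, ha, he⟩ := Subgroup.mem_sup_of_normal_left.mp hg
  exact ⟨k, hk, a, ha, he.symm⟩

theorem semi_eq_one {a : L} (ha : a ∈ W₁) (hk : a ∈ K) : a = 1 := by
  have h1 : a ∈ K ⊓ W₁ := ⟨hk, ha⟩
  rw [h.inf_eq] at h1
  exact h1

theorem semi_index_right [Finite L] : W₁.index = Nat.card K :=
  (Subgroup.isComplement'_of_disjoint_and_mul_eq_univ (disjoint_iff.mpr h.inf_eq) (by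
    rw [Set.eq_univ_iff_forall]
    intro g
    obtain ⟨k, hk, a, ha, rfl⟩ := semi_decomp h g
    exact Set.mul_mem_mul hk ha)).index_eq_card

theorem semi_index [Finite L] : K.index = Nat.card W₁ :=
  (Subgroup.isComplement'_of_disjoint_and_mul_eq_univ (disjoint_iff.mpr h.inf_eq) (by
    rw [Set.eq_univ_iff_forall]
    intro g
    obtain ⟨k, hk, a, ha, rfl⟩ := semi_decomp h g
    exact Set.mul_mem_mul hk ha)).symm.index_eq_card

theorem semi_coprime [Finite L] : Nat.Coprime (Nat.card W₁) (Nat.card K) :=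
  semi_index_right h ▸ h.hall

theorem semi_comm₁ {a b : L} (ha : a ∈ W₁) (hb : b ∈ W₁) : a * b = b * a := by
  haveI := h.cyclic₁
  exact congrArg Subtype.val ((IsCyclic.commGroup (α := W₁)).mul_comm ⟨a, ha⟩ ⟨b, hb⟩)

theorem semi_comm₂ {a b : L} (ha : a ∈ W₂) (hb : b ∈ W₂) : a * b = b * a := by
  haveI := h.cyclic₂
  exact congrArg Subtype.val ((IsCyclic.commGroup (α := W₂)).mul_comm ⟨a, ha⟩ ⟨b, hb⟩)

theorem semi_comm {a b : L} (ha : a ∈ W₁) (hb : b ∈ W₂) : a * b = b * a := by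
  by_cases h1 : a = 1
  · simp [h1]
  rw [← h.centralizer_eq a ha h1] at hb
  exact (mem_centralizer_singleton.mp hb.2)

theorem semi_commutator (x y : L) : x * y * x⁻¹ * y⁻¹ ∈ K := by
  obtain ⟨k, hk, a, ha, rfl⟩ := semi_decomp h x
  obtain ⟨l, hl, b, hb, rfl⟩ := semi_decomp h y
  rw [← QuotientGroup.eq_one_iff]
  simp only [QuotientGroup.mk_mul, QuotientGroup.mk_inv, (QuotientGroup.eq_one_iff _).mpr hk,
    (QuotientGroup.eq_one_iff _).mpr hl, one_mul]
  rw [← QuotientGroup.mk_inv, ← QuotientGroup.mk_inv, ← QuotientGroup.mk_mul,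
    ← QuotientGroup.mk_mul, ← QuotientGroup.mk_mul, semi_comm₁ h ha hb]
  simp

variable [Fintype L]

theorem semi_fixed_count {x : L} (hx : x ∈ W₁) (hx1 : x ≠ 1) :
    Nat.card {θ : Cfsg.IrrCharacter K // cj (θ : K → ℂ) x = θ} = Nat.card W₂ := by
  have hfixW : ∀ w : L, w ∈ W₂ → x * w * x⁻¹ = w := fun w hw => by
    rw [semi_comm h hx hw, mul_inv_cancel_right]
  have hA : Subgroup.zpowers x ≤ W₁ := Subgroup.zpowers_le.mpr hx
  have hcop : (Nat.card (Subgroup.zpowers x)).Coprime (Nat.card K) :=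
    (semi_coprime h).coprime_dvd_left (Subgroup.card_dvd_of_le hA)
  haveI : Group.IsSolvable (Subgroup.zpowers x) :=
    Group.isSolvable_of_comm fun a b => mul_comm' a b
  have hnorm : Subgroup.zpowers x ≤ Subgroup.normalizer (K : Set L) := fun a _ => by
    rw [Subgroup.normalizer_eq_top]; exact Subgroup.mem_top a
  -- each fixed class meets `W₂`
  have hmeet : ∀ n : K, IsConj (⟨x * n * x⁻¹, hK.conj_mem n n.2 x⟩ : K) n →
      ∃ w : W₂, IsConj (⟨w, h.le₂ w.2⟩ : K) n := by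
    intro n hn
    obtain ⟨c, hc⟩ := isConj_iff.mp hn
    have hc' : (c : L) * (x * n * x⁻¹) * (c : L)⁻¹ = n := congrArg Subtype.val hc
    obtain ⟨y, hy, hyS⟩ := Coprime.exists_conj_le (N := K) (A := Subgroup.zpowers x)
      (S := Subgroup.centralizer ({(n : L)} : Set L)) hnorm hcop (fun a ha => by
        have hxm : x ∈ K ⊔ Subgroup.centralizer ({(n : L)} : Set L) := by
          have h1 : (c : L) * x ∈ Subgroup.centralizer ({(n : L)} : Set L) := by
            rw [mem_centralizer_singleton]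
            have : (c : L) * x * n = n * ((c : L) * x) := by
              calc (c : L) * x * n = (c : L) * (x * n * x⁻¹) * (c : L)⁻¹ * ((c : L) * x) := by group
                _ = n * ((c : L) * x) := by rw [hc']
            first | exact this | exact this.symm
          simpa using mul_mem (Subgroup.mem_sup_left (K.inv_mem c.2)) (Subgroup.mem_sup_right h1)
        obtain ⟨u, hu', s, hs, hus⟩ :=
          Subgroup.mem_sup_of_normal_left.mp ((Subgroup.zpowers_le.mpr hxm) ha)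
        exact ⟨u⁻¹, K.inv_mem hu', by rw [← hus, inv_mul_cancel_left]; exact hs⟩)
    have h1 := mem_centralizer_singleton.mp (hyS x (Subgroup.mem_zpowers x))
    have hw : y⁻¹ * (n : L) * y ∈ W₂ := by
      rw [← h.centralizer_eq x hx hx1]
      refine ⟨by simpa using hK.conj_mem _ n.2 y⁻¹, ?_⟩
      apply mem_centralizer_singleton.mpr
      have : y⁻¹ * (n : L) * y * x = x * (y⁻¹ * (n : L) * y) := by
        symm
        calc x * (y⁻¹ * (n : L) * y) = y⁻¹ * (y * x * y⁻¹ * (n : L)) * y := by group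
          _ = y⁻¹ * ((n : L) * (y * x * y⁻¹)) * y := by first | rw [h1] | rw [← h1]
          _ = y⁻¹ * (n : L) * y * x := by group
      first | exact this | exact this.symm
    refine ⟨⟨_, hw⟩, isConj_iff.mpr ⟨⟨y, hy⟩, Subtype.ext ?_⟩⟩
    show y * (y⁻¹ * (n : L) * y) * y⁻¹ = n
    group
  -- two elements of `W₂` are conjugate in `K` only if equal
  have huniq : ∀ w w' : W₂, IsConj (⟨w, h.le₂ w.2⟩ : K) ⟨w', h.le₂ w'.2⟩ → w = w' := by
    intro w w' hc
    obtain ⟨k, hk⟩ := isConj_iff.mp hc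
    have hk' : (k : L) * w * (k : L)⁻¹ = w' := congrArg Subtype.val hk
    have hAM : Subgroup.zpowers x ≤
        Subgroup.normalizer ((K ⊓ Subgroup.centralizer ({(w : L)} : Set L) : Subgroup L) : Set L) := by
      refine Subgroup.zpowers_le.mpr (Coprime.mem_normalizer_of_conj_mem fun z hz => ?_)
      refine ⟨hK.conj_mem z hz.1 x, ?_⟩
      have hz2 := mem_centralizer_singleton.mp hz.2
      apply mem_centralizer_singleton.mpr
      have : x * z * x⁻¹ * (w : L) = (w : L) * (x * z * x⁻¹) := by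
        conv_lhs => rw [← hfixW w w.2]
        conv_rhs => rw [← hfixW w w.2]
        calc x * z * x⁻¹ * (x * (w : L) * x⁻¹) = x * (z * (w : L)) * x⁻¹ := by group
          _ = x * ((w : L) * z) * x⁻¹ := by first | rw [hz2] | rw [← hz2]
          _ = x * (w : L) * x⁻¹ * (x * z * x⁻¹) := by group
      first | exact this | exact this.symm
    have hfix : ∀ a ∈ Subgroup.zpowers x, ⁅(k : L)⁻¹, a⁆ ∈
        K ⊓ Subgroup.centralizer ({(w : L)} : Set L) := by
      intro a ha
      have hcw : ∀ v : W₂, a * (v : L) = (v : L) * a := fun v => semi_comm h (hA ha) v.2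
      rw [commutatorElement_def, inv_inv]
      refine ⟨?_, ?_⟩
      · rw [mul_assoc, mul_assoc, ← mul_assoc a]
        exact K.mul_mem (K.inv_mem k.2) (hK.conj_mem _ k.2 a)
      · apply mem_centralizer_singleton.mpr
        have : (k : L)⁻¹ * a * (k : L) * a⁻¹ * (w : L) = (w : L) * ((k : L)⁻¹ * a * (k : L) * a⁻¹) := by
          have e1 : a⁻¹ * (w : L) = (w : L) * a⁻¹ := by
            rw [eq_mul_inv_iff_mul_eq, mul_assoc, ← hcw, inv_mul_cancel_left]
          calc (k : L)⁻¹ * a * (k : L) * a⁻¹ * (w : L)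
              = (k : L)⁻¹ * a * (k : L) * ((w : L) * a⁻¹) := by rw [mul_assoc, e1]
            _ = (k : L)⁻¹ * (a * ((k : L) * (w : L) * (k : L)⁻¹)) * (k : L) * a⁻¹ := by group
            _ = (k : L)⁻¹ * ((w' : L) * a) * (k : L) * a⁻¹ := by rw [hk', hcw w']
            _ = (k : L)⁻¹ * ((k : L) * (w : L) * (k : L)⁻¹ * a) * (k : L) * a⁻¹ := by rw [hk']
            _ = (w : L) * ((k : L)⁻¹ * a * (k : L) * a⁻¹) := by group
        first | exact this | exact this.symm
    obtain ⟨m, hm, c, hc, hkmc⟩ := Coprime.exists_mul_centralizer hnorm hcop inf_le_left hAM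
      (K.inv_mem k.2) hfix
    have hcW : c ∈ W₂ := by
      rw [← h.centralizer_eq x hx hx1]
      refine ⟨hc.1, mem_centralizer_singleton.mpr ?_⟩
      have := Subgroup.mem_centralizer_iff.mp hc.2 x (Subgroup.mem_zpowers x)
      first | exact this | exact this.symm
    refine Subtype.ext ?_
    have hm2 : m * (w : L) = (w : L) * m := by
      have := mem_centralizer_singleton.mp hm.2
      first | exact this | exact this.symm
    rw [← hk', show (k : L) = c⁻¹ * m⁻¹ by rw [← mul_inv_rev, ← hkmc, inv_inv]]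
    calc (w : L) = c⁻¹ * (c * (w : L)) := by group
      _ = c⁻¹ * ((w : L) * c) := by rw [semi_comm₂ h hcW w.2]
      _ = c⁻¹ * (m⁻¹ * (m * (w : L))) * c := by group
      _ = c⁻¹ * (m⁻¹ * ((w : L) * m)) * c := by rw [hm2]
      _ = c⁻¹ * m⁻¹ * (w : L) * (c⁻¹ * m⁻¹)⁻¹ := by group
  have hfixclass : ∀ (w : W₂) (n : K), IsConj (⟨w, h.le₂ w.2⟩ : K) n →
      IsConj (⟨x * n * x⁻¹, hK.conj_mem n n.2 x⟩ : K) n := by
    intro w n hn
    obtain ⟨c, hc⟩ := isConj_iff.mp hn
    refine IsConj.trans (IsConj.symm (isConj_iff.mpr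
      ⟨⟨x * c * x⁻¹, hK.conj_mem c c.2 x⟩, ?_⟩)) hn
    refine Subtype.ext ?_
    have hc' : (c : L) * w * (c : L)⁻¹ = n := congrArg Subtype.val hc
    show x * c * x⁻¹ * (w : L) * (x * c * x⁻¹)⁻¹ = x * n * x⁻¹
    calc x * c * x⁻¹ * (w : L) * (x * c * x⁻¹)⁻¹
        = x * c * (x⁻¹ * (x * (w : L) * x⁻¹) * x) * (c : L)⁻¹ * x⁻¹ := by rw [hfixW w w.2]; group
      _ = x * ((c : L) * w * (c : L)⁻¹) * x⁻¹ := by group
      _ = x * n * x⁻¹ := by rw [hc']
  have hcount := card_fixed_mul (N := K) x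
  have hsum : (∑ n : K, if IsConj (⟨x * n * x⁻¹, hK.conj_mem n n.2 x⟩ : K) n then
      Nat.card (Subgroup.centralizer ({n} : Set K)) else 0) =
      ∑ w : W₂, ∑ n : K, if IsConj (⟨w, h.le₂ w.2⟩ : K) n then
        Nat.card (Subgroup.centralizer ({n} : Set K)) else 0 := by
    rw [Finset.sum_comm]
    refine Finset.sum_congr rfl fun n _ => ?_
    by_cases hn : IsConj (⟨x * n * x⁻¹, hK.conj_mem n n.2 x⟩ : K) n
    · obtain ⟨w₀, hw₀⟩ := hmeet n hn
      rw [if_pos hn, Finset.sum_eq_single w₀ (fun w _ hne => by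
        rw [if_neg]; exact fun hw => hne (huniq w w₀ (hw.trans hw₀.symm))) (by simp), if_pos hw₀]
    · rw [if_neg hn, Finset.sum_eq_zero]
      intro w _
      rw [if_neg fun hw => hn (hfixclass w n hw)]
  have horb : ∀ v : K, (∑ n : K, if IsConj v n then
      Nat.card (Subgroup.centralizer ({n} : Set K)) else 0) = Nat.card K := by
    intro v
    have hcl : ∑ n : K, (if IsConj v n then
        Nat.card (Subgroup.centralizer ({n} : Set K)) else 0) =
        (Finset.univ.filter (IsConj v)).card * Nat.card (Subgroup.centralizer ({v} : Set K)) := by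
      rw [← Finset.sum_filter, Finset.sum_congr rfl
        (g := fun _ => Nat.card (Subgroup.centralizer ({v} : Set K))), Finset.sum_const, smul_eq_mul]
      intro n hn
      obtain ⟨c, hc⟩ := isConj_iff.mp (Finset.mem_filter.mp hn).2
      refine (Nat.card_congr ((MulAut.conj c).toEquiv.subtypeEquiv fun y => ?_)).symm
      simp only [Subgroup.mem_centralizer_singleton_iff, MulEquiv.toEquiv_eq_coe, EquivLike.coe_coe,
        MulAut.conj_apply]
      have hcomm : ∀ a b : K, c * a * c⁻¹ * (c * b * c⁻¹) = c * (a * b) * c⁻¹ := fun a b => by group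
      rw [← hc, hcomm, hcomm, mul_left_inj, mul_right_inj]
    rw [hcl, Chars.card_filter_isConj, Subgroup.index_mul_card]
  rw [hsum, Finset.sum_congr rfl (fun w _ => horb _), Finset.sum_const, Finset.card_univ,
    smul_eq_mul, ← Nat.card_eq_fintype_card] at hcount
  exact Nat.eq_of_mul_eq_mul_right Nat.card_pos hcount

/-- A character fixed by one non-identity element of `W₁` is fixed by all. -/
theorem semi_fixed_all {θ : K → ℂ} (hθ : Cfsg.IsIrrCharacter K θ) {s : L} (hs : s ∈ W₁)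
    (hs1 : s ≠ 1) (hfix : cj θ s = θ) {x : L} (hx : x ∈ W₁) : cj θ x = θ := by
  haveI := h.cyclic₁
  obtain ⟨g, hg⟩ := IsCyclic.exists_generator (α := W₁)
  have hgen : ∀ η : Cfsg.IrrCharacter K, cj (η : K → ℂ) (g : L) = η →
      ∀ y ∈ W₁, cj (η : K → ℂ) y = η := by
    intro η hη y hy
    have hle : Subgroup.zpowers (g : L) ≤ cjStab (η : K → ℂ) :=
      Subgroup.zpowers_le.mpr (mem_cjStab.mpr hη)
    obtain ⟨i, hi⟩ := hg ⟨y, hy⟩
    exact mem_cjStab.mp (hle ⟨i, by simpa using congrArg Subtype.val hi⟩)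
  have hg1 : (g : L) ≠ 1 := by
    intro hg1
    obtain ⟨i, hi⟩ := hg ⟨s, hs⟩
    exact hs1 (by simpa [hg1] using (congrArg Subtype.val hi).symm)
  let F : {η : Cfsg.IrrCharacter K // cj (η : K → ℂ) (g : L) = η} →
      {η : Cfsg.IrrCharacter K // cj (η : K → ℂ) s = η} := fun η => ⟨η.1, hgen η.1 η.2 s hs⟩
  have hFi : Function.Injective F := fun a b hab => Subtype.ext (congrArg (fun z => z.1) hab :)
  have hF := (Nat.bijective_iff_injective_and_card F).mpr
    ⟨hFi, (semi_fixed_count h g.2 hg1).trans (semi_fixed_count h hs hs1).symm⟩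
  obtain ⟨η, hη⟩ := hF.2 ⟨⟨θ, hθ⟩, hfix⟩
  have he : η.1 = (⟨θ, hθ⟩ : Cfsg.IrrCharacter K) := congrArg (fun z => z.1) hη
  have := hgen η.1 η.2 x hx
  rw [he] at this
  exact this

theorem semi_stab_top {θ : K → ℂ} (hθ : Cfsg.IsIrrCharacter K θ)
    (hfix : ∀ x ∈ W₁, cj θ x = θ) (g : L) : cj θ g = θ := by
  obtain ⟨k, hk, a, ha, rfl⟩ := semi_decomp h g
  rw [← cj_cj, cj_of_mem (Chars.isClassFunction_of_isCharacter (Chars.isCharacter_of_isIrr hθ)) hk,
    hfix a ha]

/-- A character not fixed by `W₁` induces irreducibly. -/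
theorem semi_irr_indFun {θ : K → ℂ} (hθ : Cfsg.IsIrrCharacter K θ)
    (hmove : ∃ x ∈ W₁, cj θ x ≠ θ) : Cfsg.IsIrrCharacter L (Cfsg.indFun K θ) := by
  have hcf := Chars.isClassFunction_of_isCharacter (Chars.isCharacter_of_isIrr hθ)
  have hT : ∀ g : L, g ∈ K ↔ ∀ k : K, θ ⟨g * k * g⁻¹, hK.conj_mem k k.2 g⟩ = θ k := by
    intro g
    refine ⟨fun hg k => congrFun (cj_of_mem hcf hg) k, fun hg => ?_⟩
    obtain ⟨k, hk, a, ha, rfl⟩ := semi_decomp h g
    by_cases h1 : a = 1
    · rw [h1, mul_one]; exact hk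
    exfalso
    obtain ⟨x, hx, hne⟩ := hmove
    refine hne (semi_fixed_all h hθ ha h1 ?_ hx)
    have h2 : cj θ (k * a) = θ := funext hg
    rwa [← cj_cj, cj_of_mem hcf hk] at h2
  obtain ⟨e, C, he, hC, hcard, hexp, -, -⟩ := induced_abelian_inertia hθ hT
    (fun x _ y _ => semi_commutator h x y)
  have h1 : e ^ 2 * C.card = 1 := Nat.eq_of_mul_eq_mul_right Nat.card_pos (by rw [hcard, one_mul])
  obtain rfl : e = 1 :=
    (pow_eq_one_iff.mp (Nat.eq_one_of_mul_eq_one_right h1)).resolve_right two_ne_zero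
  obtain ⟨χ, rfl⟩ := Finset.card_eq_one.mp (by simpa using h1)
  rw [hexp]
  simpa using hC χ (Finset.mem_singleton_self χ)

/-- A character fixed by `W₁` induces to a sum of `|W₁|` distinct irreducible characters. -/
theorem semi_fixed_decomp {θ : K → ℂ} (hθ : Cfsg.IsIrrCharacter K θ)
    (hfix : ∀ x ∈ W₁, cj θ x = θ) :
    ∃ C : Finset (L → ℂ), C.card = Nat.card W₁ ∧ (∀ μ ∈ C, Cfsg.IsIrrCharacter L μ) ∧
      Cfsg.indFun K θ = ∑ μ ∈ C, μ := by
  have hT : ∀ g : L, g ∈ (⊤ : Subgroup L) ↔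
      ∀ k : K, θ ⟨g * k * g⁻¹, hK.conj_mem k k.2 g⟩ = θ k := fun g =>
    ⟨fun _ k => congrFun (semi_stab_top h hθ hfix g) k, fun _ => Subgroup.mem_top g⟩
  obtain ⟨e, C, he, hC, hcard, hexp, -, hone⟩ := induced_abelian_inertia hθ hT
    (fun x _ y _ => semi_commutator h x y)
  obtain rfl := hone (by
    rw [Subgroup.relIndex_top_right, semi_index h]
    exact (semi_coprime h).symm)
  refine ⟨C, ?_, hC, by simpa using hexp⟩
  rw [one_pow, one_mul, Subgroup.card_top, ← K.index_mul_card, semi_index h] at hcard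
  exact Nat.eq_of_mul_eq_mul_right Nat.card_pos hcard

theorem semi_fixed_count_all :
    Nat.card {θ : Cfsg.IrrCharacter K // ∀ x ∈ W₁, cj (θ : K → ℂ) x = θ} = Nat.card W₂ := by
  obtain ⟨s, hs, hs1⟩ := (Subgroup.bot_or_exists_ne_one W₁).resolve_left h.ne₁
  rw [← semi_fixed_count h hs hs1]
  exact Nat.card_congr (Equiv.subtypeEquivRight fun θ =>
    ⟨fun hall => hall s hs, fun hfix x hx => semi_fixed_all h θ.2 hs hs1 hfix hx⟩)

end Cfsg.Agent.OddChar
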