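import Mathlib.Algebra.Ring.Parity
import Cfsg.Agent.OddChar.CyclicTI
import Cfsg.Agent.OddChar.GridDecomp
import Cfsg.Agent.OddChar.Signed
import Cfsg.Agent.Chars.Gen

/-!
Existence of the family of signed irreducible characters attached to a self-normalizing cyclic
subgroup of odd order.
-/

set_option autoImplicit false
set_option linter.unusedSectionVars false

open scoped Classical ComplexConjugate

namespace Cfsg.Agent.OddChar

universe u

variable {G : Type u} [Group G] [Fintype G]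

/-- The function with prescribed integer coordinates on the irreducible characters. -/
noncomputable def irrComb (m : Cfsg.IrrCharacter G → ℤ) : G → ℂ :=
  ∑ p, m p • (p : G → ℂ)

theorem irrComb_virt (m : Cfsg.IrrCharacter G → ℤ) : Cfsg.IsGeneralizedCharacter G (irrComb m) :=
  virt_sum _ _ fun p _ => virt_zsmul (virt_of_irr p.2) _

theorem classInner_irrComb (m n : Cfsg.IrrCharacter G → ℤ) :
    Cfsg.classInner (irrComb m) (irrComb n) = (vdot m n : ℂ) := by
  simp only [irrComb, Chars.classInner_sum_left, classInner_zsmul_left, Chars.classInner_sum_right,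
    classInner_zsmul_right, Chars.classInner_irrCharacter, vdot, Int.cast_sum, Int.cast_mul]
  refine Finset.sum_congr rfl fun p _ => ?_
  rw [Finset.sum_eq_single p (fun q _ hq => by simp [hq]) (by simp)]
  simp [mul_comm]

theorem irrComb_add (m n : Cfsg.IrrCharacter G → ℤ) :
    irrComb (m + n) = irrComb m + irrComb n := by
  simp [irrComb, add_smul, Finset.sum_add_distrib]

theorem irrComb_neg (m : Cfsg.IrrCharacter G → ℤ) : irrComb (-m) = -irrComb m := by
  simp [irrComb]

variable {W₁ W₂ : Subgroup G}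

/-- The coordinates of the family on the four kinds of linear characters. -/
noncomputable def tiCoords {I J : Type*} {P : Type*} (e : P → ℤ) (X : I → P → ℤ) (Y : J → P → ℤ)
    (Z : I → J → P → ℤ) : Option I → Option J → P → ℤ
  | none, none => e
  | some i, none => -X i
  | none, some j => -Y j
  | some i, some j => Z i j

theorem ti_card_parts (hW : Cfsg.IsSelfNormalizingCyclic W₁ W₂) :
    Nat.card {φ : TIDual W₁ W₂ // TIFirst φ} = Nat.card W₁ ∧
      Nat.card {ψ : TIDual W₁ W₂ // TISecond ψ} = Nat.card W₂ := by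
  letI : CommGroup ↥(W₁ ⊔ W₂) :=
    { (inferInstance : Group ↥(W₁ ⊔ W₂)) with mul_comm := ti_comm hW }
  have hcardI : Nat.card {φ : TIDual W₁ W₂ // TIFirst φ} = Nat.card W₁ := by
    letI : CommGroup W₁ := { (inferInstance : Group W₁) with
      mul_comm := fun a b => Subtype.ext (congrArg Subtype.val
        (ti_comm hW ⟨a, Subgroup.mem_sup_left a.2⟩ ⟨b, Subgroup.mem_sup_left b.2⟩) :) }
    rw [← CommGroup.card_monoidHom_of_hasEnoughRootsOfUnity W₁ ℂ]
    refine Nat.card_congr
      { toFun := fun φ => φ.1.comp (Subgroup.inclusion le_sup_left)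
        invFun := fun μ => ⟨μ.comp (MonoidHom.codRestrict
          ((W₁ ⊔ W₂).subtype.comp (tiProjOne hW)) W₁ (tiProjOne_mem hW)), fun w hw => by
            rw [MonoidHom.comp_apply]
            convert map_one μ
            exact Subtype.ext (show ((tiProjOne hW w : ↥(W₁ ⊔ W₂)) : G) = 1 by
              rw [tiProjOne_of_mem_two hW hw]; rfl)⟩
        left_inv := fun φ => Subtype.ext (MonoidHom.ext fun w => ?_)
        right_inv := fun μ => MonoidHom.ext fun w => ?_ }
    · show φ.1 _ = _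
      conv_rhs => rw [← tiProj_mul hW w, map_mul, φ.2 _ (tiProjTwo_mem hW w), mul_one]
      rfl
    · show μ _ = _
      have h := tiProjOne_of_mem hW (w := Subgroup.inclusion le_sup_left w) w.2
      exact congrArg μ (Subtype.ext (congrArg Subtype.val h :))
  have hcardJ : Nat.card {ψ : TIDual W₁ W₂ // TISecond ψ} = Nat.card W₂ := by
    letI : CommGroup W₂ := { (inferInstance : Group W₂) with
      mul_comm := fun a b => Subtype.ext (congrArg Subtype.val
        (ti_comm hW ⟨a, Subgroup.mem_sup_right a.2⟩ ⟨b, Subgroup.mem_sup_right b.2⟩) :) }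
    rw [← CommGroup.card_monoidHom_of_hasEnoughRootsOfUnity W₂ ℂ]
    refine Nat.card_congr
      { toFun := fun φ => φ.1.comp (Subgroup.inclusion le_sup_right)
        invFun := fun μ => ⟨μ.comp (MonoidHom.codRestrict
          ((W₁ ⊔ W₂).subtype.comp (tiProjTwo hW)) W₂ (tiProjTwo_mem hW)), fun w hw => by
            rw [MonoidHom.comp_apply]
            convert map_one μ
            exact Subtype.ext (show ((tiProjTwo hW w : ↥(W₁ ⊔ W₂)) : G) = 1 by
              rw [tiProjTwo_of_mem_one hW hw]; rfl)⟩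
        left_inv := fun φ => Subtype.ext (MonoidHom.ext fun w => ?_)
        right_inv := fun μ => MonoidHom.ext fun w => ?_ }
    · show φ.1 _ = _
      conv_rhs => rw [← tiProj_mul hW w, map_mul, φ.2 _ (tiProjOne_mem hW w), one_mul]
      rfl
    · show μ _ = _
      have h := tiProjTwo_of_mem hW (w := Subgroup.inclusion le_sup_right w) w.2
      exact congrArg μ (Subtype.ext (congrArg Subtype.val h :))
  exact ⟨hcardI, hcardJ⟩

theorem exists_tiFamily (hW : Cfsg.IsSelfNormalizingCyclic W₁ W₂)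
    (hodd : Odd (Nat.card ↥(W₁ ⊔ W₂))) :
    ∃ χ : TIDual W₁ W₂ → (G → ℂ), Cfsg.IsCyclicTIFamily W₁ W₂ χ := by
  letI : CommGroup ↥(W₁ ⊔ W₂) :=
    { (inferInstance : Group ↥(W₁ ⊔ W₂)) with mul_comm := ti_comm hW }
  haveI : Finite (TIDual W₁ W₂) := Nat.finite_of_card_ne_zero (by
    rw [CommGroup.card_monoidHom_of_hasEnoughRootsOfUnity ↥(W₁ ⊔ W₂) ℂ]
    exact Nat.card_pos.ne')
  haveI := Fintype.ofFinite (TIDual W₁ W₂)
  -- the two index sets
  obtain ⟨hcardI, hcardJ⟩ := ti_card_parts hW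
  let I := {φ : {φ : TIDual W₁ W₂ // TIFirst φ} // φ.1 ≠ 1}
  let J := {ψ : {ψ : TIDual W₁ W₂ // TISecond ψ} // ψ.1 ≠ 1}
  letI : DecidableEq I := Classical.decEq _
  letI : DecidableEq J := Classical.decEq _
  have hI : Fintype.card I + 1 = Nat.card W₁ := by
    have h1 : Fintype.card I = Fintype.card {φ : TIDual W₁ W₂ // TIFirst φ} - 1 := by
      have e : I ≃ {φ : {φ : TIDual W₁ W₂ // TIFirst φ} // ¬ φ = ⟨1, tiFirst_one⟩} :=
        Equiv.subtypeEquivRight fun φ => not_congr ⟨fun h => Subtype.ext h, fun h => by rw [h]⟩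
      rw [Fintype.card_congr e, Fintype.card_subtype_compl, Fintype.card_subtype_eq]
    have h2 : 0 < Fintype.card {φ : TIDual W₁ W₂ // TIFirst φ} :=
      Fintype.card_pos_iff.mpr ⟨⟨1, tiFirst_one⟩⟩
    rw [← hcardI, Nat.card_eq_fintype_card]; omega
  have hJ : Fintype.card J + 1 = Nat.card W₂ := by
    have h1 : Fintype.card J = Fintype.card {φ : TIDual W₁ W₂ // TISecond φ} - 1 := by
      have e : J ≃ {φ : {φ : TIDual W₁ W₂ // TISecond φ} // ¬ φ = ⟨1, tiSecond_one⟩} :=
        Equiv.subtypeEquivRight fun φ => not_congr ⟨fun h => Subtype.ext h, fun h => by rw [h]⟩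
      rw [Fintype.card_congr e, Fintype.card_subtype_compl, Fintype.card_subtype_eq]
    have h2 : 0 < Fintype.card {φ : TIDual W₁ W₂ // TISecond φ} :=
      Fintype.card_pos_iff.mpr ⟨⟨1, tiSecond_one⟩⟩
    rw [← hcardJ, Nat.card_eq_fintype_card]; omega
  have hne : Nat.card W₁ ≠ Nat.card W₂ := ti_card_ne hW
  have ho1 : Odd (Nat.card W₁) := hodd.of_dvd_nat (Subgroup.card_dvd_of_le le_sup_left)
  have ho2 : Odd (Nat.card W₂) := hodd.of_dvd_nat (Subgroup.card_dvd_of_le le_sup_right)
  have hn1 : Nat.card W₁ ≠ 1 := fun h => hW.1 (Subgroup.eq_bot_of_card_eq W₁ h)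
  have hn2 : Nat.card W₂ ≠ 1 := fun h => hW.2.1 (Subgroup.eq_bot_of_card_eq W₂ h)
  rw [Nat.odd_iff] at ho1 ho2
  -- the virtual characters
  let α : I → J → G → ℂ := fun i j => Cfsg.indFun (W₁ ⊔ W₂) (tiFun i.1.1 j.1.1)
  let one : Cfsg.IrrCharacter G := ⟨fun _ => 1, Chars.isIrrCharacter_one⟩
  have hαg : ∀ i j, Cfsg.IsGeneralizedCharacter G (α i j - (one : G → ℂ)) := by
    intro i j
    refine virt_sub (Chars.isGen_indFun _ ?_) (virt_of_irr one.2)
    have he : tiFun i.1.1 j.1.1 = (fun w => ((1 : TIDual W₁ W₂) w : ℂ)) - (fun w => (i.1.1 w : ℂ)) -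
        (fun w => (j.1.1 w : ℂ)) + fun w => ((i.1.1 * j.1.1) w : ℂ) := by
      funext w; simp [tiFun]
    rw [he]
    exact virt_add (virt_sub (virt_sub (virt_of_irr (Chars.isIrrCharacter_hom _))
      (virt_of_irr (Chars.isIrrCharacter_hom _))) (virt_of_irr (Chars.isIrrCharacter_hom _)))
      (virt_of_irr (Chars.isIrrCharacter_hom _))
  have hα1 : ∀ i j, Cfsg.classInner (α i j) (one : G → ℂ) = 1 := by
    intro i j
    rw [Chars.classInner_indFun _ _ (fun _ _ => rfl)]
    have he : (fun _ : ↥(W₁ ⊔ W₂) => (1 : ℂ)) = fun w => ((1 : TIDual W₁ W₂) w : ℂ) := by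
      funext w; simp
    show Cfsg.classInner _ (fun _ : ↥(W₁ ⊔ W₂) => (1 : ℂ)) = 1
    rw [he, ← Chars.classInner_conj_symm, ti_inner_tiFun hW, if_pos rfl, if_neg (Ne.symm i.2),
      if_neg (Ne.symm j.2),
      if_neg (fun h => i.2 ((ti_mul_eq_one_iff hW i.1.2 j.1.2).mp h.symm).1)]
    simp
  have hgramC : ∀ i j k l, Cfsg.classInner (α i j - (one : G → ℂ)) (α k l - (one : G → ℂ)) =
      (if i = k then (1 : ℂ) else 0) + (if j = l then 1 else 0) + if i = k ∧ j = l then 1 else 0 := by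
    intro i j k l
    have h3 : Cfsg.classInner (one : G → ℂ) (α k l) = 1 := by
      rw [← Chars.classInner_conj_symm, hα1, map_one]
    rw [Chars.classInner_sub_left, Chars.classInner_sub_right, Chars.classInner_sub_right, hα1, h3,
      Chars.classInner_self_irr one.2, ti_inner_indFun hW (tiFun_eq_zero i.1.2 j.1.2)
        (tiFun_eq_zero k.1.2 l.1.2),
      ti_inner_tiFun_tiFun hW i.1.2 k.1.2 j.1.2 l.1.2 i.2 j.2 k.2 l.2]
    have e1 : (i.1.1 = k.1.1) = (i = k) :=
      propext ⟨fun h => Subtype.ext (Subtype.ext h), fun h => by rw [h]⟩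
    have e2 : (j.1.1 = l.1.1) = (j = l) :=
      propext ⟨fun h => Subtype.ext (Subtype.ext h), fun h => by rw [h]⟩
    simp only [e1, e2]
    ring
  obtain ⟨m, hm⟩ : ∃ m : I → J → Cfsg.IrrCharacter G → ℤ, ∀ i j,
      α i j - (one : G → ℂ) = irrComb (m i j) := by
    choose m _ hm2 _ using fun i j => exists_eq_sum_zsmul (hαg i j)
    exact ⟨m, hm2⟩
  have hgram : ∀ i j k l, vdot (m i j) (m k l) = (if i = k then (1 : ℤ) else 0) +
      (if j = l then 1 else 0) + if i = k ∧ j = l then 1 else 0 := by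
    intro i j k l
    have h := hgramC i j k l
    rw [hm, hm, classInner_irrComb] at h
    apply Int.cast_injective (α := ℂ)
    rw [h]
    push_cast
    rfl
  choose d hd0 hd using fun p : Cfsg.IrrCharacter G => Chars.exists_irr_apply_one_eq p.2
  have hdeg : ∀ i j, vdot (m i j) (fun p => (d p : ℤ)) = -1 := by
    intro i j
    have h := congrFun (hm i j) 1
    have h0 : α i j 1 = 0 := by
      simp only [α, Chars.indFun_apply_one, tiFun, map_one, Units.val_one]
      ring
    simp only [Pi.sub_apply, h0, irrComb, Finset.sum_apply, zsmul_eq_mul, Pi.mul_apply, Pi.intCast_apply,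
      hd] at h
    apply Int.cast_injective (α := ℂ)
    simp only [vdot, Int.cast_sum, Int.cast_mul, Int.cast_natCast, Int.cast_neg, Int.cast_one]
    rw [← h, ← hd]
    simp [one]
  have hdne : ∀ p : Cfsg.IrrCharacter G, (d p : ℤ) ≠ 0 := fun p => by exact_mod_cast (hd0 p).ne'
  have hm1 : ∀ i j, m i j one = 0 := by
    intro i j
    have h : Cfsg.classInner (α i j - (one : G → ℂ)) (one : G → ℂ) = 0 := by
      rw [Chars.classInner_sub_left, hα1, Chars.classInner_self_irr one.2, sub_self]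
    rw [hm, irrComb, Chars.classInner_sum_left, Finset.sum_eq_single one (fun q _ hq => by
      rw [classInner_zsmul_left, Chars.classInner_irrCharacter, if_neg hq, mul_zero]) (by simp),
      classInner_zsmul_left, Chars.classInner_irrCharacter, if_pos rfl, mul_one] at h
    exact_mod_cast h
  -- the decomposition
  obtain ⟨X, Y, Z, hXYZ, hXX, hYY, hZZ, hXY, hXZ, hYZ, hsupp⟩ :
      ∃ (X : I → Cfsg.IrrCharacter G → ℤ) (Y : J → Cfsg.IrrCharacter G → ℤ)
        (Z : I → J → Cfsg.IrrCharacter G → ℤ),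
      (∀ i j, m i j = X i + Y j + Z i j) ∧
      (∀ i k, vdot (X i) (X k) = if i = k then 1 else 0) ∧
      (∀ j l, vdot (Y j) (Y l) = if j = l then 1 else 0) ∧
      (∀ i j k l, vdot (Z i j) (Z k l) = if i = k ∧ j = l then 1 else 0) ∧
      (∀ i j, vdot (X i) (Y j) = 0) ∧ (∀ i k l, vdot (X i) (Z k l) = 0) ∧
      (∀ j k l, vdot (Y j) (Z k l) = 0) ∧
      ∀ p, (∀ i j, m i j p = 0) →
        (∀ i, X i p = 0) ∧ (∀ j, Y j p = 0) ∧ ∀ i j, Z i j p = 0 := by
    by_cases h4 : 4 ≤ Fintype.card J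
    · exact grid_decompose (by omega) (by omega) h4 m _ hdne (-1) hdeg hgram
    · obtain ⟨Y, X, Z, h1, h2, h3, h5, h6, h7, h8, h9⟩ := grid_decompose (I := J) (J := I)
        (by omega) (by omega) (by omega) (fun j i => m i j) _ hdne (-1) (fun j i => hdeg i j)
        (fun j i l k => by
          rw [hgram]
          by_cases hik : i = k <;> by_cases hjl : j = l <;> simp [hik, hjl])
      refine ⟨X, Y, fun i j => Z j i, fun i j => by rw [h1 j i, add_comm (Y j)], h3, h2,
        fun i j k l => by rw [h5]; simp [and_comm], fun i j => by rw [vdot_comm, h6],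
        fun i k l => h8 i l k, fun j k l => h7 j l k, fun p hp => ?_⟩
      obtain ⟨a, b, c⟩ := h9 p (fun j i => hp i j)
      exact ⟨b, a, fun i j => c j i⟩
  obtain ⟨hX1, hY1, hZ1⟩ := hsupp one hm1
  let e : Cfsg.IrrCharacter G → ℤ := Pi.single one 1
  have hgramT : ∀ a b a' b', vdot (tiCoords e X Y Z a b) (tiCoords e X Y Z a' b') =
      if a = a' ∧ b = b' then 1 else 0 := by
    have hneg : ∀ u v : Cfsg.IrrCharacter G → ℤ, vdot (-u) v = -vdot u v := fun u v => by
      simp [vdot]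
    have hneg' : ∀ u v : Cfsg.IrrCharacter G → ℤ, vdot u (-v) = -vdot u v := fun u v => by
      simp [vdot]
    have he : ∀ v, vdot e v = v one := fun v => by simp [vdot, e, Pi.single_apply]
    have he' : ∀ v, vdot v e = v one := fun v => by simp [vdot, e, Pi.single_apply]
    have hYX : ∀ j i, vdot (Y j) (X i) = 0 := fun j i => by rw [vdot_comm, hXY]
    have hZX : ∀ k l i, vdot (Z k l) (X i) = 0 := fun k l i => by rw [vdot_comm, hXZ]
    have hZY : ∀ k l j, vdot (Z k l) (Y j) = 0 := fun k l j => by rw [vdot_comm, hYZ]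
    rintro (_ | i) (_ | j) (_ | k) (_ | l) <;>
      simp [tiCoords, hneg, hneg', he, he', hX1, hY1, hZ1, hXX, hYY, hZZ, hXY, hYX, hXZ, hYZ,
        hZX, hZY, e]
  -- the family
  let sI : TIDual W₁ W₂ → Option I := fun ω =>
    if h : tiPartOne hW ω = 1 then none else some ⟨⟨_, tiPartOne_first hW ω⟩, h⟩
  let sJ : TIDual W₁ W₂ → Option J := fun ω =>
    if h : tiPartTwo hW ω = 1 then none else some ⟨⟨_, tiPartTwo_second hW ω⟩, h⟩
  have hsinj : ∀ ω ω', sI ω = sI ω' ∧ sJ ω = sJ ω' → ω = ω' := by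
    rintro ω ω' ⟨h1, h2⟩
    rw [← tiPart_mul hW ω, ← tiPart_mul hW ω']
    congr 1
    · simp only [sI] at h1
      split_ifs at h1 with a b b
      · rw [a, b]
      · exact congrArg (fun z : I => z.1.1) (Option.some.inj h1)
    · simp only [sJ] at h2
      split_ifs at h2 with a b b
      · rw [a, b]
      · exact congrArg (fun z : J => z.1.1) (Option.some.inj h2)
  let χ : TIDual W₁ W₂ → G → ℂ := fun ω => irrComb (tiCoords e X Y Z (sI ω) (sJ ω))
  have horth : ∀ ω ω', Cfsg.classInner (χ ω) (χ ω') = if ω = ω' then 1 else 0 := by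
    intro ω ω'
    simp only [χ, classInner_irrComb, hgramT]
    by_cases h : ω = ω'
    · subst h; simp
    · rw [if_neg h, if_neg (fun h' => h (hsinj _ _ h')), Int.cast_zero]
  have hsigned : ∀ ω, Cfsg.IsIrrCharacter G (χ ω) ∨ Cfsg.IsIrrCharacter G (-χ ω) := fun ω =>
    virt_norm_one (irrComb_virt _) (by rw [horth, if_pos rfl])
  have hpart : ∀ φ ψ : TIDual W₁ W₂, TIFirst φ → TISecond ψ →
      tiPartOne hW (φ * ψ) = φ ∧ tiPartTwo hW (φ * ψ) = ψ := fun φ ψ h1 h2 =>
    ⟨tiPartOne_mul hW h1 h2, tiPartTwo_mul hW h1 h2⟩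
  have hone : tiPartOne hW 1 = 1 ∧ tiPartTwo hW 1 = 1 :=
    ⟨MonoidHom.ext fun w => rfl, MonoidHom.ext fun w => rfl⟩
  have hmap1 : χ 1 = fun _ => 1 := by
    simp only [χ, sI, sJ, dif_pos hone.1, dif_pos hone.2, tiCoords, irrComb, e]
    rw [Finset.sum_eq_single one (fun q _ hq => by rw [Pi.single_eq_of_ne hq, zero_smul])
      (by simp), Pi.single_eq_same, one_smul]
  have hind : ∀ φ ψ : TIDual W₁ W₂, φ ≠ 1 → ψ ≠ 1 → TIFirst φ → TISecond ψ →
      Cfsg.indFun (W₁ ⊔ W₂) (tiFun φ ψ) = χ 1 - χ φ - χ ψ + χ (φ * ψ) := by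
    intro φ ψ hφ hψ h1 h2
    let i : I := ⟨⟨φ, h1⟩, hφ⟩
    let j : J := ⟨⟨ψ, h2⟩, hψ⟩
    have p1 : tiPartOne hW φ = φ ∧ tiPartTwo hW φ = 1 := by
      have := hpart φ 1 h1 tiSecond_one
      rwa [show φ * (1 : TIDual W₁ W₂) = φ from MonoidHom.ext fun _ => mul_one _] at this
    have p2 : tiPartOne hW ψ = 1 ∧ tiPartTwo hW ψ = ψ := by
      have := hpart 1 ψ tiFirst_one h2
      rwa [show (1 : TIDual W₁ W₂) * ψ = ψ from MonoidHom.ext fun _ => one_mul _] at this
    have p3 := hpart φ ψ h1 h2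
    have c1 : χ φ = -irrComb (X i) := by
      simp [χ, sI, sJ, p1.1, p1.2, hφ, tiCoords, irrComb_neg, i]
    have c2 : χ ψ = -irrComb (Y j) := by
      simp [χ, sI, sJ, p2.1, p2.2, hψ, tiCoords, irrComb_neg, j]
    have c3 : χ (φ * ψ) = irrComb (Z i j) := by
      simp [χ, sI, sJ, p3.1, p3.2, hφ, hψ, tiCoords, i, j]
    have h := hm i j
    rw [hXYZ, irrComb_add, irrComb_add, sub_eq_iff_eq_add] at h
    rw [c1, c2, c3, hmap1]
    show α i j = _
    rw [h]
    simp only [one]
    abel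
  refine ⟨χ, hsigned, fun ω ω' => by convert horth ω ω', hmap1, ?_, fun φ ψ hφ hψ h1 h2 => ?_⟩
  · intro ω w hw1 hw2
    have hc : Cfsg.IsClassFunction G (χ ω) := virt_isClassFunction (irrComb_virt _)
    have h := ti_vanish hW (g := (fun w : ↥(W₁ ⊔ W₂) => χ ω w) - fun w => (ω w : ℂ))
      (fun φ ψ h1 h2 hφ hψ => ?_) w hw1 hw2
    · exact sub_eq_zero.mp h
    · rw [Chars.classInner_sub_left, ← Chars.classInner_indFun_right _ _ hc, hind φ ψ hφ hψ h1 h2,
        Chars.classInner_add_right, Chars.classInner_sub_right, Chars.classInner_sub_right, horth,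
        horth, horth, horth, ti_inner_tiFun hW, sub_self]
  · show Cfsg.indFun (W₁ ⊔ W₂) (tiFun φ ψ) = _
    rw [hind φ ψ hφ hψ h1 h2, hmap1]
    funext g
    simp

end Cfsg.Agent.OddChar
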