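import Cfsg.Agent.OddChar.SemiCyclic
import Cfsg.Agent.OddChar.CyclicTI
import Cfsg.Agent.OddChar.TIExists
import Cfsg.Agent.Coprime.Conjugacy
import Mathlib.Algebra.Ring.Parity
import Mathlib.Tactic.Linarith
import Mathlib.Tactic.LinearCombination
import Mathlib.Tactic.Ring
import Mathlib.Tactic.FieldSimp

/-!
The irreducible characters of `L = K W₁` that do not vanish on `W` outside `W₂`: on that set each
of them is plus or minus a linear character of `W = W₁ W₂`.
-/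

set_option autoImplicit false
set_option linter.unusedSectionVars false

open scoped Classical ComplexConjugate

namespace Cfsg.Agent.OddChar

universe u

/-- An integer matrix whose columns have total spread `m - 1` has exactly one exceptional entry. -/
theorem matrix_one_exception {I J : Type*} [Fintype I] [Fintype J] (hI : 3 ≤ Fintype.card I)
    (c : I → J → ℤ)
    (h : ∑ j, ((Fintype.card I : ℤ) * ∑ i, c i j ^ 2 - (∑ i, c i j) ^ 2) =
      (Fintype.card I : ℤ) - 1) :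
    ∃ (i₀ : I) (j₀ : J) (δ : ℤ) (k : J → ℤ), (δ = 1 ∨ δ = -1) ∧
      ∀ i j, c i j = k j + if i = i₀ ∧ j = j₀ then δ else 0 := by
  set m : ℤ := (Fintype.card I : ℤ) with hmdef
  set d : J → ℤ := fun j => m * ∑ i, c i j ^ 2 - (∑ i, c i j) ^ 2 with hd
  have hid : ∀ j, ∑ i, ∑ k, (c i j - c k j) ^ 2 = 2 * d j := by
    intro j
    simp only [hd, hmdef, sub_sq, Finset.sum_add_distrib, Finset.sum_sub_distrib, Finset.sum_const,
      Finset.card_univ, nsmul_eq_mul, ← Finset.mul_sum, ← Finset.sum_mul]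
    ring
  have hnn : ∀ j, 0 ≤ d j := fun j => by
    have h1 : 0 ≤ ∑ i, ∑ k, (c i j - c k j) ^ 2 :=
      Finset.sum_nonneg fun i _ => Finset.sum_nonneg fun k _ => sq_nonneg _
    rw [hid] at h1
    linarith
  haveI : Nonempty I := Fintype.card_pos_iff.mp (by omega)
  choose M hM using fun j => Finite.exists_max (fun i => c i j)
  set A : J → Finset I := fun j => Finset.univ.filter (fun i => c i j = c (M j) j) with hA
  set B : J → Finset I := fun j => Finset.univ.filter (fun i => ¬ c i j = c (M j) j) with hB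
  have hAB : ∀ j, ((A j).card : ℤ) + (B j).card = m := fun j => by
    simp only [hA, hB, hmdef]
    exact_mod_cast Finset.card_filter_add_card_filter_not _
  have hsplit : ∀ j, (∑ i ∈ A j, ∑ k ∈ B j, (c i j - c k j) ^ 2) ≤ d j := by
    intro j
    have hs : ∀ g : I → ℤ, ∑ i, g i = ∑ i ∈ A j, g i + ∑ i ∈ B j, g i := fun g =>
      (Finset.sum_filter_add_sum_filter_not _ _ _).symm
    have h1 := hid j
    simp only [hs, Finset.sum_add_distrib] at h1
    have h2 : ∑ i ∈ B j, ∑ k ∈ A j, (c i j - c k j) ^ 2 =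
        ∑ i ∈ A j, ∑ k ∈ B j, (c i j - c k j) ^ 2 := by
      rw [Finset.sum_comm]
      exact Finset.sum_congr rfl fun i _ => Finset.sum_congr rfl fun k _ => by ring
    have h3 : 0 ≤ ∑ i ∈ B j, ∑ k ∈ B j, (c i j - c k j) ^ 2 :=
      Finset.sum_nonneg fun i _ => Finset.sum_nonneg fun k _ => sq_nonneg _
    have h4 : 0 ≤ ∑ i ∈ A j, ∑ k ∈ A j, (c i j - c k j) ^ 2 :=
      Finset.sum_nonneg fun i _ => Finset.sum_nonneg fun k _ => sq_nonneg _
    rw [h2] at h1
    linarith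
  have hone : ∀ j, ∀ i ∈ A j, ∀ k ∈ B j, 1 ≤ (c i j - c k j) ^ 2 := by
    intro j i hi k hk
    have h1 : c i j = c (M j) j := (Finset.mem_filter.mp hi).2
    have h2 : c k j ≠ c (M j) j := (Finset.mem_filter.mp hk).2
    have h3 := hM j k
    have h4 : 1 ≤ c i j - c k j := by omega
    nlinarith
  have hAne : ∀ j, 1 ≤ (A j).card := fun j =>
    Finset.card_pos.mpr ⟨M j, by simp [hA]⟩
  have hlow : ∀ j, ((A j).card : ℤ) * (B j).card ≤ d j := by
    intro j
    refine le_trans ?_ (hsplit j)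
    calc ((A j).card : ℤ) * (B j).card = ∑ _i ∈ A j, ∑ _k ∈ B j, (1 : ℤ) := by simp
      _ ≤ _ := Finset.sum_le_sum fun i hi => Finset.sum_le_sum fun k hk => hone j i hi k hk
  have hbig : ∀ j, (B j).Nonempty → m - 1 ≤ d j := by
    intro j hj
    refine le_trans ?_ (hlow j)
    have h1 : (1 : ℤ) ≤ (B j).card := by exact_mod_cast hj.card_pos
    have h2 : (1 : ℤ) ≤ (A j).card := by exact_mod_cast hAne j
    nlinarith [hAB j]
  have hconst : ∀ j, ¬ (B j).Nonempty → ∀ i, c i j = c (M j) j := by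
    intro j hj i
    by_contra hne
    exact hj ⟨i, by simp [hB, hne]⟩
  obtain ⟨j₀, hj₀⟩ : ∃ j, (B j).Nonempty := by
    by_contra hno
    push Not at hno
    have hzero : ∀ j, d j = 0 := by
      intro j
      have hc : ∀ i, c i j = c (M j) j := hconst j (by rw [hno j]; exact Finset.not_nonempty_empty)
      simp only [hd, hc, Finset.sum_const, Finset.card_univ, nsmul_eq_mul, hmdef]
      ring
    have h0 : ∑ j, d j = m - 1 := h
    simp only [hzero, Finset.sum_const_zero] at h0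
    omega
  have hsum : d j₀ + ∑ j ∈ Finset.univ.erase j₀, d j = m - 1 := by
    rw [Finset.add_sum_erase _ _ (Finset.mem_univ j₀)]; exact h
  have hrest0 : 0 ≤ ∑ j ∈ Finset.univ.erase j₀, d j := Finset.sum_nonneg fun j _ => hnn j
  have hd0 : d j₀ = m - 1 := le_antisymm (by omega) (hbig j₀ hj₀)
  have hother : ∀ j, j ≠ j₀ → ∀ i, c i j = c (M j) j := by
    intro j hj
    refine hconst j fun hne => ?_
    have h1 := Finset.single_le_sum (f := d) (fun j _ => hnn j)
      (Finset.mem_erase.mpr ⟨hj, Finset.mem_univ j⟩)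
    have h2 := hbig j hne
    omega
  have hB1 : (1 : ℤ) ≤ (B j₀).card := by exact_mod_cast hj₀.card_pos
  have hA1 : (1 : ℤ) ≤ (A j₀).card := by exact_mod_cast hAne j₀
  have hprod : ((A j₀).card : ℤ) * (B j₀).card = m - 1 :=
    le_antisymm (hd0 ▸ hlow j₀) (by nlinarith [hAB j₀])
  have hdiff : ∀ i ∈ A j₀, ∀ k ∈ B j₀, c i j₀ - c k j₀ = 1 := by
    intro i hi k hk
    have h1 : ∑ i ∈ A j₀, ∑ k ∈ B j₀, ((c i j₀ - c k j₀) ^ 2 - 1) ≤ 0 := by
      simp only [Finset.sum_sub_distrib, Finset.sum_const, nsmul_eq_mul, mul_one]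
      linarith [hsplit j₀]
    have hnn' : ∀ i ∈ A j₀, ∀ k ∈ B j₀, 0 ≤ (c i j₀ - c k j₀) ^ 2 - 1 := fun i hi k hk => by
      linarith [hone j₀ i hi k hk]
    have h2 := Finset.single_le_sum (f := fun i => ∑ k ∈ B j₀, ((c i j₀ - c k j₀) ^ 2 - 1))
      (fun i hi => Finset.sum_nonneg (hnn' i hi)) hi
    have h3 := Finset.single_le_sum (f := fun k => (c i j₀ - c k j₀) ^ 2 - 1) (hnn' i hi) hk
    have h4 : (c i j₀ - c k j₀) ^ 2 = 1 := le_antisymm (by linarith) (hone j₀ i hi k hk)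
    have h5 := hM j₀ k
    have h6 : c i j₀ = c (M j₀) j₀ := (Finset.mem_filter.mp hi).2
    rcases sq_eq_one_iff.mp h4 with e | e
    · exact e
    · omega
  obtain ⟨k₁, hk₁⟩ := hj₀
  have hM0 : M j₀ ∈ A j₀ := by simp [hA]
  have hfac : ((A j₀).card : ℤ) = 1 ∨ ((B j₀).card : ℤ) = 1 := by
    have : (((A j₀).card : ℤ) - 1) * ((B j₀).card - 1) = 0 := by linarith [hAB j₀]
    rcases mul_eq_zero.mp this with e | e
    · left; omega
    · right; omega
  rcases hfac with e | e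
  · obtain ⟨i₀, hi₀⟩ := Finset.card_eq_one.mp (show (A j₀).card = 1 by exact_mod_cast e)
    refine ⟨i₀, j₀, 1, Function.update (fun j => c (M j) j) j₀ (c (M j₀) j₀ - 1), Or.inl rfl, ?_⟩
    intro i j
    by_cases hj : j = j₀
    · subst hj
      rw [Function.update_self]
      by_cases hi : c i j = c (M j) j
      · have : i ∈ A j := by simp [hA, hi]
        rw [hi₀, Finset.mem_singleton] at this
        rw [if_pos ⟨this, rfl⟩, hi]; ring
      · have hiB : i ∈ B j := by simp [hB, hi]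
        have hne : i ≠ i₀ := fun h' => hi (by
          have : i ∈ A j := by rw [hi₀, h']; exact Finset.mem_singleton_self i₀
          simpa [hA] using this)
        rw [if_neg fun h' => hne h'.1]
        linarith [hdiff _ hM0 i hiB]
    · rw [Function.update_of_ne hj, if_neg fun h' => hj h'.2, add_zero]
      exact hother j hj i
  · obtain ⟨i₀, hi₀⟩ := Finset.card_eq_one.mp (show (B j₀).card = 1 by exact_mod_cast e)
    refine ⟨i₀, j₀, -1, fun j => c (M j) j, Or.inr rfl, ?_⟩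
    intro i j
    by_cases hj : j = j₀
    · subst hj
      by_cases hi : i = i₀
      · rw [if_pos ⟨hi, rfl⟩]
        have hiB : i ∈ B j := by rw [hi₀, hi]; exact Finset.mem_singleton_self i₀
        linarith [hdiff _ hM0 i hiB]
      · rw [if_neg fun h' => hi h'.1, add_zero]
        by_contra hne
        have : i ∈ B j := by simp [hB, hne]
        rw [hi₀, Finset.mem_singleton] at this
        exact hi this
    · rw [if_neg fun h' => hj h'.2, add_zero]
      exact hother j hj i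

/-- The quadratic form of a grid with row-blind correction. -/
theorem pair_quadratic {I J : Type*} [Fintype I] [Fintype J] (c : I → J → ℂ) (t : ℂ) :
    ∑ p : I × J, ∑ q : I × J, c p.1 p.2 * c q.1 q.2 *
        ((if p = q then 1 else 0) - t * if p.2 = q.2 then 1 else 0) =
      ∑ j, ∑ i, c i j ^ 2 - t * ∑ j, (∑ i, c i j) ^ 2 := by
  have h1 : ∀ p : I × J, ∑ q : I × J, c p.1 p.2 * c q.1 q.2 *
      ((if p = q then 1 else 0) - t * if p.2 = q.2 then 1 else 0) =
      c p.1 p.2 ^ 2 - t * (c p.1 p.2 * ∑ i, c i p.2) := by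
    intro p
    simp only [mul_sub, Finset.sum_sub_distrib]
    congr 1
    · rw [Finset.sum_eq_single p (fun q _ hq => by simp [Ne.symm hq]) (by simp)]
      simp [sq]
    · rw [Fintype.sum_prod_type_right, Finset.sum_eq_single p.2
        (fun j _ hj => Finset.sum_eq_zero fun i _ => by simp [Ne.symm hj]) (by simp)]
      simp only [if_true, mul_one, Finset.mul_sum]
      exact Finset.sum_congr rfl fun i _ => by ring
  simp only [h1, Finset.sum_sub_distrib, Fintype.sum_prod_type_right, ← Finset.mul_sum, sq,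
    Finset.sum_mul]

variable {L : Type u} [Group L] {K W₁ W₂ : Subgroup L} [hK : K.Normal]
  (h : SemiCyclic K W₁ W₂)

include h

theorem semi_split {w : L} (hw : w ∈ W₁ ⊔ W₂) : ∃ a ∈ W₁, ∃ b ∈ W₂, w = a * b := by
  have hle : W₂ ≤ Subgroup.normalizer (W₁ : Set L) := fun b hb => by
    refine Subgroup.centralizer_le_normalizer _ ?_
    rw [Subgroup.mem_centralizer_iff]
    exact fun a ha => semi_comm h ha hb
  rw [← SetLike.mem_coe, Subgroup.coe_mul_of_right_le_normalizer_left W₁ W₂ hle] at hw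
  obtain ⟨a, ha, b, hb, hab⟩ := Set.mem_mul.mp hw
  exact ⟨a, ha, b, hb, hab.symm⟩

theorem semi_comm_sup {v w : L} (hv : v ∈ W₁ ⊔ W₂) (hw : w ∈ W₁ ⊔ W₂) : v * w = w * v := by
  obtain ⟨a, ha, b, hb, rfl⟩ := semi_split h hv
  obtain ⟨a', ha', b', hb', rfl⟩ := semi_split h hw
  have e1 : Commute a a' := semi_comm₁ h ha ha'
  have e2 : Commute a b' := semi_comm h ha hb'
  have e3 : Commute b a' := (semi_comm h ha' hb).symm
  have e4 : Commute b b' := semi_comm₂ h hb hb'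
  exact ((e1.mul_right e2).mul_left (e3.mul_right e4)).eq

theorem semi_inter_K {w : L} (hw : w ∈ W₁ ⊔ W₂) (hk : w ∈ K) : w ∈ W₂ := by
  obtain ⟨a, ha, b, hb, rfl⟩ := semi_split h hw
  rw [semi_eq_one h ha ((K.mul_mem_cancel_right (h.le₂ hb)).mp hk), one_mul]
  exact hb

variable [Fintype L]

theorem semi_conj_mem {g v : L} (hv : v ∈ W₁ ⊔ W₂) (hv2 : v ∉ W₂)
    (hg : g * v * g⁻¹ ∈ W₁ ⊔ W₂) : g ∈ W₁ ⊔ W₂ := by
  obtain ⟨a, ha, b, hb, rfl⟩ := semi_split h hv
  obtain ⟨a', ha', b', hb', he⟩ := semi_split h hg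
  obtain ⟨e, he1, he0⟩ := Nat.chineseRemainder (semi_coprime h) 1 0
  have hpowA : ∀ x ∈ W₁, x ^ e = x := by
    intro x hx
    have h1 : x ^ Nat.card W₁ = 1 :=
      (SubmonoidClass.coe_pow (⟨x, hx⟩ : W₁) _).symm.trans (congrArg Subtype.val pow_card_eq_one')
    conv_rhs => rw [← pow_one x]
    exact pow_eq_pow_iff_modEq.mpr (he1.of_dvd (orderOf_dvd_of_pow_eq_one h1))
  have hpowB : ∀ x ∈ W₂, x ^ e = 1 := by
    intro x hx
    have h1 : x ^ Nat.card K = 1 :=
      (SubmonoidClass.coe_pow (⟨x, h.le₂ hx⟩ : K) _).symm.trans (congrArg Subtype.val pow_card_eq_one')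
    obtain ⟨t, ht⟩ := Nat.modEq_zero_iff_dvd.mp he0
    rw [ht, pow_mul, h1, one_pow]
  have hpow := congrArg (· ^ e) he
  simp only [conj_pow, (show Commute a b from semi_comm h ha hb).mul_pow,
    (show Commute a' b' from semi_comm h ha' hb').mul_pow, hpowA a ha, hpowA a' ha', hpowB b hb,
    hpowB b' hb', mul_one] at hpow
  have heq : a' = a := by
    have h1 : a' * a⁻¹ ∈ K := by rw [← hpow]; exact semi_commutator h g a
    exact mul_inv_eq_one.mp (semi_eq_one h (mul_mem ha' (inv_mem ha)) h1)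
  rw [heq] at hpow
  have hga : g * a = a * g := mul_inv_eq_iff_eq_mul.mp hpow
  obtain ⟨k, hk, a'', ha'', rfl⟩ := semi_decomp h g
  have hane : a ≠ 1 := fun h1 => hv2 (by rw [h1, one_mul]; exact hb)
  have hka : k * a = a * k := mul_right_cancel (b := a'')
    (by rw [mul_assoc k a, ← semi_comm₁ h ha'' ha, ← mul_assoc, hga, mul_assoc])
  have hkW : k ∈ W₂ := by
    rw [← h.centralizer_eq a ha hane]
    refine ⟨hk, mem_centralizer_singleton.mpr ?_⟩
    first | exact hka | exact hka.symm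
  exact mul_mem (Subgroup.mem_sup_right hkW) (Subgroup.mem_sup_left ha'')

theorem semi_selfNormalizing : Cfsg.IsSelfNormalizingCyclic W₁ W₂ := by
  have hinf : W₁ ⊓ W₂ = ⊥ := le_bot_iff.mp (h.inf_eq ▸ le_inf (inf_le_right.trans h.le₂) inf_le_left)
  refine ⟨h.ne₁, h.ne₂, hinf, fun a ha b hb => semi_comm h ha hb, ?_, ?_⟩
  · haveI := h.cyclic₁
    haveI := h.cyclic₂
    obtain ⟨a, ha⟩ := IsCyclic.exists_ofOrder_eq_natCard (α := W₁)
    obtain ⟨b, hb⟩ := IsCyclic.exists_ofOrder_eq_natCard (α := W₂)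
    have hW2n : W₂ ≤ Subgroup.normalizer (W₁ : Set L) := fun x hx => by
      refine Subgroup.centralizer_le_normalizer _ ?_
      rw [Subgroup.mem_centralizer_iff]
      exact fun y hy => semi_comm h hy hx
    have hord : orderOf ((a : L) * b) = Nat.card ↥(W₁ ⊔ W₂) := by
      rw [Coprime.card_sup hW2n hinf,
        Commute.orderOf_mul_eq_mul_orderOf_of_coprime (x := (a : L)) (semi_comm h a.2 b.2),
        Subgroup.orderOf_coe, Subgroup.orderOf_coe, ha, hb]
      rw [Subgroup.orderOf_coe, Subgroup.orderOf_coe, ha, hb]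
      exact (semi_coprime h).coprime_dvd_right (Subgroup.card_dvd_of_le h.le₂)
    exact isCyclic_of_orderOf_eq_card
      (⟨(a : L) * b, mul_mem (Subgroup.mem_sup_left a.2) (Subgroup.mem_sup_right b.2)⟩ : ↥(W₁ ⊔ W₂))
      (by rw [← Subgroup.orderOf_coe]; exact hord)
  · intro X hX hne
    apply le_antisymm
    · intro g hg
      obtain ⟨x, hx⟩ := hne
      have hg' := (Subgroup.mem_set_normalizer_iff.mp hg x).mp hx
      exact semi_conj_mem h (hX hx).1 (fun h2 => (hX hx).2 (Or.inr h2)) (hX hg').1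
    · intro g hg
      rw [Subgroup.mem_set_normalizer_iff]
      intro y
      constructor
      · intro hy
        rwa [semi_comm_sup h hg (hX hy).1, mul_inv_cancel_right]
      · intro hy
        have h1 : g⁻¹ * (g * y * g⁻¹) * g = g * y * g⁻¹ := by
          rw [semi_comm_sup h (inv_mem hg) (hX hy).1, mul_assoc, inv_mul_cancel, mul_one]
        have h2 : g⁻¹ * (g * y * g⁻¹) * g = y := by group
        rw [← h2, h1]; exact hy

theorem semi_card_sup : Nat.card ↥(W₁ ⊔ W₂) = Nat.card W₁ * Nat.card W₂ := by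
  refine Coprime.card_sup (fun b hb => ?_) (semi_selfNormalizing h).2.2.1
  refine Subgroup.centralizer_le_normalizer _ ?_
  rw [Subgroup.mem_centralizer_iff]
  exact fun a ha => semi_comm h ha hb

/-- Induction of a function vanishing on `W₂` restricts to it off `W₂`. -/
theorem semi_indFun_apply {f : ↥(W₁ ⊔ W₂) → ℂ}
    (hf : ∀ w : ↥(W₁ ⊔ W₂), (w : L) ∈ W₂ → f w = 0)
    (w : ↥(W₁ ⊔ W₂)) (h2 : (w : L) ∉ W₂) : Cfsg.indFun (W₁ ⊔ W₂) f w = f w := by
  rw [Chars.indFun_apply]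
  have hterm : ∀ x : L, Cfsg.extendByZero (W₁ ⊔ W₂) f (x⁻¹ * w * x) =
      if x ∈ W₁ ⊔ W₂ then f w else 0 := by
    intro x
    split_ifs with hx
    · have h1 : x⁻¹ * (w : L) * x = w := by
        rw [mul_assoc, semi_comm_sup h w.2 hx, inv_mul_cancel_left]
      rw [h1, Chars.extendByZero_coe]
    · refine Chars.extendByZero_of_not_mem _ _ fun hm => hx ?_
      have := semi_conj_mem h (g := x⁻¹) w.2 h2 (by rwa [inv_inv])
      simpa using this
  simp only [hterm]
  rw [Finset.sum_ite, Finset.sum_const_zero, add_zero, Finset.sum_const, nsmul_eq_mul]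
  have hc : (Finset.univ.filter fun x => x ∈ W₁ ⊔ W₂).card = Nat.card ↥(W₁ ⊔ W₂) := by
    rw [Nat.card_eq_fintype_card, Fintype.card_subtype]
  rw [hc, ← mul_assoc, inv_mul_cancel₀ (Chars.subgroup_card_ne_zero _), one_mul]

theorem semi_indFun_zero {f : ↥(W₁ ⊔ W₂) → ℂ}
    (hf : ∀ w : ↥(W₁ ⊔ W₂), (w : L) ∈ W₂ → f w = 0) {g : L} (hg : g ∈ K) :
    Cfsg.indFun (W₁ ⊔ W₂) f g = 0 := by
  rw [Chars.indFun_apply, Finset.sum_eq_zero, mul_zero]
  intro x _
  by_cases hm : x⁻¹ * g * x ∈ W₁ ⊔ W₂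
  · rw [Chars.extendByZero_of_mem _ _ hm]
    exact hf _ (semi_inter_K h hm (hK.conj_mem' g hg x))
  · exact Chars.extendByZero_of_not_mem _ _ hm

/-- Outside `K` every element is conjugate into `W` outside `W₂`. -/
theorem semi_cover {g : L} (hg : g ∉ K) :
    ∃ (x : L) (v : ↥(W₁ ⊔ W₂)), (v : L) ∉ W₂ ∧ g = x * v * x⁻¹ := by
  let P : Finset (L × ↥(W₁ ⊔ W₂)) := Finset.univ ×ˢ (Finset.univ.filter fun v : ↥(W₁ ⊔ W₂) => (v : L) ∉ W₂)
  let f : L × ↥(W₁ ⊔ W₂) → L := fun p => p.1 * (p.2 : L) * p.1⁻¹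
  have hfib : ∀ y ∈ P.image f, (P.filter fun p => f p = y).card = Nat.card ↥(W₁ ⊔ W₂) := by
    intro y hy
    obtain ⟨⟨x, v⟩, hp, rfl⟩ := Finset.mem_image.mp hy
    have hv : (v : L) ∉ W₂ := (Finset.mem_filter.mp (Finset.mem_product.mp hp).2).2
    rw [Nat.card_eq_fintype_card, ← Finset.card_univ]
    symm
    refine Finset.card_bij (fun w _ => ((x * (w : L), v) : L × ↥(W₁ ⊔ W₂))) ?_ ?_ ?_
    · intro w _
      simp only [Finset.mem_filter, P, Finset.mem_product, Finset.mem_univ, true_and]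
      refine ⟨hv, ?_⟩
      show x * (w : L) * v * (x * w)⁻¹ = x * v * x⁻¹
      rw [mul_assoc x (w : L), semi_comm_sup h w.2 v.2]; group
    · intro w _ w' _ he
      exact Subtype.ext (mul_left_cancel (congrArg Prod.fst he))
    · rintro ⟨x', v'⟩ hp'
      simp only [Finset.mem_filter, P, Finset.mem_product, Finset.mem_univ, true_and, f] at hp'
      have hv' : (x'⁻¹ * x) * (v : L) * (x'⁻¹ * x)⁻¹ = v' := by
        calc (x'⁻¹ * x) * (v : L) * (x'⁻¹ * x)⁻¹ = x'⁻¹ * (x * v * x⁻¹) * x' := by group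
          _ = v' := by rw [← hp'.2]; group
      have hmem := semi_conj_mem h v.2 hv (hv'.symm ▸ v'.2)
      have hvv : (v' : L) = v := by
        rw [← hv', semi_comm_sup h hmem v.2, mul_inv_cancel_right]
      refine ⟨⟨x⁻¹ * x', by simpa using inv_mem hmem⟩, Finset.mem_univ _, ?_⟩
      exact Prod.ext (mul_inv_cancel_left x x') (Subtype.ext hvv).symm
  have hcard : P.card = (P.image f).card * Nat.card ↥(W₁ ⊔ W₂) := by
    rw [Finset.card_eq_sum_card_image f P, Finset.sum_congr rfl hfib, Finset.sum_const, smul_eq_mul]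
  have hP : P.card = Nat.card L * (Nat.card ↥(W₁ ⊔ W₂) - Nat.card W₂) := by
    simp only [P, Finset.card_product, Finset.card_univ, Nat.card_eq_fintype_card]
    congr 1
    rw [Finset.filter_not, Finset.card_univ_diff, ← Fintype.card_subtype]
    congr 1
    exact Fintype.card_congr ⟨fun w => ⟨_, w.2⟩, fun b => ⟨⟨b, Subgroup.mem_sup_right b.2⟩, b.2⟩,
      fun _ => rfl, fun _ => rfl⟩
  have hL : Nat.card L = Nat.card W₁ * Nat.card K := by rw [← semi_index h, K.index_mul_card]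
  have hsub : P.image f ⊆ Finset.univ.filter (fun y => y ∉ K) := by
    intro y hy
    obtain ⟨⟨x, v⟩, hp, rfl⟩ := Finset.mem_image.mp hy
    refine Finset.mem_filter.mpr ⟨Finset.mem_univ _, fun hk => ?_⟩
    refine (Finset.mem_filter.mp (Finset.mem_product.mp hp).2).2 (semi_inter_K h v.2 ?_)
    have := hK.conj_mem' _ hk x
    simpa [f, mul_assoc] using this
  have hm : 0 < Nat.card W₁ := Nat.card_pos
  have hn : 0 < Nat.card W₂ := Nat.card_pos
  have hcount : (Finset.univ.filter (fun y : L => y ∉ K)).card ≤ (P.image f).card := by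
    rw [Finset.filter_not, Finset.card_univ_diff, ← Fintype.card_subtype, ← Nat.card_eq_fintype_card,
      ← Nat.card_eq_fintype_card]
    show Nat.card L - Nat.card K ≤ _
    rw [hP, semi_card_sup h, hL] at hcard
    refine le_of_eq (Nat.eq_of_mul_eq_mul_right (Nat.mul_pos hm hn) ?_)
    rw [← hcard, hL, Nat.sub_mul, Nat.mul_sub]
    congr 1 <;> ring
  have hmem : g ∈ P.image f := by
    rw [Finset.eq_of_subset_of_card_le hsub hcount]; simpa using hg
  obtain ⟨⟨x, v⟩, hp, rfl⟩ := Finset.mem_image.mp hmem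
  exact ⟨x, v, (Finset.mem_filter.mp (Finset.mem_product.mp hp).2).2, rfl⟩

/-- The average over `L ∖ K` is the average over `W ∖ W₂`. -/
theorem semi_avg {F : L → ℂ} (hF : Cfsg.IsClassFunction L F) :
    (Nat.card L : ℂ)⁻¹ * ∑ g : L, (if g ∈ K then 0 else F g) =
      (Nat.card ↥(W₁ ⊔ W₂) : ℂ)⁻¹ * ∑ w : ↥(W₁ ⊔ W₂), if (w : L) ∈ W₂ then 0 else F w := by
  let f : ↥(W₁ ⊔ W₂) → ℂ := fun w => if (w : L) ∈ W₂ then 0 else F w
  have hf : ∀ w : ↥(W₁ ⊔ W₂), (w : L) ∈ W₂ → f w = 0 := fun w hw => if_pos hw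
  have hind : ∀ g : L, Cfsg.indFun (W₁ ⊔ W₂) f g = if g ∈ K then 0 else F g := by
    intro g
    split_ifs with hg
    · exact semi_indFun_zero h hf hg
    · obtain ⟨x, v, hv, rfl⟩ := semi_cover h hg
      rw [Chars.isClassFunction_indFun (W₁ ⊔ W₂) f v x, semi_indFun_apply h hf v hv, hF v x]
      exact if_neg hv
  have h1 := Chars.classInner_indFun (W₁ ⊔ W₂) f (χ := fun _ => (1 : ℂ)) (fun _ _ => rfl)
  simp only [Chars.classInner_def, hind, map_one, mul_one] at h1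
  exact h1

variable (hodd : Odd (Nat.card ↥(W₁ ⊔ W₂)))
include hodd

theorem semi_three_le : 3 ≤ Nat.card W₁ := by
  have h1 : Odd (Nat.card W₁) := hodd.of_dvd_nat (Subgroup.card_dvd_of_le le_sup_left)
  have h2 : Nat.card W₁ ≠ 1 := fun h' => h.ne₁ (Subgroup.eq_bot_of_card_eq W₁ h')
  rw [Nat.odd_iff] at h1
  omega

omit hodd

/-- The inner product over `W ∖ W₂`. -/
theorem semi_inner_dual {φ φ' ψ ψ' : TIDual W₁ W₂} (hφ : TIFirst φ) (hφ' : TIFirst φ')
    (hψ : TISecond ψ) (hψ' : TISecond ψ') :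
    (Nat.card ↥(W₁ ⊔ W₂) : ℂ)⁻¹ * ∑ w : ↥(W₁ ⊔ W₂),
        (if (w : L) ∈ W₂ then 0 else ((φ * ψ) w : ℂ) * conj ((φ' * ψ') w : ℂ)) =
      (if φ = φ' ∧ ψ = ψ' then (1 : ℂ) else 0) -
        (Nat.card W₁ : ℂ)⁻¹ * if ψ = ψ' then 1 else 0 := by
  have hW := semi_selfNormalizing h
  haveI : Finite (TIDual W₁ W₂) := by
    letI : CommGroup ↥(W₁ ⊔ W₂) :=
      { (inferInstance : Group ↥(W₁ ⊔ W₂)) with mul_comm := ti_comm hW }
    exact Nat.finite_of_card_ne_zero (by
      rw [CommGroup.card_monoidHom_of_hasEnoughRootsOfUnity ↥(W₁ ⊔ W₂) ℂ]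
      exact Nat.card_pos.ne')
  haveI := Fintype.ofFinite (TIDual W₁ W₂)
  haveI := Fintype.ofFinite {φ : TIDual W₁ W₂ // TIFirst φ}
  obtain ⟨hcI, -⟩ := ti_card_parts hW
  have hind : ∀ w : ↥(W₁ ⊔ W₂), ∑ l : {φ : TIDual W₁ W₂ // TIFirst φ}, (l.1 w : ℂ) =
      if (w : L) ∈ W₂ then (Nat.card W₁ : ℂ) else 0 := by
    intro w
    split_ifs with hw
    · simp only [fun l : {φ : TIDual W₁ W₂ // TIFirst φ} => l.2 w hw, Units.val_one, Finset.sum_const,
        Finset.card_univ, nsmul_eq_mul, mul_one, ← Nat.card_eq_fintype_card, hcI]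
    · letI : CommGroup ↥(W₁ ⊔ W₂) :=
        { (inferInstance : Group ↥(W₁ ⊔ W₂)) with mul_comm := ti_comm hW }
      have ha : tiProjOne hW w ≠ 1 := fun h1 => hw (by
        rw [← tiProj_mul hW w]
        simpa [h1] using tiProjTwo_mem hW w)
      obtain ⟨χ, hχ⟩ := CommGroup.exists_apply_ne_one_of_hasEnoughRootsOfUnity ↥(W₁ ⊔ W₂) ℂ ha
      have hs : ((tiPartOne hW χ) w : ℂ) * ∑ l : {φ : TIDual W₁ W₂ // TIFirst φ}, (l.1 w : ℂ) =
          ∑ l : {φ : TIDual W₁ W₂ // TIFirst φ}, (l.1 w : ℂ) := by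
        rw [Finset.mul_sum]
        refine Fintype.sum_equiv ⟨fun l => ⟨tiPartOne hW χ * l.1,
            tiFirst_mul (tiPartOne_first hW χ) l.2⟩,
          fun l => ⟨(tiPartOne hW χ)⁻¹ * l.1,
            tiFirst_mul (tiFirst_inv (tiPartOne_first hW χ)) l.2⟩,
          fun l => Subtype.ext (MonoidHom.ext fun _ => inv_mul_cancel_left _ _),
          fun l => Subtype.ext (MonoidHom.ext fun _ => mul_inv_cancel_left _ _)⟩ _ _ fun l => by simp
      exact (mul_left_eq_self₀.mp hs).resolve_left fun h' => hχ (Units.ext h')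
  have hm : (Nat.card W₁ : ℂ) ≠ 0 := Nat.cast_ne_zero.mpr Nat.card_pos.ne'
  have hterm : ∀ w : ↥(W₁ ⊔ W₂),
      (if (w : L) ∈ W₂ then 0 else ((φ * ψ) w : ℂ) * conj ((φ' * ψ') w : ℂ)) =
        ((φ * ψ) w : ℂ) * conj ((φ' * ψ') w : ℂ) - (Nat.card W₁ : ℂ)⁻¹ *
          ∑ l : {φ : TIDual W₁ W₂ // TIFirst φ}, ((l.1 * φ * ψ) w : ℂ) * conj ((φ' * ψ') w : ℂ) := by
    intro w
    have he : ∑ l : {φ : TIDual W₁ W₂ // TIFirst φ}, ((l.1 * φ * ψ) w : ℂ) * conj ((φ' * ψ') w : ℂ) =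
        (if (w : L) ∈ W₂ then (Nat.card W₁ : ℂ) else 0) *
          (((φ * ψ) w : ℂ) * conj ((φ' * ψ') w : ℂ)) := by
      rw [← hind, Finset.sum_mul]
      exact Finset.sum_congr rfl fun l _ => by simp [MonoidHom.mul_apply]; ring
    rw [he]
    split_ifs
    · rw [← mul_assoc, inv_mul_cancel₀ hm, one_mul, sub_self]
    · simp
  rw [Finset.sum_congr rfl (fun w _ => hterm w), Finset.sum_sub_distrib, ← Finset.mul_sum, mul_sub,
    Finset.sum_comm, mul_left_comm, Finset.mul_sum (s := (Finset.univ : Finset {φ : TIDual W₁ W₂ // TIFirst φ}))]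
  have hin : ∀ ω ω' : TIDual W₁ W₂, (Nat.card ↥(W₁ ⊔ W₂) : ℂ)⁻¹ *
      ∑ w : ↥(W₁ ⊔ W₂), (ω w : ℂ) * conj (ω' w : ℂ) = if ω = ω' then 1 else 0 := ti_inner_dual hW
  simp only [hin, ti_mul_eq_mul_iff hW hφ hφ' hψ hψ',
    fun l : {φ : TIDual W₁ W₂ // TIFirst φ} => ti_mul_eq_mul_iff hW (tiFirst_mul l.2 hφ) hφ' hψ hψ']
  congr 2
  by_cases hψψ : ψ = ψ'
  · rw [if_pos hψψ, Finset.sum_eq_single (⟨φ' * φ⁻¹, tiFirst_mul hφ' (tiFirst_inv hφ)⟩ :
      {φ : TIDual W₁ W₂ // TIFirst φ})]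
    · rw [if_pos ⟨MonoidHom.ext fun _ => inv_mul_cancel_right _ _, hψψ⟩]
    · intro l _ hl
      rw [if_neg]
      rintro ⟨he, -⟩
      refine hl (Subtype.ext (MonoidHom.ext fun w => ?_))
      show l.1 w = φ' w * (φ w)⁻¹
      rw [← he, MonoidHom.mul_apply, mul_inv_cancel_right]
    · simp
  · simp [hψψ]

/-- `μ` restricts on `W ∖ W₂` to `δ` times `φψ`. -/
def SemiRel (μ : L → ℂ) (ω : TIDual W₁ W₂) (δ : ℂ) : Prop :=
  Cfsg.IsIrrCharacter L μ ∧ (δ = 1 ∨ δ = -1) ∧
    ∀ w : ↥(W₁ ⊔ W₂), (w : L) ∉ W₂ → μ w = δ * (ω w : ℂ)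

theorem semi_exists_outside : ∃ v : ↥(W₁ ⊔ W₂), (v : L) ∉ W₂ := by
  obtain ⟨a, ha, ha1⟩ := (Subgroup.bot_or_exists_ne_one W₁).resolve_left h.ne₁
  exact ⟨⟨a, Subgroup.mem_sup_left ha⟩, fun h2 => ha1 (semi_eq_one h ha (h.le₂ h2))⟩

/-- An irreducible character either vanishes off `K` or restricts irreducibly to a fixed
character of `K`. -/
theorem semi_dichotomy {μ : L → ℂ} (hμ : Cfsg.IsIrrCharacter L μ) :
    (∀ g, g ∉ K → μ g = 0) ∨
      Cfsg.IsIrrCharacter K (fun k : K => μ k) ∧ ∀ x ∈ W₁, cj (fun k : K => μ k) x = fun k : K => μ k := by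
  have hcf := Chars.isClassFunction_of_isCharacter (Chars.isCharacter_of_isIrr hμ)
  have hres := Chars.isCharacter_restrict (Chars.isCharacter_of_isIrr hμ) K
  obtain ⟨η, hη⟩ : ∃ η : Cfsg.IrrCharacter K,
      Cfsg.classInner (fun k : K => μ k) (η : K → ℂ) ≠ 0 := by
    by_contra hno
    push Not at hno
    have h1 := Chars2.apply_eq_sum (Chars.isClassFunction_of_isCharacter hres) 1
    simp [hno, Chars.irr_apply_one_ne_zero hμ] at h1
  have hne : Cfsg.classInner (Cfsg.indFun K (η : K → ℂ)) μ ≠ 0 := by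
    rw [Chars.classInner_indFun K _ hcf, ← Chars.classInner_conj_symm]
    simpa using hη
  by_cases hfix : ∀ x ∈ W₁, cj (η : K → ℂ) x = η
  · right
    obtain ⟨C, -, hC, hexp⟩ := semi_fixed_decomp h η.2 hfix
    have hmem : μ ∈ C := by
      by_contra hno
      rw [hexp, Chars.classInner_sum_left] at hne
      exact hne (Finset.sum_eq_zero fun ν hν =>
        Chars.classInner_irr_of_ne (hC ν hν) hμ fun he => hno (he ▸ hν))
    have h1 : Cfsg.classInner (fun k : K => μ k) (η : K → ℂ) = 1 := by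
      rw [← Chars.classInner_indFun_right K _ hcf, hexp, Chars.classInner_sum_right,
        Finset.sum_eq_single_of_mem μ hmem (fun ν hν hn =>
          Chars.classInner_irr_of_ne hμ (hC ν hν) (Ne.symm hn)), Chars.classInner_self_irr hμ]
    have he : (fun k : K => μ k) = (η : K → ℂ) := funext fun k => by
      rw [Chars2.clifford_invariant hμ η.2 (Chars2.inertiaSub_eq_top fun g n =>
        congrFun (semi_stab_top h η.2 hfix g) n) hη k, h1, one_mul]
    rw [he]
    exact ⟨η.2, hfix⟩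
  · left
    push Not at hfix
    have hirr := semi_irr_indFun h η.2 hfix
    intro g hg
    have he : Cfsg.indFun K (η : K → ℂ) = μ := by
      by_contra hno
      exact hne (Chars.classInner_irr_of_ne hirr hμ hno)
    rw [← he, Chars.indFun_of_not_mem_normal K _ hg]

/-- The inner product outside `K`. -/
theorem semi_inner_outside {μ ν : L → ℂ} (hμ : Cfsg.IsCharacter L μ) (hν : Cfsg.IsCharacter L ν) :
    (Nat.card ↥(W₁ ⊔ W₂) : ℂ)⁻¹ * ∑ w : ↥(W₁ ⊔ W₂),
        (if (w : L) ∈ W₂ then 0 else μ w * conj (ν w)) =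
      Cfsg.classInner μ ν - (Nat.card W₁ : ℂ)⁻¹ *
        Cfsg.classInner (fun k : K => μ k) (fun k : K => ν k) := by
  have hcl : Cfsg.IsClassFunction L (fun g => μ g * conj (ν g)) := fun g x => by
    simp only [Chars.isClassFunction_of_isCharacter hμ g x, Chars.isClassFunction_of_isCharacter hν g x]
  rw [← semi_avg h hcl, Chars.classInner_def, Chars.classInner_def]
  have hsplit : ∑ g : L, (if g ∈ K then 0 else μ g * conj (ν g)) =
      ∑ g : L, μ g * conj (ν g) - ∑ k : K, μ k * conj (ν k) := by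
    rw [← Finset.sum_filter_add_sum_filter_not (s := Finset.univ) (fun g => g ∈ K)
        (fun g => μ g * conj (ν g)), Finset.sum_ite, Finset.sum_const_zero, zero_add,
      ← Finset.sum_subtype (Finset.univ.filter fun g => g ∈ K) (by simp) (fun g => μ g * conj (ν g))]
    ring
  rw [hsplit, ← K.index_mul_card, semi_index h, Nat.cast_mul]
  field_simp

include hodd

theorem semi_rel_exists {μ : L → ℂ} (hμ : Cfsg.IsIrrCharacter L μ)
    (hres : Cfsg.IsIrrCharacter K (fun k : K => μ k)) :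
    ∃ (ω : TIDual W₁ W₂) (δ : ℂ), SemiRel μ ω δ ∧
      ∃ n : ℤ, μ 1 - δ = n * (Nat.card W₁ : ℂ) := by
  have hW := semi_selfNormalizing h
  letI : CommGroup ↥(W₁ ⊔ W₂) :=
    { (inferInstance : Group ↥(W₁ ⊔ W₂)) with mul_comm := ti_comm hW }
  haveI : Finite (TIDual W₁ W₂) := Nat.finite_of_card_ne_zero (by
    rw [CommGroup.card_monoidHom_of_hasEnoughRootsOfUnity ↥(W₁ ⊔ W₂) ℂ]
    exact Nat.card_pos.ne')
  haveI := Fintype.ofFinite (TIDual W₁ W₂)
  obtain ⟨hcI, -⟩ := ti_card_parts hW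
  let Φ := {φ : TIDual W₁ W₂ // TIFirst φ}
  let Ψ := {ψ : TIDual W₁ W₂ // TISecond ψ}
  haveI : Fintype Φ := Fintype.ofFinite _
  haveI : Fintype Ψ := Fintype.ofFinite _
  have hcΦ : Fintype.card Φ = Nat.card W₁ := by rw [← hcI, Nat.card_eq_fintype_card]
  set f : ↥(W₁ ⊔ W₂) → ℂ := fun w => μ w with hf
  have hfc : Cfsg.IsCharacter ↥(W₁ ⊔ W₂) f :=
    Chars.isCharacter_restrict (Chars.isCharacter_of_isIrr hμ) _
  choose c hc using fun (φ : Φ) (ψ : Ψ) =>
    Chars.exists_classInner_eq_nat hfc (Chars.isCharacter_hom (φ.1 * ψ.1))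
  let e : Φ × Ψ ≃ TIDual W₁ W₂ :=
    { toFun := fun p => p.1.1 * p.2.1
      invFun := fun ω => (⟨_, tiPartOne_first hW ω⟩, ⟨_, tiPartTwo_second hW ω⟩)
      left_inv := fun p => Prod.ext (Subtype.ext (tiPartOne_mul hW p.1.2 p.2.2))
        (Subtype.ext (tiPartTwo_mul hW p.1.2 p.2.2))
      right_inv := tiPart_mul hW }
  have hexp : ∀ x, f x = ∑ φ : Φ, ∑ ψ : Ψ, (c φ ψ : ℂ) * ((φ.1 * ψ.1) x : ℂ) := by
    intro x
    have h0 : f x = ∑ ω : TIDual W₁ W₂, Cfsg.classInner f (fun w => (ω w : ℂ)) * (ω x : ℂ) := by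
      have hconj : ∀ (ω : TIDual W₁ W₂) (y : ↥(W₁ ⊔ W₂)), conj (ω y : ℂ) = (ω y⁻¹ : ℂ) :=
        fun ω y => (Chars.char_inv_eq_conj (Chars.isCharacter_hom ω) y).symm
      simp only [Chars.classInner_def, hconj, mul_assoc, Finset.sum_mul]
      rw [← Finset.mul_sum, Finset.sum_comm]
      simp_rw [← Finset.mul_sum, ← Units.val_mul, ← map_mul, ti_sum_dual hW, inv_mul_eq_one]
      rw [Finset.sum_eq_single x (fun y _ hy => by simp [hy]) (by simp)]
      simp only [if_true]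
      field_simp [Nat.cast_ne_zero.mpr (Nat.card_pos (α := ↥(W₁ ⊔ W₂))).ne']
    rw [h0, ← e.sum_comp, Fintype.sum_prod_type]
    exact Finset.sum_congr rfl fun φ _ => Finset.sum_congr rfl fun ψ _ => by rw [← hc]; rfl
  have hm0 : (Nat.card W₁ : ℂ) ≠ 0 := Nat.cast_ne_zero.mpr Nat.card_pos.ne'
  have hkey : ∑ ψ : Ψ, ((Fintype.card Φ : ℤ) * ∑ φ : Φ, (c φ ψ : ℤ) ^ 2 -
      (∑ φ : Φ, (c φ ψ : ℤ)) ^ 2) = (Fintype.card Φ : ℤ) - 1 := by
    have hA := semi_inner_outside h (Chars.isCharacter_of_isIrr hμ) (Chars.isCharacter_of_isIrr hμ)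
    rw [Chars.classInner_self_irr hμ, Chars.classInner_self_irr hres] at hA
    have hB : (Nat.card ↥(W₁ ⊔ W₂) : ℂ)⁻¹ * ∑ w : ↥(W₁ ⊔ W₂),
        (if (w : L) ∈ W₂ then 0 else f w * conj (f w)) =
        ∑ p : Φ × Ψ, ∑ q : Φ × Ψ, (c p.1 p.2 : ℂ) * (c q.1 q.2 : ℂ) *
          ((if p.1.1 = q.1.1 ∧ p.2.1 = q.2.1 then (1 : ℂ) else 0) -
            (Nat.card W₁ : ℂ)⁻¹ * if p.2.1 = q.2.1 then 1 else 0) := by
      rw [Finset.sum_congr rfl fun p _ => Finset.sum_congr rfl fun q _ => by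
        rw [← semi_inner_dual h p.1.2 q.1.2 p.2.2 q.2.2]]
      simp only [Finset.mul_sum]
      rw [Finset.sum_congr rfl fun p _ => Finset.sum_comm, Finset.sum_comm]
      refine Finset.sum_congr rfl fun w _ => ?_
      split_ifs with hw
      · simp
      · rw [hexp, map_sum, ← Fintype.sum_prod_type', Finset.sum_mul, Finset.mul_sum]
        refine Finset.sum_congr rfl fun p _ => ?_
        rw [Finset.sum_congr rfl (fun (φ : Φ) _ => map_sum _ _ _), ← Fintype.sum_prod_type',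
          Finset.mul_sum, Finset.mul_sum]
        refine Finset.sum_congr rfl fun q _ => ?_
        rw [map_mul, Complex.conj_natCast]
        ring
    change (Nat.card ↥(W₁ ⊔ W₂) : ℂ)⁻¹ * ∑ w : ↥(W₁ ⊔ W₂),
        (if (w : L) ∈ W₂ then 0 else f w * conj (f w)) = _ at hA
    rw [hB] at hA
    simp only [← Subtype.ext_iff, ← Prod.ext_iff] at hA
    have hq := pair_quadratic (fun φ ψ => (c φ ψ : ℂ)) (Nat.card W₁ : ℂ)⁻¹
    beta_reduce at hq
    replace hA : _ = (1 : ℂ) - (Nat.card W₁ : ℂ)⁻¹ * 1 := hq.symm.trans (by convert hA)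
    apply Int.cast_injective (α := ℂ)
    push_cast
    rw [hcΦ, Finset.sum_sub_distrib, ← Finset.mul_sum]
    field_simp at hA
    linear_combination hA
  obtain ⟨φ₀, ψ₀, δ, k, hδ, hck⟩ :=
    matrix_one_exception (by rw [hcΦ]; exact semi_three_le h hodd) (fun φ ψ => (c φ ψ : ℤ)) hkey
  have hckC : ∀ φ ψ, (c φ ψ : ℂ) = (k ψ : ℂ) + if φ = φ₀ ∧ ψ = ψ₀ then (δ : ℂ) else 0 := by
    intro φ ψ
    have := congrArg (fun z : ℤ => (z : ℂ)) (hck φ ψ)
    simpa [apply_ite (Int.cast (R := ℂ))] using this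
  have hδC : (δ : ℂ) = 1 ∨ (δ : ℂ) = -1 := by
    rcases hδ with rfl | rfl <;> simp
  have hval : ∀ x, f x = ∑ ψ : Ψ, (k ψ : ℂ) * (ψ.1 x : ℂ) * ∑ φ : Φ, (φ.1 x : ℂ) +
      (δ : ℂ) * ((φ₀.1 * ψ₀.1) x : ℂ) := by
    intro x
    rw [hexp, Finset.sum_comm]
    simp only [hckC, add_mul, Finset.sum_add_distrib, ite_mul, zero_mul, Finset.mul_sum]
    congr 1
    · exact Finset.sum_congr rfl fun ψ _ => Finset.sum_congr rfl fun φ _ => by
        rw [MonoidHom.mul_apply, Units.val_mul]; ring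
    · rw [Finset.sum_eq_single ψ₀ (fun ψ _ hne => by simp [hne]) (by simp),
        Finset.sum_eq_single φ₀ (fun φ _ hne => by simp [hne]) (by simp)]
      simp
  refine ⟨φ₀.1 * ψ₀.1, δ, ⟨hμ, hδC, fun w hw => ?_⟩, ∑ ψ : Ψ, k ψ, ?_⟩
  · show f w = _
    have hsum : ∑ φ : Φ, (φ.1 w : ℂ) = 0 := by
      have ha : tiProjOne hW w ≠ 1 := fun h1 => hw (by
        rw [← tiProj_mul hW w]
        simpa [h1] using tiProjTwo_mem hW w)
      obtain ⟨χ, hχ⟩ := CommGroup.exists_apply_ne_one_of_hasEnoughRootsOfUnity ↥(W₁ ⊔ W₂) ℂ ha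
      have hs : ((tiPartOne hW χ) w : ℂ) * ∑ l : Φ, (l.1 w : ℂ) = ∑ l : Φ, (l.1 w : ℂ) := by
        rw [Finset.mul_sum]
        refine Fintype.sum_equiv ⟨fun l => ⟨tiPartOne hW χ * l.1,
            tiFirst_mul (tiPartOne_first hW χ) l.2⟩,
          fun l => ⟨(tiPartOne hW χ)⁻¹ * l.1,
            tiFirst_mul (tiFirst_inv (tiPartOne_first hW χ)) l.2⟩,
          fun l => Subtype.ext (MonoidHom.ext fun _ => inv_mul_cancel_left _ _),
          fun l => Subtype.ext (MonoidHom.ext fun _ => mul_inv_cancel_left _ _)⟩ _ _ fun l => by simp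
      exact (mul_left_eq_self₀.mp hs).resolve_left fun h' => hχ (Units.ext h')
    rw [hval, hsum]
    simp
  · have h1 : μ 1 = f 1 := by simp [f]
    rw [h1, hval]
    simp only [map_one, Units.val_one, mul_one, Finset.sum_const, Finset.card_univ, nsmul_eq_mul, hcΦ]
    push_cast
    rw [Finset.sum_mul]
    ring

theorem semi_rel_unique {μ ν : L → ℂ} {ω : TIDual W₁ W₂} {δ ε : ℂ}
    (h1 : SemiRel μ ω δ) (h2 : SemiRel ν ω ε) : μ = ν ∧ δ = ε := by
  have hW := semi_selfNormalizing h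
  obtain ⟨v, hv⟩ := semi_exists_outside h
  have hμν : μ = ν := by
    by_contra hne
    have hA := semi_inner_outside h (Chars.isCharacter_of_isIrr h1.1) (Chars.isCharacter_of_isIrr h2.1)
    have hB : (Nat.card ↥(W₁ ⊔ W₂) : ℂ)⁻¹ * ∑ w : ↥(W₁ ⊔ W₂),
        (if (w : L) ∈ W₂ then 0 else μ w * conj (ν w)) =
        δ * conj ε * (1 - (Nat.card W₁ : ℂ)⁻¹) := by
      have h3 := semi_inner_dual h (tiPartOne_first hW ω) (tiPartOne_first hW ω)
        (tiPartTwo_second hW ω) (tiPartTwo_second hW ω)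
      simp only [tiPart_mul hW ω, and_self, if_true, mul_one] at h3
      rw [← h3, mul_left_comm]
      congr 1
      rw [Finset.mul_sum]
      refine Finset.sum_congr rfl fun w _ => ?_
      split_ifs with hw
      · simp
      · rw [h1.2.2 w hw, h2.2.2 w hw, map_mul]; ring
    rw [hB, Chars.classInner_irr_of_ne h1.1 h2.1 hne] at hA
    have hm := semi_three_le h hodd
    have hm0 : (Nat.card W₁ : ℂ) ≠ 0 := Nat.cast_ne_zero.mpr (by omega)
    have hd : ∀ {μ : L → ℂ} {δ : ℂ}, SemiRel μ ω δ →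
        Cfsg.IsIrrCharacter K (fun k : K => μ k) := by
      intro μ δ hr
      rcases semi_dichotomy h hr.1 with h0 | h0
      · exfalso
        have h4 := h0 v (fun hk => hv (semi_inter_K h v.2 hk))
        rw [hr.2.2 v hv] at h4
        rcases hr.2.1 with e | e <;> simp [e] at h4
      · exact h0.1
    obtain ⟨z, hz, hz'⟩ : ∃ z : ℕ, z ≤ 1 ∧
        Cfsg.classInner (fun k : K => μ k) (fun k : K => ν k) = z := by
      rw [Chars.classInner_irr (hd h1) (hd h2)]
      by_cases he : (fun k : K => μ k) = fun k : K => ν k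
      · exact ⟨1, le_rfl, by rw [if_pos he]; simp⟩
      · exact ⟨0, zero_le_one, by rw [if_neg he]; simp⟩
    rw [hz'] at hA
    obtain ⟨s, hs, hs'⟩ : ∃ s : ℤ, (s = 1 ∨ s = -1) ∧ δ * conj ε = s := by
      rcases h1.2.1 with e | e <;> rcases h2.2.1 with e' | e' <;>
        first
          | (refine ⟨1, Or.inl rfl, ?_⟩; simp [e, e']; done)
          | (refine ⟨-1, Or.inr rfl, ?_⟩; simp [e, e']; done)
    rw [hs'] at hA
    field_simp at hA
    have hA' : (s : ℂ) * ((Nat.card W₁ : ℂ) - 1) = -(z : ℂ) := by linear_combination hA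
    have hA'' : s * ((Nat.card W₁ : ℤ) - 1) = -(z : ℤ) := by exact_mod_cast hA'
    rcases hs with rfl | rfl <;> omega
  refine ⟨hμν, ?_⟩
  have h3 := h1.2.2 v hv
  rw [hμν, h2.2.2 v hv] at h3
  exact (mul_right_cancel₀ (Units.ne_zero _) h3).symm

theorem semi_rel_inj {μ : L → ℂ} {ω ω' : TIDual W₁ W₂} {δ δ' : ℂ}
    (h1 : SemiRel μ ω δ) (h2 : SemiRel μ ω' δ') : ω = ω' := by
  have hW := semi_selfNormalizing h
  by_contra hne
  have hne' : ¬ (tiPartOne hW ω = tiPartOne hW ω' ∧ tiPartTwo hW ω = tiPartTwo hW ω') := fun h' =>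
    hne (by rw [← tiPart_mul hW ω, ← tiPart_mul hW ω', h'.1, h'.2])
  have h3 := semi_inner_dual h (tiPartOne_first hW ω) (tiPartOne_first hW ω')
    (tiPartTwo_second hW ω) (tiPartTwo_second hW ω')
  have h4 := semi_inner_dual h (tiPartOne_first hW ω) (tiPartOne_first hW ω)
    (tiPartTwo_second hW ω) (tiPartTwo_second hW ω)
  simp only [tiPart_mul hW ω, tiPart_mul hW ω', if_neg hne', and_self, if_true, mul_one] at h3 h4
  obtain ⟨s, hs, hs'⟩ : ∃ s : ℤ, (s = 1 ∨ s = -1) ∧ δ * conj δ' = s := by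
    rcases h1.2.1 with e | e <;> rcases h2.2.1 with e' | e' <;>
      first
        | (refine ⟨1, Or.inl rfl, ?_⟩; simp [e, e']; done)
        | (refine ⟨-1, Or.inr rfl, ?_⟩; simp [e, e']; done)
  have hrel : ∀ w : ↥(W₁ ⊔ W₂), (if (w : L) ∈ W₂ then 0 else (ω w : ℂ) * conj (ω w : ℂ)) =
      (s : ℂ) * (if (w : L) ∈ W₂ then 0 else (ω w : ℂ) * conj (ω' w : ℂ)) := by
    intro w
    split_ifs with hw
    · simp
    · have e1 : δ * (ω w : ℂ) = δ' * (ω' w : ℂ) := (h1.2.2 w hw).symm.trans (h2.2.2 w hw)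
      have e2 : conj (ω w : ℂ) = conj δ * conj δ' * conj (ω' w : ℂ) := by
        have e3 := congrArg conj e1
        rw [map_mul, map_mul] at e3
        have e4 : conj δ * conj δ = 1 := by rcases h1.2.1 with e | e <;> simp [e]
        linear_combination (conj δ) * e3 - (conj (ω w : ℂ)) * e4
      rw [e2, ← hs']
      rcases h1.2.1 with e | e <;> simp [e] <;> ring
  rw [Finset.sum_congr rfl (fun w _ => hrel w), ← Finset.mul_sum, mul_left_comm, h3] at h4
  have hm := semi_three_le h hodd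
  have hm0 : (Nat.card W₁ : ℂ) ≠ 0 := Nat.cast_ne_zero.mpr (by omega)
  obtain ⟨z, hz, hz'⟩ : ∃ z : ℕ, z ≤ 1 ∧
      (if tiPartTwo hW ω = tiPartTwo hW ω' then (1 : ℂ) else 0) = z := by
    by_cases he : tiPartTwo hW ω = tiPartTwo hW ω'
    · exact ⟨1, le_rfl, by rw [if_pos he]; simp⟩
    · exact ⟨0, zero_le_one, by rw [if_neg he]; simp⟩
  rw [hz'] at h4
  field_simp at h4
  have h5 : -((s : ℂ) * (z : ℂ)) = (Nat.card W₁ : ℂ) - 1 := by linear_combination h4
  have h6 : -(s * (z : ℤ)) = (Nat.card W₁ : ℤ) - 1 := by exact_mod_cast h5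
  rcases hs with rfl | rfl <;> omega

theorem semi_rel_bijective (ω : TIDual W₁ W₂) :
    ∃ (μ : L → ℂ) (δ : ℂ), SemiRel μ ω δ ∧ ∃ n : ℤ, μ 1 - δ = n * (Nat.card W₁ : ℂ) := by
  have hW := semi_selfNormalizing h
  letI : CommGroup ↥(W₁ ⊔ W₂) :=
    { (inferInstance : Group ↥(W₁ ⊔ W₂)) with mul_comm := ti_comm hW }
  haveI : Finite (TIDual W₁ W₂) := Nat.finite_of_card_ne_zero (by
    rw [CommGroup.card_monoidHom_of_hasEnoughRootsOfUnity ↥(W₁ ⊔ W₂) ℂ]
    exact Nat.card_pos.ne')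
  let E := {μ : Cfsg.IrrCharacter L // Cfsg.IsIrrCharacter K (fun k : K => (μ : L → ℂ) k)}
  choose Ω D hD hn using fun μ : E => semi_rel_exists h hodd μ.1.2 μ.2
  have hinj : Function.Injective Ω := fun μ ν he => Subtype.ext (Subtype.ext
    (semi_rel_unique h hodd (hD μ) (he ▸ hD ν)).1)
  let Fx := {θ : Cfsg.IrrCharacter K // ∀ x ∈ W₁, cj (θ : K → ℂ) x = θ}
  choose C hCc hC hCs using fun θ : Fx => semi_fixed_decomp h θ.1.2 θ.2
  have hres : ∀ (θ : Fx), ∀ μ ∈ C θ, (fun k : K => μ k) = (θ.1 : K → ℂ) := by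
    intro θ μ hμ
    have hcl := Chars.isClassFunction_of_isCharacter (Chars.isCharacter_of_isIrr (hC θ μ hμ))
    have h1 : Cfsg.classInner (fun k : K => μ k) (θ.1 : K → ℂ) = 1 := by
      rw [← Chars.classInner_indFun_right K _ hcl, hCs θ, Chars.classInner_sum_right,
        Finset.sum_eq_single_of_mem μ hμ (fun ν hν hn =>
          Chars.classInner_irr_of_ne (hC θ μ hμ) (hC θ ν hν) (Ne.symm hn)),
        Chars.classInner_self_irr (hC θ μ hμ)]
    funext k
    rw [Chars2.clifford_invariant (hC θ μ hμ) θ.1.2 (Chars2.inertiaSub_eq_top fun g n =>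
      congrFun (semi_stab_top h θ.1.2 θ.2 g) n) (by rw [h1]; exact one_ne_zero) k, h1, one_mul]
  let emb : (Σ θ : Fx, ↥(C θ)) → E := fun p =>
    ⟨⟨p.2.1, hC p.1 _ p.2.2⟩, by
      have := hres p.1 _ p.2.2
      exact this ▸ p.1.1.2⟩
  have hemb : Function.Injective emb := by
    rintro ⟨θ, μ, hμ⟩ ⟨θ', μ', hμ'⟩ he
    obtain rfl : μ = μ' := congrArg (fun z : E => (z.1 : L → ℂ)) he
    obtain rfl : θ = θ' := Subtype.ext (Subtype.ext ((hres θ μ hμ).symm.trans (hres θ' μ hμ')))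
    rfl
  haveI : Finite E := inferInstance
  have hle : Nat.card (TIDual W₁ W₂) ≤ Nat.card E := by
    refine le_trans (le_of_eq ?_) (Nat.card_le_card_of_injective emb hemb)
    haveI := Fintype.ofFinite Fx
    rw [CommGroup.card_monoidHom_of_hasEnoughRootsOfUnity ↥(W₁ ⊔ W₂) ℂ, semi_card_sup h,
      Nat.card_sigma]
    simp only [Nat.card_eq_finsetCard, hCc, Finset.sum_const, Finset.card_univ, smul_eq_mul]
    rw [← Nat.card_eq_fintype_card (α := Fx), show Nat.card Fx = Nat.card W₂ from semi_fixed_count_all h,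
      mul_comm]
  obtain ⟨μ, rfl⟩ := ((Nat.bijective_iff_injective_and_card Ω).mpr
    ⟨hinj, le_antisymm (Nat.card_le_card_of_injective Ω hinj) hle⟩).2 ω
  exact ⟨_, _, hD μ, hn μ⟩

/-- The family of irreducible characters attached to the linear characters of `W`. -/
theorem exists_semi_family : ∃ (μ : TIDual W₁ W₂ → (L → ℂ)) (δ : TIDual W₁ W₂ → ℂ),
    Function.Injective μ ∧ (∀ ω, Cfsg.IsIrrCharacter L (μ ω)) ∧ (∀ ω, δ ω = 1 ∨ δ ω = -1) ∧
    (∀ ω ω' : TIDual W₁ W₂, (∀ w : ↥(W₁ ⊔ W₂), (w : L) ∈ W₂ → ω w = ω' w) → δ ω = δ ω' ∧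
      Cfsg.indFun (W₁ ⊔ W₂) (fun w => (ω w : ℂ) - (ω' w : ℂ)) = δ ω • (μ ω - μ ω')) ∧
    (∀ ω, ∀ w : ↥(W₁ ⊔ W₂), (w : L) ∉ W₂ → μ ω w = δ ω * (ω w : ℂ)) ∧
    (∀ θ : L → ℂ, Cfsg.IsIrrCharacter L θ → (∀ ω, θ ≠ μ ω) →
      ∀ w : ↥(W₁ ⊔ W₂), (w : L) ∉ W₂ → θ w = 0) ∧
    ∀ ω, ∃ n : ℤ, μ ω 1 - δ ω = n * (Nat.card W₁ : ℂ) := by
  have hW := semi_selfNormalizing h
  choose μ δ hrel hn using semi_rel_bijective h hodd
  refine ⟨μ, δ, fun ω ω' he => semi_rel_inj h hodd (hrel ω) (he ▸ hrel ω'), fun ω => (hrel ω).1,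
    fun ω => (hrel ω).2.1, fun ω ω' hagree => ?_, fun ω => (hrel ω).2.2, ?_, hn⟩
  · -- the linear character of `L` linking the two
    let φ := ω' * ω⁻¹
    have hφ : TIFirst φ := fun w hw => by simp [φ, hagree w hw]
    choose k hk a ha hga using semi_decomp h
    have hua : ∀ {k a : L}, k ∈ K → a ∈ W₁ → ∀ {k' a' : L}, k' ∈ K → a' ∈ W₁ →
        k * a = k' * a' → a = a' := by
      intro k a hk ha k' a' hk' ha' he
      refine (mul_inv_eq_one.mp (semi_eq_one h (mul_mem ha (inv_mem ha')) ?_))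
      have : a * a'⁻¹ = k⁻¹ * k' := by
        rw [eq_inv_mul_iff_mul_eq, ← mul_assoc, he, mul_inv_cancel_right]
      rw [this]; exact K.mul_mem (K.inv_mem hk) hk'
    let π : L →* ↥(W₁ ⊔ W₂) :=
      { toFun := fun g => ⟨a g, Subgroup.mem_sup_left (ha g)⟩
        map_one' := Subtype.ext (hua (hk 1) (ha 1) K.one_mem W₁.one_mem
          (by rw [← hga 1]; simp))
        map_mul' := fun g g' => Subtype.ext (hua (hk _) (ha _)
          (K.mul_mem (hk g) (hK.conj_mem _ (hk g') (a g))) (W₁.mul_mem (ha g) (ha g'))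
          (by rw [← hga (g * g')]; conv_lhs => rw [hga g, hga g']
              simp only [Subgroup.coe_mul]
              group)) }
    let lam : L →* ℂˣ := φ.comp π
    have hlamK : ∀ g ∈ K, lam g = 1 := by
      intro g hg
      have : a g = 1 := hua (hk g) (ha g) hg W₁.one_mem (by rw [← hga g, mul_one])
      show φ (π g) = 1
      rw [show π g = 1 from Subtype.ext this, map_one]
    have hlamW : ∀ w : ↥(W₁ ⊔ W₂), lam w = φ w := by
      intro w
      have hw : (w : L) = (tiProjTwo hW w : L) * (tiProjOne hW w : L) := by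
        rw [← semi_comm h (tiProjOne_mem hW w) (tiProjTwo_mem hW w)]
        exact (congrArg Subtype.val (tiProj_mul hW w)).symm
      have h1 : a w = (tiProjOne hW w : L) := hua (hk w) (ha w) (h.le₂ (tiProjTwo_mem hW w))
        (tiProjOne_mem hW w) (by rw [← hga w]; exact hw)
      show φ (π w) = φ w
      rw [show π w = tiProjOne hW w from Subtype.ext h1]
      conv_rhs => rw [← tiProj_mul hW w, map_mul, hφ _ (tiProjTwo_mem hW w), mul_one]
    have hrel' : SemiRel (fun g => (lam g : ℂ) * μ ω g) ω' (δ ω) := by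
      refine ⟨Chars.isIrrCharacter_mul_hom (hrel ω).1 lam, (hrel ω).2.1, fun w hw => ?_⟩
      show (lam w : ℂ) * μ ω w = _
      rw [(hrel ω).2.2 w hw, hlamW]
      simp only [φ, MonoidHom.mul_apply, MonoidHom.inv_apply, Units.val_mul, Units.val_inv_eq_inv_val]
      field_simp [Units.ne_zero]
    obtain ⟨hμ, hδ⟩ := semi_rel_unique h hodd hrel' (hrel ω')
    refine ⟨hδ, ?_⟩
    have hf : ∀ w : ↥(W₁ ⊔ W₂), (w : L) ∈ W₂ → (ω w : ℂ) - (ω' w : ℂ) = 0 := fun w hw => by
      rw [hagree w hw, sub_self]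
    funext g
    simp only [Pi.smul_apply, Pi.sub_apply, smul_eq_mul]
    by_cases hg : g ∈ K
    · rw [semi_indFun_zero h hf hg, ← hμ]
      simp [hlamK g hg]
    · obtain ⟨x, v, hv, rfl⟩ := semi_cover h hg
      rw [Chars.isClassFunction_indFun (W₁ ⊔ W₂) _ v x, semi_indFun_apply h hf v hv,
        Chars.isClassFunction_of_isCharacter (Chars.isCharacter_of_isIrr (hrel ω).1) v x,
        Chars.isClassFunction_of_isCharacter (Chars.isCharacter_of_isIrr (hrel ω').1) v x,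
        (hrel ω).2.2 v hv, (hrel ω').2.2 v hv, ← hδ]
      rcases (hrel ω).2.1 with e | e <;> rw [e] <;> ring
  · intro θ hθ hne w hw
    rcases semi_dichotomy h hθ with h0 | ⟨h0, -⟩
    · exact h0 w fun hk => hw (semi_inter_K h w.2 hk)
    · obtain ⟨ω, ε, hr, -⟩ := semi_rel_exists h hodd hθ h0
      exact absurd (semi_rel_unique h hodd hr (hrel ω)).1 (hne ω)

end Cfsg.Agent.OddChar
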