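import Mathlib
import Cfsg.Prelude.Def_Sporadic_a

/-! Block intersection numbers of a Steiner system `S(5,8,24)`. -/

set_option autoImplicit false

namespace Cfsg.Agent.OddChar

variable {α : Type*} [Fintype α] [DecidableEq α]

/-- Number of `k`-sets between `T` and `U`. -/
theorem card_between (T U : Finset α) (hTU : T ⊆ U) (k : ℕ) (hk : T.card ≤ k) :
    ((U.powersetCard k).filter fun F => T ⊆ F).card = Nat.choose (U.card - T.card) (k - T.card) := by
  rw [← Finset.card_sdiff_of_subset hTU, ← Finset.card_powersetCard]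
  refine Finset.card_nbij' (fun F => F \ T) (fun F => F ∪ T) ?_ ?_ ?_ ?_
  · intro F hF
    simp only [Finset.mem_coe, Finset.mem_filter, Finset.mem_powersetCard] at hF ⊢
    exact ⟨Finset.sdiff_subset_sdiff hF.1.1 (Finset.Subset.refl _),
      by rw [Finset.card_sdiff_of_subset hF.2, hF.1.2]⟩
  · intro F hF
    simp only [Finset.mem_coe, Finset.mem_filter, Finset.mem_powersetCard] at hF ⊢
    have hd : Disjoint F T := Finset.disjoint_left.2 fun x hx => (Finset.mem_sdiff.1 (hF.1 hx)).2
    refine ⟨⟨Finset.union_subset (hF.1.trans Finset.sdiff_subset) hTU, ?_⟩, Finset.subset_union_right⟩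
    rw [Finset.card_union_of_disjoint hd, hF.2]; omega
  · intro F hF
    simp only [Finset.mem_coe, Finset.mem_filter, Finset.mem_powersetCard] at hF
    exact Finset.sdiff_union_of_subset hF.2
  · intro F hF
    simp only [Finset.mem_coe, Finset.mem_powersetCard] at hF
    show (F ∪ T) \ T = F
    rw [Finset.union_sdiff_right]
    exact Finset.sdiff_eq_self_of_disjoint
      (Finset.disjoint_left.2 fun x hx => (Finset.mem_sdiff.1 (hF.1 hx)).2)

variable {B : Finset (Finset α)}

theorem blocks_through (hα : Fintype.card α = 24) (hB : ∀ b ∈ B, b.card = 8)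
    (huniq : ∀ F : Finset α, F.card = 5 → ∃! b, b ∈ B ∧ F ⊆ b) (T : Finset α) (hT : T.card ≤ 5) :
    (B.filter fun b => T ⊆ b).card * Nat.choose (8 - T.card) (5 - T.card)
      = Nat.choose (24 - T.card) (5 - T.card) := by
  set S := (Finset.univ.powersetCard 5).filter fun F => T ⊆ F with hSdef
  have hS : S.card = Nat.choose (24 - T.card) (5 - T.card) := by
    rw [hSdef, card_between T Finset.univ (Finset.subset_univ _) 5 hT, Finset.card_univ, hα]
  choose! blk hblk using fun F (hF : F.card = 5) => (huniq F hF).exists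
  have hmem : ∀ F ∈ S, F.card = 5 ∧ T ⊆ F := fun F hF => by
    simp only [hSdef, Finset.mem_filter, Finset.mem_powersetCard] at hF
    exact ⟨hF.1.2, hF.2⟩
  have hmaps : ∀ F ∈ S, blk F ∈ B.filter fun b => T ⊆ b := fun F hF =>
    Finset.mem_filter.2 ⟨(hblk F (hmem F hF).1).1, (hmem F hF).2.trans (hblk F (hmem F hF).1).2⟩
  rw [← hS, Finset.card_eq_sum_card_fiberwise hmaps,
    Finset.sum_congr rfl fun b hb => show (S.filter fun F => blk F = b).card
        = Nat.choose (8 - T.card) (5 - T.card) from by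
      obtain ⟨hbB, hTb⟩ := Finset.mem_filter.1 hb
      rw [← hB b hbB, ← card_between T b hTb 5 hT]
      congr 1
      ext F
      simp only [hSdef, Finset.mem_filter, Finset.mem_powersetCard]
      constructor
      · rintro ⟨⟨⟨-, h5⟩, hTF⟩, rfl⟩
        exact ⟨⟨(hblk F h5).2, h5⟩, hTF⟩
      · rintro ⟨⟨hFb, h5⟩, hTF⟩
        exact ⟨⟨⟨Finset.subset_univ _, h5⟩, hTF⟩, (huniq F h5).unique (hblk F h5) ⟨hbB, hFb⟩⟩,
    Finset.sum_const, smul_eq_mul]

theorem meet_equation (Y : Finset α) (i : ℕ) :
    ∑ b ∈ B, Nat.choose (b ∩ Y).card i = ∑ T ∈ Y.powersetCard i, (B.filter fun b => T ⊆ b).card := by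
  simp only [← Finset.card_powersetCard]
  simp only [Finset.card_eq_sum_ones, Finset.sum_filter]
  rw [Finset.sum_comm]
  refine Finset.sum_congr rfl fun b _ => ?_
  rw [← Finset.sum_filter]
  refine Finset.sum_congr ?_ fun _ _ => rfl
  ext T
  simp only [Finset.mem_powersetCard, Finset.mem_filter, Finset.subset_inter_iff, Finset.card_eq_sum_ones]
  tauto

theorem steiner_meets (hα : Fintype.card α = 24) (hB : ∀ b ∈ B, b.card = 8)
    (huniq : ∀ F : Finset α, F.card = 5 → ∃! b, b ∈ B ∧ F ⊆ b) (Y : Finset α) (hY : Y.card = 3) :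
    (B.filter fun b => (b ∩ Y).card = 3).card = 21 ∧ (B.filter fun b => (b ∩ Y).card = 2).card = 168 ∧
      (B.filter fun b => (b ∩ Y).card = 1).card = 360 ∧
      (B.filter fun b => (b ∩ Y).card = 0).card = 210 := by
  have eq : ∀ i ≤ 3, ∀ c, c * Nat.choose (8 - i) (5 - i) = Nat.choose (24 - i) (5 - i) →
      ∑ b ∈ B, Nat.choose (b ∩ Y).card i = Nat.choose 3 i * c := by
    intro i hi c hc
    rw [meet_equation Y i, Finset.sum_congr rfl fun T hT => ?_, Finset.sum_const, smul_eq_mul,
      Finset.card_powersetCard, hY]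
    have hT' := (Finset.mem_powersetCard.1 hT).2
    have h := blocks_through hα hB huniq T (by omega)
    rw [hT', ← hc] at h
    exact Nat.eq_of_mul_eq_mul_right (Nat.choose_pos (by omega)) h
  have e0 := eq 0 (by norm_num) 759 (by decide)
  have e1 := eq 1 (by norm_num) 253 (by decide)
  have e2 := eq 2 (by norm_num) 77 (by decide)
  have e3 := eq 3 le_rfl 21 (by decide)
  have hle : ∀ b ∈ B, (b ∩ Y).card ∈ Finset.range 4 := fun b _ => by
    have := Finset.card_le_card (Finset.inter_subset_right (s₁ := b) (s₂ := Y))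
    simp; omega
  have conv : ∀ i, ∑ b ∈ B, Nat.choose (b ∩ Y).card i
      = ∑ j ∈ Finset.range 4, (B.filter fun b => (b ∩ Y).card = j).card * Nat.choose j i := fun i => by
    rw [← Finset.sum_fiberwise_of_maps_to hle]
    exact Finset.sum_congr rfl fun j _ => by
      rw [Finset.sum_congr rfl fun b hb => by rw [(Finset.mem_filter.1 hb).2],
        Finset.sum_const, smul_eq_mul]
  simp only [conv, Finset.sum_range_succ, Finset.sum_range_zero] at e0 e1 e2 e3
  norm_num [Nat.choose] at e0 e1 e2 e3
  simp only [Finset.card_eq_zero] at ⊢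
  omega

end Cfsg.Agent.OddChar
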