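import Cfsg.Agent.OddChar.CoverPiece
import Cfsg.Agent.OddChar.FrobAbelian
import Cfsg.Agent.OddChar.TICongr

/-!
A coherent family of characters of the normalizer of a trivial intersection Frobenius kernel.
-/

set_option autoImplicit false
set_option linter.unusedSectionVars false

open scoped Classical ComplexConjugate

namespace Cfsg.Agent.OddChar

universe u

section local_part

variable {L : Type u} [Group L] [Fintype L] {K : Subgroup L} [hKn : K.Normal]

theorem kReg_classFun : Cfsg.IsClassFunction L (kReg K) := by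
  intro x g
  have h : g * x * g⁻¹ ∈ K ↔ x ∈ K := ⟨fun h => by
    simpa [mul_assoc] using (inferInstance : K.Normal).conj_mem _ h g⁻¹,
    fun h => (inferInstance : K.Normal).conj_mem _ h g⟩
  simp [kReg, h]

theorem indAbove_orth_kInd {χ : L → ℂ} (hχ : χ ∈ Cfsg.inducedIrrAbove K ⊥) :
    Cfsg.classInner χ (kInd K) = 0 := by
  obtain ⟨θ, hθ, hne, -, rfl⟩ := hχ
  exact kInd_orth K hθ hne

/-- A class function whose coordinates on the family are proportional to the degrees is constant on `K#`. -/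
theorem const_of_proportional (hC : ∀ k ∈ K, k ≠ 1 → Subgroup.centralizer ({k} : Set L) ≤ K)
    {f : L → ℂ} (hf : Cfsg.IsClassFunction L f) {c : ℂ}
    (h : ∀ χ ∈ Cfsg.inducedIrrAbove K ⊥, Cfsg.classInner f χ = c * χ 1) :
    ∃ n : ℂ, ∀ x ∈ K, x ≠ 1 → f x = n := by
  set d := c * (K.index : ℂ)
  set γ := f - d • kReg K with hγd
  have hγ : Cfsg.IsClassFunction L γ :=
    Chars.isClassFunction_sub hf (Chars.isClassFunction_smul d kReg_classFun)
  have hγ0 : ∀ χ ∈ Cfsg.inducedIrrAbove K ⊥, Cfsg.classInner γ χ = 0 := by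
    intro χ hχ
    have hχ' := hχ
    rw [frob_indAbove_eq hC] at hχ'
    obtain ⟨m, -, hm⟩ := Chars.exists_irr_apply_one_eq hχ'.1
    rw [hγd, Chars.classInner_sub_left, Chars.classInner_smul_left, h χ hχ,
      ← Chars.classInner_conj_symm χ (kReg K), classInner_kReg, indAbove_orth_kInd hχ, hm]
    simp only [d, sub_zero, map_mul, map_inv₀, map_natCast]
    field_simp [index_ne_zero' K]
    ring
  refine ⟨γ 1 - d, fun x hx hx1 => ?_⟩
  have hγx : γ x = γ 1 := by
    rw [Chars.eq_sum_classInner hγ, Finset.sum_apply, Finset.sum_apply]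
    refine Finset.sum_congr rfl fun ψ _ => ?_
    by_cases hψ : (ψ : L → ℂ) ∈ Cfsg.inducedIrrAbove K ⊥
    · simp [hγ0 _ hψ]
    · simp only [Pi.smul_apply]
      congr 1
      by_contra hne
      exact hψ (by rw [frob_indAbove_eq hC]; exact ⟨ψ.2, x, hx, hne⟩)
  rw [← hγx]
  simp [γ, kReg, hx1, hx]

theorem indAbove_out {χ : L → ℂ} (hχ : χ ∈ Cfsg.inducedIrrAbove K ⊥) {x : L} (hx : x ∉ K) :
    χ x = 0 := by
  obtain ⟨θ, -, -, -, rfl⟩ := hχ
  exact Chars.indFun_of_not_mem_normal _ _ hx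

/-- The inner product with a function constant on `K#`. -/
theorem classInner_const {χ g : L → ℂ} (hχ : χ ∈ Cfsg.inducedIrrAbove K ⊥) {n : ℂ}
    (hg : ∀ x ∈ K, x ≠ 1 → g x = n) :
    Cfsg.classInner χ g = (Nat.card L : ℂ)⁻¹ * χ 1 * conj (g 1 - n) := by
  have h0 := indAbove_orth_kInd hχ
  rw [classInner_kInd, mul_eq_zero] at h0
  have h1 := h0.resolve_left (inv_ne_zero Chars.card_ne_zero)
  rw [Chars.classInner_def, mul_assoc]
  congr 1
  have h2 : ∀ x : L, χ x * conj (g x) =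
      conj n * (if x ∈ K then χ x else 0) + if x = 1 then χ 1 * conj (g 1 - n) else 0 := by
    intro x
    by_cases hx1 : x = 1
    · subst hx1
      simp only [one_mem, if_true, map_sub]
      ring
    · by_cases hx : x ∈ K
      · rw [if_pos hx, if_neg hx1, hg x hx hx1]; ring
      · rw [if_neg hx, if_neg hx1, indAbove_out hχ hx]; ring
  rw [Finset.sum_congr rfl (fun x _ => h2 x), Finset.sum_add_distrib, ← Finset.mul_sum, h1]
  simp

/-- A member of a family with two members is not constant on `K#`. -/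
theorem indAbove_not_const (hC : ∀ k ∈ K, k ≠ 1 → Subgroup.centralizer ({k} : Set L) ≤ K)
    {χ ξ : L → ℂ} (hχ : χ ∈ Cfsg.inducedIrrAbove K ⊥) (hξ : ξ ∈ Cfsg.inducedIrrAbove K ⊥)
    (hne : χ ≠ ξ) {n : ℂ} (h : ∀ x ∈ K, x ≠ 1 → ξ x = n) : False := by
  have hχ' := hχ
  have hξ' := hξ
  rw [frob_indAbove_eq hC] at hχ' hξ'
  have h0 := classInner_const hχ h
  rw [Chars.classInner_irr_of_ne hχ'.1 hξ'.1 hne, eq_comm] at h0
  rcases mul_eq_zero.mp h0 with h1 | h1
  · rcases mul_eq_zero.mp h1 with h2 | h2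
    · exact inv_ne_zero Chars.card_ne_zero h2
    · exact Chars.irr_apply_one_ne_zero hχ'.1 h2
  · rw [map_eq_zero, sub_eq_zero] at h1
    obtain ⟨k, hk, hk1⟩ := hξ'.2
    exact hk1 (by rw [h k hk (fun e => hk1 (by rw [e])), h1])

/-- A virtual character with an integral constant value on `K#`. -/
theorem const_is_int {f : L → ℂ} (hf : Cfsg.IsGeneralizedCharacter L f) (hK : K ≠ ⊥) {n : ℂ}
    (h : ∀ x ∈ K, x ≠ 1 → f x = n) : ∃ z : ℤ, n = z := by
  obtain ⟨x, hx, hx1⟩ := (Subgroup.bot_or_exists_ne_one _).resolve_left hK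
  have hint : IsIntegral ℤ n := by
    rw [← h x hx hx1]
    obtain ⟨a, b, ha, hb, rfl⟩ := hf
    exact (Chars.isIntegral_of_isCharacter ha x).sub (Chars.isIntegral_of_isCharacter hb x)
  obtain ⟨w, hw⟩ := virt_apply_one hf
  obtain ⟨z, hz⟩ := exists_classInner_eq_int hf
    (virt_of_char (Chars.isCharacter_indFun K (Chars.isCharacter_one (G := K))))
  rw [indFun_one_eq, Chars.classInner_smul_right, classInner_kInd, map_natCast] at hz
  have hsum : (∑ x : L, if x ∈ K then f x else 0) = (w : ℂ) + ((Nat.card K : ℂ) - 1) * n := by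
    have h2 : ∀ x : L, (if x ∈ K then f x else 0) =
        n * (if x ∈ K then 1 else 0) + if x = 1 then f 1 - n else 0 := by
      intro x
      by_cases hx1 : x = 1
      · subst hx1; simp
      · by_cases hx : x ∈ K
        · rw [if_pos hx, if_pos hx, if_neg hx1, h x hx hx1]; ring
        · rw [if_neg hx, if_neg hx, if_neg hx1]; ring
    rw [Finset.sum_congr rfl (fun x _ => h2 x), Finset.sum_add_distrib, ← Finset.mul_sum,
      Finset.sum_boole, ← Fintype.card_subtype, ← Nat.card_eq_fintype_card, hw]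
    simp
    ring
  rw [hsum, ← K.card_mul_index] at hz
  haveI : Nontrivial K := (Subgroup.nontrivial_iff_ne_bot K).mpr hK
  have hK2 : 1 < Nat.card K := Finite.one_lt_card
  refine exists_int_of_mul_eq hint (q := Nat.card K - 1) (by omega)
    (a := z * (Nat.card K : ℤ) - w) ?_
  rw [Nat.cast_sub (by omega)]
  push_cast at hz ⊢
  field_simp [index_ne_zero' K, Chars.subgroup_card_ne_zero K] at hz
  linear_combination hz

end local_part

section pair

variable {G : Type u} [Group G] [Fintype G] (K L : Subgroup G) [Fintype L] [(K.subgroupOf L).Normal]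
  (hC : ∀ k ∈ K.subgroupOf L, k ≠ 1 → Subgroup.centralizer ({k} : Set L) ≤ K.subgroupOf L)
  {star : (L → ℂ) → (G → ℂ)}
  (hstar : Cfsg.IsLinearIsometryOn (Cfsg.zspan (Cfsg.inducedIrrAbove (K.subgroupOf L) ⊥)) star)
  (hext : ∀ α ∈ Cfsg.zspanOn (Cfsg.inducedIrrAbove (K.subgroupOf L) ⊥) {1}ᶜ,
    star α = Cfsg.indFun L α)

/-- The cross multiple of two members. -/
theorem cross_mem {χ ξ : L → ℂ} (hχ : χ ∈ Cfsg.inducedIrrAbove (K.subgroupOf L) ⊥)
    (hξ : ξ ∈ Cfsg.inducedIrrAbove (K.subgroupOf L) ⊥) {a b : ℕ} (ha : χ 1 = a) (hb : ξ 1 = b) :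
    (b : ℤ) • χ - (a : ℤ) • ξ ∈ Cfsg.zspanOn (Cfsg.inducedIrrAbove (K.subgroupOf L) ⊥) {1}ᶜ := by
  rw [mem_zspanOn_one]
  refine ⟨zspan_sub_mem (zspan_zsmul_mem (zspan_subset_apply hχ) _)
    (zspan_zsmul_mem (zspan_subset_apply hξ) _), ?_⟩
  simp [ha, hb, mul_comm]

include hstar hext in
theorem cross_image {χ ξ : L → ℂ} (hχ : χ ∈ Cfsg.inducedIrrAbove (K.subgroupOf L) ⊥)
    (hξ : ξ ∈ Cfsg.inducedIrrAbove (K.subgroupOf L) ⊥) {a b : ℕ} (ha : χ 1 = a) (hb : ξ 1 = b) :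
    (b : ℤ) • star χ - (a : ℤ) • star ξ = Cfsg.indFun L ((b : ℤ) • χ - (a : ℤ) • ξ) := by
  rw [← hext _ (cross_mem K L hχ hξ ha hb), iso_map_sub hstar
    (zspan_sub_mem (zspan_zsmul_mem (zspan_subset_apply hχ) _) (zspan_zsmul_mem (zspan_subset_apply hξ) _))
    (zspan_zsmul_mem (zspan_subset_apply hξ) _), hstar.2.1 _ (zspan_subset_apply hχ),
    hstar.2.1 _ (zspan_subset_apply hξ)]

include hC hstar hext in
/-- Coordinates of a restriction. -/
theorem res_proportional {ψ : G → ℂ} (hψ : Cfsg.IsClassFunction G ψ) :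
    ∃ c : ℂ, ∀ χ ∈ Cfsg.inducedIrrAbove (K.subgroupOf L) ⊥,
      Cfsg.classInner (fun l : L => ψ l) χ - Cfsg.classInner ψ (star χ) = c * χ 1 := by
  by_cases hS : ∃ ξ, ξ ∈ Cfsg.inducedIrrAbove (K.subgroupOf L) ⊥
  swap
  · exact ⟨0, fun χ hχ => absurd ⟨χ, hχ⟩ hS⟩
  obtain ⟨ξ, hξ⟩ := hS
  have hirr : ∀ χ ∈ Cfsg.inducedIrrAbove (K.subgroupOf L) ⊥, Cfsg.IsIrrCharacter L χ :=
    fun χ hχ => by rw [frob_indAbove_eq hC] at hχ; exact hχ.1
  obtain ⟨b, hb0, hb⟩ := Chars.exists_irr_apply_one_eq (hirr ξ hξ)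
  have hbC : (b : ℂ) ≠ 0 := by exact_mod_cast hb0.ne'
  refine ⟨(Cfsg.classInner (fun l : L => ψ l) ξ - Cfsg.classInner ψ (star ξ)) / b, fun χ hχ => ?_⟩
  obtain ⟨a, -, ha⟩ := Chars.exists_irr_apply_one_eq (hirr χ hχ)
  have h := congrArg (fun f => Cfsg.classInner f ψ) (cross_image K L hstar hext hχ hξ ha hb)
  rw [Chars2.indFun_reciprocity L _ hψ, Chars.classInner_sub_left, Chars.classInner_sub_left,
    classInner_zsmul_left, classInner_zsmul_left, classInner_zsmul_left, classInner_zsmul_left] at h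
  have h' := congrArg conj h
  simp only [map_sub, map_mul, map_intCast, Chars.classInner_conj_symm] at h'
  push_cast at h'
  rw [ha]
  field_simp
  linear_combination -h'

include hC hstar hext in
/-- The members of the family are the exceptional characters. -/
theorem exceptional_iff (htwo : ∃ χ ∈ Cfsg.inducedIrrAbove (K.subgroupOf L) ⊥,
      ∃ ξ ∈ Cfsg.inducedIrrAbove (K.subgroupOf L) ⊥, χ ≠ ξ) (hKL : K ≤ L)
    {ψ : G → ℂ} (hψ : Cfsg.IsIrrCharacter G ψ) :
    (∃ χ ∈ Cfsg.inducedIrrAbove (K.subgroupOf L) ⊥, ψ = star χ ∨ ψ = -star χ) ↔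
      ∃ a ∈ K, ∃ b ∈ K, a ≠ 1 ∧ b ≠ 1 ∧ ψ a ≠ ψ b := by
  set S := Cfsg.inducedIrrAbove (K.subgroupOf L) ⊥
  have hirr : ∀ χ ∈ S, Cfsg.IsIrrCharacter L χ :=
    fun χ hχ => by simp only [S] at hχ; rw [frob_indAbove_eq hC] at hχ; exact hχ.1
  have hcl := Chars.isClassFunction_of_isCharacter (Chars.isCharacter_of_isIrr hψ)
  have hclL : Cfsg.IsClassFunction L (fun l : L => ψ l) := fun x g => hcl x g
  have himg : ∀ χ ∈ S, Cfsg.classInner (star χ) (star χ) = 1 := fun χ hχ => by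
    rw [hstar.2.2.1 _ (zspan_subset_apply hχ) _ (zspan_subset_apply hχ), Chars.classInner_self_irr (hirr χ hχ)]
  obtain ⟨c, hc⟩ := res_proportional K L hC hstar hext hcl
  constructor
  · rintro ⟨ξ, hξ, hψe⟩
    by_contra hall
    push Not at hall
    obtain ⟨χ, hχ, hne⟩ : ∃ χ ∈ S, χ ≠ ξ := by
      obtain ⟨a, ha, b, hb, hab⟩ := htwo
      by_cases h : a = ξ
      · exact ⟨b, hb, fun h' => hab (h.trans h'.symm)⟩
      · exact ⟨a, ha, h⟩
    obtain ⟨σ, hσ, hσe⟩ : ∃ σ : ℤ, (σ = 1 ∨ σ = -1) ∧ ψ = σ • star ξ := by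
      rcases hψe with h | h
      · exact ⟨1, Or.inl rfl, by simp [h]⟩
      · exact ⟨-1, Or.inr rfl, by simp [h]⟩
    set g : L → ℂ := (fun l : L => ψ l) - σ • ξ with hgd
    obtain ⟨n, hn⟩ := const_of_proportional (f := g) hC
      (Chars.isClassFunction_sub hclL (virt_isClassFunction (virt_zsmul (virt_of_irr (hirr ξ hξ)) σ)))
      (c := c) fun φ hφ => by
        rw [hgd, Chars.classInner_sub_left, classInner_zsmul_left]
        have h1 := hc φ hφ
        have h2 : Cfsg.classInner ψ (star φ) = (σ : ℂ) * Cfsg.classInner ξ φ := by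
          rw [hσe, classInner_zsmul_left, hstar.2.2.1 _ (zspan_subset_apply hξ) _ (zspan_subset_apply hφ)]
        rw [← h2]
        exact h1
    have hKbot : ∃ k ∈ K.subgroupOf L, k ≠ 1 := by
      have h := hξ
      simp only [S] at h
      rw [frob_indAbove_eq hC] at h
      obtain ⟨-, k, hk, hk1⟩ := h
      exact ⟨k, hk, fun e => hk1 (by rw [e])⟩
    obtain ⟨k₀, hk₀, hk₀1⟩ := hKbot
    refine indAbove_not_const hC hχ hξ hne (n := (σ : ℂ) * (ψ k₀ - n)) fun x hx hx1 => ?_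
    have h1 := hn x hx hx1
    simp only [hgd, Pi.sub_apply, Pi.smul_apply, zsmul_eq_mul] at h1
    rw [← h1, hall x (Subgroup.mem_subgroupOf.mp hx) k₀ (Subgroup.mem_subgroupOf.mp hk₀)
      (fun e => hx1 (Subtype.ext e)) (fun e => hk₀1 (Subtype.ext e))]
    rcases hσ with rfl | rfl <;> simp
  · rintro ⟨a, ha, b, hb, ha1, hb1, hab⟩
    by_contra hno
    push Not at hno
    obtain ⟨n, hn⟩ := const_of_proportional (f := fun l : L => ψ l) hC hclL (c := c) fun φ hφ => by
      have h1 := hc φ hφ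
      have h0 : Cfsg.classInner ψ (star φ) = 0 := by
        rcases virt_norm_one (hstar.2.2.2 _ (zspan_subset_apply hφ)) (himg φ hφ) with h | h
        · exact Chars.classInner_irr_of_ne hψ h (hno φ hφ).1
        · have h2 := Chars.classInner_irr_of_ne hψ h (hno φ hφ).2
          rw [← neg_neg (star φ), ← neg_one_smul ℤ (-star φ), classInner_zsmul_right, h2, mul_zero]
      rw [h0, sub_zero] at h1
      exact h1
    refine hab ?_
    rw [show ψ a = n from hn ⟨a, hKL ha⟩ (Subgroup.mem_subgroupOf.mpr ha) (fun e => ha1 (congrArg Subtype.val e)),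
      show ψ b = n from hn ⟨b, hKL hb⟩ (Subgroup.mem_subgroupOf.mpr hb) (fun e => hb1 (congrArg Subtype.val e))]

include hC hstar hext in
/-- The discrepancy between a member and its image on the kernel. -/
theorem restriction_constant (hKL : K ≤ L) (hK : K.subgroupOf L ≠ ⊥) (hKt : K.subgroupOf L ≠ ⊤)
    (hTI : ∀ g : G, g ∉ L → ∀ k ∈ K, g * k * g⁻¹ ∈ K → k = 1) :
    ∃ m : ℤ, ∀ χ ∈ Cfsg.inducedIrrAbove (K.subgroupOf L) ⊥, ∀ k : L, (k : G) ∈ K → k ≠ 1 →
      star χ k - χ k = (m : ℂ) * χ 1 / ((K.subgroupOf L).index : ℂ) := by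
  set S := Cfsg.inducedIrrAbove (K.subgroupOf L) ⊥
  have hirr : ∀ χ ∈ S, Cfsg.IsIrrCharacter L χ :=
    fun χ hχ => by simp only [S] at hχ; rw [frob_indAbove_eq hC] at hχ; exact hχ.1
  haveI := frob_nilpotent _ hC hKt
  obtain ⟨ψ₁, hψ₁, hdeg⟩ := exists_linear_above (K.subgroupOf L) inferInstance ⊥ (Ne.bot_lt hK)
  set e := (K.subgroupOf L).index
  have hψ₁1 : ψ₁ 1 = (e : ℂ) := by
    obtain ⟨n, -, hn⟩ := Chars.exists_irr_apply_one_eq (hirr ψ₁ hψ₁)
    rw [deg, hn, Complex.natCast_re, Nat.floor_natCast] at hdeg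
    rw [hn, hdeg]
  have hconst : ∀ χ ∈ S, ∃ n : ℂ, ∀ x ∈ K.subgroupOf L, x ≠ 1 → star χ (x : G) - χ x = n := by
    intro χ hχ
    have hcl := virt_isClassFunction (hstar.2.2.2 _ (zspan_subset_apply hχ))
    obtain ⟨c, hc⟩ := res_proportional K L hC hstar hext hcl
    exact const_of_proportional (f := (fun l : L => star χ l) - χ) hC
      (Chars.isClassFunction_sub (fun x g => hcl x g) (virt_isClassFunction (virt_of_irr (hirr χ hχ))))
      (c := c) fun φ hφ => by
        rw [Chars.classInner_sub_left]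
        have h1 := hc φ hφ
        rw [hstar.2.2.1 _ (zspan_subset_apply hχ) _ (zspan_subset_apply hφ)] at h1
        exact h1
  obtain ⟨n, hn⟩ := hconst ψ₁ hψ₁
  obtain ⟨m, hm⟩ := const_is_int (f := (fun l : L => star ψ₁ l) - ψ₁)
    (virt_sub (Chars.isGen_restrict (hstar.2.2.2 _ (zspan_subset_apply hψ₁)) L)
      (virt_of_irr (hirr ψ₁ hψ₁))) hK hn
  refine ⟨m, fun χ hχ k hk hk1 => ?_⟩
  obtain ⟨a, -, ha⟩ := Chars.exists_irr_apply_one_eq (hirr χ hχ)
  have hmem := cross_mem K L hχ hψ₁ ha hψ₁1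
  obtain ⟨hmem1, hmem0⟩ := mem_zspanOn_one.mp hmem
  set α := (e : ℤ) • χ - (a : ℤ) • ψ₁ with hα
  have hval : Cfsg.indFun L α (k : G) = α k := by
    refine Chars2.indFun_eq_of_ti L α {g | g ∈ K ∧ g ≠ 1} (fun x hx => ?_)
      (fun g hg s hs hgs => hs.2 (hTI g hg s hs.1 hgs.1))
      (virt_isClassFunction (virt_sub (virt_zsmul (virt_of_irr (hirr χ hχ)) _)
        (virt_zsmul (virt_of_irr (hirr ψ₁ hψ₁)) _))) k ⟨hk, fun h => hk1 (Subtype.ext h)⟩
    by_cases hx1 : x = 1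
    · rw [hx1]; exact hmem0
    · exact indAbove_vanish_outside hmem1 fun h => hx ⟨h, fun h' => hx1 (Subtype.ext h')⟩
  rw [← cross_image K L hstar hext hχ hψ₁ ha hψ₁1] at hval
  simp only [hα, Pi.sub_apply, Pi.smul_apply, zsmul_eq_mul, Int.cast_natCast, Pi.mul_apply, Pi.natCast_apply] at hval
  have hnk := hn k (Subgroup.mem_subgroupOf.mpr hk) hk1
  simp only [Pi.sub_apply, hm] at hnk
  rw [ha, eq_div_iff (index_ne_zero' _)]
  linear_combination hval + (a : ℂ) * hnk

end pair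

end Cfsg.Agent.OddChar
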