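import Mathlib

/-! Equivariant products and invariant trilinear forms. -/

set_option autoImplicit false

namespace Cfsg.Agent.OddChar

variable {H : Type*} [Group H] {U : Type*} [AddCommGroup U] [Module ℝ U] [FiniteDimensional ℝ U]

theorem product_form_duality (ρ : Representation ℝ H U)
    (hirr : ∀ W : Submodule ℝ U, (∀ g : H, W.map (ρ g) ≤ W) → W = ⊥ ∨ W = ⊤)
    (B : LinearMap.BilinForm ℝ U) (hB0 : B ≠ 0) (hBs : ∀ u v, B u v = B v u)
    (hBi : ∀ (g : H) (u v : U), B (ρ g u) (ρ g v) = B u v) :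
    (∃ m : U →ₗ[ℝ] U →ₗ[ℝ] U, m ≠ 0 ∧ (∀ u v, m u v = m v u) ∧
      (∀ (g : H) (u v : U), m (ρ g u) (ρ g v) = ρ g (m u v)) ∧
      ∀ m' : U →ₗ[ℝ] U →ₗ[ℝ] U, (∀ (g : H) (u v : U), m' (ρ g u) (ρ g v) = ρ g (m' u v)) →
        ∃ c : ℝ, m' = c • m) ↔
    (∃ t : U →ₗ[ℝ] U →ₗ[ℝ] U →ₗ[ℝ] ℝ, t ≠ 0 ∧ (∀ u v w, t u v w = t v u w ∧ t u v w = t u w v) ∧
      (∀ (g : H) (u v w : U), t (ρ g u) (ρ g v) (ρ g w) = t u v w) ∧
      ∀ t' : U →ₗ[ℝ] U →ₗ[ℝ] U →ₗ[ℝ] ℝ,
        (∀ (g : H) (u v w : U), t' (ρ g u) (ρ g v) (ρ g w) = t' u v w) → ∃ c : ℝ, t' = c • t) := by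
  have hinvmap : ∀ (g : H) (w : U), ρ g (ρ g⁻¹ w) = w := fun g w => by
    rw [← Module.End.mul_apply, ← map_mul, mul_inv_cancel, map_one, Module.End.one_apply]
  have hker : LinearMap.ker B = ⊥ := by
    rcases hirr (LinearMap.ker B) (fun g => by
      rintro _ ⟨u, hu, rfl⟩
      rw [SetLike.mem_coe, LinearMap.mem_ker] at hu
      refine LinearMap.mem_ker.2 (LinearMap.ext fun w => ?_)
      rw [← hinvmap g w, hBi, hu]
      rfl) with h | h
    · exact h
    · exact absurd (LinearMap.ext fun u => LinearMap.mem_ker.1 (h.symm ▸ Submodule.mem_top)) hB0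
  have hnd : B.Nondegenerate := by
    have hl : ∀ u, (∀ w, B u w = 0) → u = 0 := fun u h => by
      have : u ∈ LinearMap.ker B := LinearMap.mem_ker.2 (LinearMap.ext h)
      rwa [hker, Submodule.mem_bot] at this
    exact ⟨hl, fun u h => hl u fun w => by rw [hBs]; exact h w⟩
  set D := LinearMap.BilinForm.toDual B hnd
  have hD : ∀ (f : Module.Dual ℝ U) (w : U), B (D.symm f) w = f w := fun f w =>
    LinearMap.BilinForm.apply_toDual_symm_apply f w
  have hsep : ∀ x y : U, (∀ w, B x w = B y w) → x = y := fun x y h => by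
    have h1 : x - y ∈ LinearMap.ker B := LinearMap.mem_ker.2 (LinearMap.ext fun w => by simp [h w])
    rw [hker, Submodule.mem_bot, sub_eq_zero] at h1
    exact h1
  -- an invariant trilinear form gives an equivariant product
  have hmk : ∀ t : U →ₗ[ℝ] U →ₗ[ℝ] U →ₗ[ℝ] ℝ,
      (∀ (g : H) (u v w : U), t (ρ g u) (ρ g v) (ρ g w) = t u v w) →
      ∀ (g : H) (u v : U), (t.compr₂ D.symm.toLinearMap) (ρ g u) (ρ g v)
        = ρ g ((t.compr₂ D.symm.toLinearMap) u v) := by
    intro t ht g u v
    refine hsep _ _ fun w => ?_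
    rw [← hinvmap g w]
    simp only [LinearMap.compr₂_apply, LinearEquiv.coe_coe, hD, hBi, ht]
  constructor
  · rintro ⟨m, hm0, hms, hmi, hmu⟩
    have hti : ∀ (g : H) (u v w : U), (m.compr₂ B) (ρ g u) (ρ g v) (ρ g w) = (m.compr₂ B) u v w :=
      fun g u v w => by simp only [LinearMap.compr₂_apply, hmi, hBi]
    let t₁ : U →ₗ[ℝ] U →ₗ[ℝ] U →ₗ[ℝ] ℝ :=
      LinearMap.mk₂ ℝ (fun u v => (B.flip v).comp (m u))
        (fun a b v => by apply LinearMap.ext; intro w; simp)
        (fun c a v => by apply LinearMap.ext; intro w; simp)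
        (fun u a b => by apply LinearMap.ext; intro w; simp)
        (fun c u a => by apply LinearMap.ext; intro w; simp)
    have ht₁ : ∀ u v w, t₁ u v w = B (m u w) v := fun u v w => rfl
    obtain ⟨c, hc⟩ := hmu (t₁.compr₂ D.symm.toLinearMap)
      (hmk t₁ fun g u v w => by rw [ht₁, ht₁, hmi, hBi])
    have key : ∀ u v w, B (m u w) v = c * B (m u v) w := fun u v w => by
      have h := congrArg (fun f : U →ₗ[ℝ] U →ₗ[ℝ] U => B (f u v) w) hc
      simpa [hD, ht₁] using h
    have hsym : ∀ u v w, B (m u w) v = B (m u v) w := by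
      by_cases hc1 : c = 1
      · intro u v w; rw [key, hc1, one_mul]
      exfalso
      refine hm0 (LinearMap.ext fun u => LinearMap.ext fun v => hsep _ _ fun w => ?_)
      simp only [LinearMap.zero_apply, map_zero]
      by_contra hne
      have h2 : c * c = 1 := by
        have := key u v w
        have h' := key u w v
        rw [h', ← mul_assoc] at this
        -- `B (m u v) w = (c * c) * B (m u v) w`
        have h3 : (c * c - 1) * B (m u w) v = 0 := by
          have a := key u v w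
          have b := key u w v
          rw [b, ← mul_assoc] at a
          linarith [key u v w, key u w v, a]
        rcases mul_eq_zero.1 h3 with h4 | h4
        · linarith
        · exfalso; apply hne; rw [key u w v, h4, mul_zero]
      have hcm : c = -1 := by
        rcases mul_self_eq_one_iff.1 h2 with h | h
        · exact absurd h hc1
        · exact h
      have anti : ∀ a b d, B (m a d) b = - B (m a b) d := fun a b d => by rw [key, hcm]; ring
      apply hne
      have h1 : B (m u v) w = - B (m u w) v := anti u w v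
      have h3 : B (m w u) v = - B (m w v) u := anti w v u
      have h5 : B (m v w) u = - B (m v u) w := anti v u w
      rw [hms u w, h3, hms w v, h5, hms v u] at h1
      linarith
    refine ⟨m.compr₂ B, ?_, fun u v w => ⟨?_, ?_⟩, hti, fun t' ht' => ?_⟩
    · intro h0
      refine hm0 (LinearMap.ext fun u => LinearMap.ext fun v => hsep _ _ fun w => ?_)
      have := congrArg (fun f : U →ₗ[ℝ] U →ₗ[ℝ] U →ₗ[ℝ] ℝ => f u v w) h0
      simpa using this
    · simp only [LinearMap.compr₂_apply, hms u v]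
    · simp only [LinearMap.compr₂_apply]; exact (hsym u v w).symm
    · obtain ⟨d, hd⟩ := hmu _ (hmk t' ht')
      refine ⟨d, LinearMap.ext fun u => LinearMap.ext fun v => LinearMap.ext fun w => ?_⟩
      have := congrArg (fun f : U →ₗ[ℝ] U →ₗ[ℝ] U => B (f u v) w) hd
      simpa [hD] using this
  · rintro ⟨t, ht0, hts, hti, htu⟩
    refine ⟨t.compr₂ D.symm.toLinearMap, ?_, fun u v => ?_, hmk t hti, fun m' hm' => ?_⟩
    · intro h0
      refine ht0 (LinearMap.ext fun u => LinearMap.ext fun v => LinearMap.ext fun w => ?_)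
      have := congrArg (fun f : U →ₗ[ℝ] U →ₗ[ℝ] U => B (f u v) w) h0
      simpa [hD] using this
    · refine hsep _ _ fun w => ?_
      simp only [LinearMap.compr₂_apply, LinearEquiv.coe_coe, hD]
      exact (hts u v w).1
    · obtain ⟨d, hd⟩ := htu (m'.compr₂ B) fun g u v w => by
        simp only [LinearMap.compr₂_apply, hm', hBi]
      refine ⟨d, LinearMap.ext fun u => LinearMap.ext fun v => hsep _ _ fun w => ?_⟩
      have := congrArg (fun f : U →ₗ[ℝ] U →ₗ[ℝ] U →ₗ[ℝ] ℝ => f u v w) hd
      simpa [hD] using this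

end Cfsg.Agent.OddChar
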