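import Cfsg.Agent.Screen.TwoGroupNormal
import Cfsg.Agent.S0015
import Cfsg.Agent.FGS2.Basic
import Cfsg.Agent.OddLocal.UniqueSubgroup

/-!
`p`-groups all of whose normal abelian subgroups are cyclic. The first theorem is the proof of
`Screen.exists_cyclic_index_two`, recording that the subgroup found is cyclic.
-/

set_option autoImplicit false
set_option linter.style.haveILetI false

namespace Cfsg.Agent.OddChar.TwoNormal

open Cfsg.Agent.Screen (exists_central_mod odd_pow_cases mul_zpow_of_conj mul_mul_mul_comm_of)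

theorem exists_cyclic_index_two {P : Type*} [Group P] [Finite P] (hP : IsPGroup 2 P) {z : P}
    (hz : orderOf z = 2) (hzc : ∀ s : P, s * z = z * s)
    (huniq : ∀ c : P, orderOf c = 2 → (∀ s : P, s * c = c * s) → c = z)
    (hno : ∀ w : P, orderOf w = 2 → w ≠ z → ∃ s : P, s * w * s⁻¹ ≠ w ∧ s * w * s⁻¹ ≠ w * z)
    {x : P} (hx : orderOf x = 2) (hxz : x ≠ z) :
    ∃ A : Subgroup P, A.index = 2 ∧ x ∉ A ∧ IsCyclic A := by
  haveI : Fact (Nat.Prime 2) := ⟨Nat.prime_two⟩
  obtain ⟨A, ⟨hAn, hAc⟩, hAmax⟩ := Set.Finite.exists_maximal (Set.toFinite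
    {A : Subgroup P | A.Normal ∧ ∀ a ∈ A, ∀ b ∈ A, a * b = b * a})
    ⟨⊥, inferInstance, by simp⟩
  haveI := hAn
  have zz : z * z = 1 := by rw [← pow_two, ← hz, pow_orderOf_eq_one]
  have hz1 : z ≠ 1 := fun e => by rw [e, orderOf_one] at hz; omega
  have hE : ∀ a ∈ A, orderOf a = 2 → a = z := by
    intro a ha ha2
    by_contra haz
    let E : Subgroup P :=
      { carrier := {e | e ∈ A ∧ e * e = 1}
        one_mem' := ⟨A.one_mem, one_mul 1⟩
        mul_mem' := fun {e f} he hf => ⟨A.mul_mem he.1 hf.1, by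
          rw [mul_mul_mul_comm_of hAc he.1 hf.1, he.2, hf.2, one_mul]⟩
        inv_mem' := fun {e} he => ⟨A.inv_mem he.1, by rw [← mul_inv_rev, he.2, inv_one]⟩ }
    haveI : E.Normal := ⟨fun e he g => ⟨hAn.conj_mem e he.1 g, by
      rw [show g * e * g⁻¹ * (g * e * g⁻¹) = g * (e * e) * g⁻¹ by group, he.2]; group⟩⟩
    haveI : (Subgroup.zpowers z).Normal := ⟨fun e he g => by
      obtain ⟨i, rfl⟩ := Subgroup.mem_zpowers_iff.1 he
      rw [← conj_zpow, hzc g, mul_inv_cancel_right]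
      exact Subgroup.zpow_mem _ (Subgroup.mem_zpowers z) i⟩
    have hmem : ∀ e ∈ Subgroup.zpowers z, e = 1 ∨ e = z := by
      intro e he
      obtain ⟨i, rfl⟩ := Subgroup.mem_zpowers_iff.1 he
      rcases Int.even_or_odd i with ⟨l, rfl⟩ | ⟨l, rfl⟩
      · left; rw [← two_mul, zpow_mul, zpow_two, zz, one_zpow]
      · right; rw [zpow_add, zpow_mul, zpow_two, zz, one_zpow, one_mul, zpow_one]
    have ha' : a ∈ E := ⟨ha, by rw [← pow_two, ← ha2, pow_orderOf_eq_one]⟩
    obtain ⟨w, hw, hwz, hws⟩ := exists_central_mod hP E (Subgroup.zpowers z) (fun hle => by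
      rcases hmem a (hle ha') with e | e
      · rw [e, orderOf_one] at ha2; omega
      · exact haz e)
    have hw2 : orderOf w = 2 := orderOf_eq_prime (by rw [pow_two]; exact hw.2)
      (fun e => hwz (by rw [e]; exact Subgroup.one_mem _))
    obtain ⟨s, hs1, hs2⟩ := hno w hw2 (fun e => hwz (by rw [e]; exact Subgroup.mem_zpowers z))
    rcases hmem _ (hws s) with e | e
    · exact hs1 (mul_inv_eq_one.1 e)
    · exact hs2 (by rw [mul_inv_eq_iff_eq_mul.1 e, hzc w])
  have hxA : x ∉ A := fun h => hxz (hE x h hx)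
  -- `A` is cyclic
  obtain ⟨⟨a, haA⟩, hamax⟩ := Finite.exists_max (fun b : A => orderOf (b : P))
  simp only at hamax
  have hz_in : ∀ b ∈ A, b ≠ 1 → z ∈ A := by
    intro b hb hb1
    obtain ⟨n, hn⟩ := (IsPGroup.iff_orderOf.1 hP) b
    have hn0 : n ≠ 0 := by rintro rfl; exact hb1 (orderOf_eq_one_iff.1 (by simpa using hn))
    have h2 : orderOf (b ^ 2 ^ (n - 1)) = 2 := by
      rw [orderOf_pow, hn, Nat.gcd_eq_right (pow_dvd_pow 2 (by omega)), Nat.pow_div (by omega) (by norm_num),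
        show n - (n - 1) = 1 by omega, pow_one]
    exact hE _ (A.pow_mem hb _) h2 ▸ A.pow_mem hb _
  have hcyc : ∀ b ∈ A, b ∈ Subgroup.zpowers a := by
    by_contra hcon
    push Not at hcon
    obtain ⟨b₀, hb₀, hb₀a⟩ := hcon
    obtain ⟨N, hN⟩ := (IsPGroup.iff_orderOf.1 hP) b₀
    have hex : ∃ t, b₀ ^ 2 ^ t ∈ Subgroup.zpowers a :=
      ⟨N, by rw [← hN, pow_orderOf_eq_one]; exact Subgroup.one_mem _⟩
    obtain ⟨t, ht, htmin⟩ : ∃ t, b₀ ^ 2 ^ t ∈ Subgroup.zpowers a ∧
        ∀ t' < t, b₀ ^ 2 ^ t' ∉ Subgroup.zpowers a := ⟨Nat.find hex, Nat.find_spec hex, fun _ => Nat.find_min hex⟩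
    rcases t with _ | t
    · exact hb₀a (by simpa using ht)
    set b := b₀ ^ 2 ^ t with hb
    have hba : b ∉ Subgroup.zpowers a := htmin t (by omega)
    have hbA : b ∈ A := A.pow_mem hb₀ _
    have hb2 : b * b ∈ Subgroup.zpowers a := by rw [hb, ← pow_add, ← two_mul, ← pow_succ']; exact ht
    have ha1 : a ≠ 1 := by
      intro e
      refine hba ?_
      have h1 : orderOf b ≤ orderOf a := hamax ⟨b, hbA⟩
      rw [e, orderOf_one] at h1
      have h2 := orderOf_pos b
      rw [orderOf_eq_one_iff.1 (show orderOf b = 1 by omega)]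
      exact Subgroup.one_mem _
    obtain ⟨n, hn⟩ := (IsPGroup.iff_orderOf.1 hP) a
    have hn0 : n ≠ 0 := by rintro rfl; exact ha1 (orderOf_eq_one_iff.1 (by simpa using hn))
    obtain ⟨j, hj⟩ := Subgroup.mem_zpowers_iff.1 hb2
    rcases Int.even_or_odd j with ⟨l, hl⟩ | ⟨l, hl⟩
    · set c := b * a ^ (-l) with hc
      have hcA : c ∈ A := A.mul_mem hbA (A.zpow_mem haA _)
      have hcc : c * c = 1 := by
        rw [hc, mul_mul_mul_comm_of hAc hbA (A.zpow_mem haA _), ← zpow_add, ← hj, ← zpow_add, hl]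
        rw [show l + l + (-l + -l) = 0 by ring, zpow_zero]
      have hc1 : c ≠ 1 := by
        intro e
        refine hba ?_
        rw [eq_inv_of_mul_eq_one_left e, ← zpow_neg, neg_neg]
        exact Subgroup.zpow_mem _ (Subgroup.mem_zpowers a) l
      have hcz := hE c hcA (orderOf_eq_prime (by rw [pow_two]; exact hcc) hc1)
      have h2n : orderOf (a ^ 2 ^ (n - 1)) = 2 := by
        rw [orderOf_pow, hn, Nat.gcd_eq_right (pow_dvd_pow 2 (by omega)), Nat.pow_div (by omega) (by norm_num),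
          show n - (n - 1) = 1 by omega, pow_one]
      have hza := hE _ (A.pow_mem haA _) h2n
      refine hba ?_
      have hb' : b = c * a ^ l := by rw [hc, mul_assoc, ← zpow_add, neg_add_cancel, zpow_zero, mul_one]
      rw [hb', hcz, ← hza]
      exact Subgroup.mul_mem _ (Subgroup.pow_mem _ (Subgroup.mem_zpowers a) _)
        (Subgroup.zpow_mem _ (Subgroup.mem_zpowers a) l)
    · have h1 : orderOf b ≤ orderOf a := hamax ⟨b, hbA⟩
      obtain ⟨i, hi⟩ := (IsPGroup.iff_orderOf.1 hP) b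
      rw [hi, hn] at h1
      have hin : i ≤ n := (Nat.pow_le_pow_iff_right (by norm_num)).1 h1
      have h2 : b ^ (2 ^ n : ℤ) = 1 := by
        have h2' : b ^ (2 ^ n : ℕ) = 1 := orderOf_dvd_iff_pow_eq_one.1 (hi ▸ pow_dvd_pow 2 hin)
        exact_mod_cast h2'
      obtain ⟨n', rfl⟩ : ∃ n', n = n' + 1 := ⟨n - 1, by omega⟩
      rw [pow_succ, mul_comm, zpow_mul, zpow_two, ← hj, ← zpow_mul, ← orderOf_dvd_iff_zpow_eq_one,
        hn, hl] at h2
      push_cast at h2
      rw [pow_succ, mul_comm ((2 * l + 1) : ℤ) _] at h2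
      have h3 : (2 : ℤ) ∣ 2 * l + 1 := (mul_dvd_mul_iff_left (pow_ne_zero n' (by norm_num))).1 h2
      omega
  obtain ⟨n, hn⟩ := (IsPGroup.iff_orderOf.1 hP) a
  have hpow : ∀ i : ℤ, a ^ i = 1 ↔ (2 : ℤ) ^ n ∣ i := fun i => by
    rw [← orderOf_dvd_iff_zpow_eq_one, hn]; push_cast; exact Iff.rfl
  -- self-centralizing
  have hCA : ∀ s : P, s * a = a * s → s ∈ A := by
    intro s hs
    set C := Subgroup.centralizer (A : Set P) with hC
    have hsC : s ∈ C := by
      rw [hC, Subgroup.mem_centralizer_iff]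
      intro b hb
      obtain ⟨i, rfl⟩ := Subgroup.mem_zpowers_iff.1 (hcyc b hb)
      exact ((show Commute s a from hs).zpow_right i).eq.symm
    by_contra hsA
    haveI : C.Normal := by rw [hC]; infer_instance
    obtain ⟨c, hc, hcA, hcs⟩ := exists_central_mod hP C A (fun h => hsA (h hsC))
    let B : Subgroup P := A ⊔ Subgroup.zpowers c
    have hAB : A ≤ B := le_sup_left
    have hcB : c ∈ B := Subgroup.mem_sup_right (Subgroup.mem_zpowers c)
    have hBn : B.Normal := ⟨fun b hb g => by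
      have hle : B.map (MulAut.conj g).toMonoidHom ≤ B := by
        rw [Subgroup.map_sup, MonoidHom.map_zpowers]
        refine sup_le ?_ ((Subgroup.zpowers_le).2 ?_)
        · rintro _ ⟨y, hy, rfl⟩
          exact hAB (hAn.conj_mem y hy g)
        · show g * c * g⁻¹ ∈ B
          have : g * c * g⁻¹ = g * c * g⁻¹ * c⁻¹ * c := by rw [inv_mul_cancel_right]
          rw [this]
          exact B.mul_mem (hAB (hcs g)) hcB
      exact hle (Subgroup.mem_map.2 ⟨b, hb, rfl⟩)⟩
    have hBc : ∀ u ∈ B, ∀ v ∈ B, u * v = v * u := by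
      have hle : B ≤ Subgroup.centralizer (B : Set P) := by
        refine sup_le ?_ ((Subgroup.zpowers_le).2 ?_)
        · intro y hy
          rw [Subgroup.mem_centralizer_iff]
          have : B ≤ Subgroup.centralizer ({y} : Set P) := sup_le
            (fun u hu => Subgroup.mem_centralizer_singleton_iff.2 (hAc u hu y hy))
            ((Subgroup.zpowers_le).2 (Subgroup.mem_centralizer_singleton_iff.2
              ((Subgroup.mem_centralizer_iff.1 hc y hy).symm)))
          exact fun u hu => Subgroup.mem_centralizer_singleton_iff.1 (this hu)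
        · rw [Subgroup.mem_centralizer_iff]
          have : B ≤ Subgroup.centralizer ({c} : Set P) := sup_le
            (fun u hu => Subgroup.mem_centralizer_singleton_iff.2 (Subgroup.mem_centralizer_iff.1 hc u hu))
            ((Subgroup.zpowers_le).2 (Subgroup.mem_centralizer_singleton_iff.2 rfl))
          exact fun u hu => Subgroup.mem_centralizer_singleton_iff.1 (this hu)
      exact fun u hu v hv => (Subgroup.mem_centralizer_iff.1 (hle hu) v hv).symm
    exact hcA (hAmax ⟨hBn, hBc⟩ hAB hcB)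
  -- conjugation exponents
  have hexp : ∀ s : P, ∃ k : ℤ, s * a * s⁻¹ = a ^ k := fun s => by
    obtain ⟨k, hk⟩ := Subgroup.mem_zpowers_iff.1 (hcyc _ (hAn.conj_mem a haA s))
    exact ⟨k, hk.symm⟩
  have hcomp : ∀ {s t : P} {k l : ℤ}, s * a * s⁻¹ = a ^ k → t * a * t⁻¹ = a ^ l →
      s * t * a * (s * t)⁻¹ = a ^ (k * l) := by
    intro s t k l hk hl
    calc s * t * a * (s * t)⁻¹ = s * (t * a * t⁻¹) * s⁻¹ := by group
      _ = a ^ (k * l) := by rw [hl, ← conj_zpow, hk, ← zpow_mul]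
  have hmod : ∀ {k l : ℤ}, k ≡ l [ZMOD (2 : ℤ) ^ n] → a ^ k = a ^ l := by
    intro k l hkl
    have hz' := (hpow (l - k)).2 (Int.modEq_iff_dvd.1 hkl)
    rw [zpow_sub, mul_inv_eq_one] at hz'
    exact hz'.symm
  have hmod' : ∀ {k l : ℤ}, a ^ k = a ^ l → k ≡ l [ZMOD (2 : ℤ) ^ n] := by
    intro k l hkl
    exact Int.modEq_iff_dvd.2 ((hpow (l - k)).1 (by rw [zpow_sub, ← hkl, mul_inv_cancel]))
  -- no element acts as `1 + 2 ^ (n - 1)`
  have hu : ∀ b : P, 3 ≤ n → b * a * b⁻¹ ≠ a ^ (1 + (2 : ℤ) ^ (n - 1)) := by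
    intro b hn3 hb
    obtain ⟨m, rfl⟩ : ∃ m, n = m + 3 := ⟨n - 3, by omega⟩
    rw [show m + 3 - 1 = m + 2 by omega] at hb
    set u : ℤ := 1 + (2 : ℤ) ^ (m + 2) with hu_def
    have huu : u * u ≡ 1 [ZMOD (2 : ℤ) ^ (m + 3)] :=
      (Int.modEq_iff_dvd.2 ⟨1 + (2 : ℤ) ^ (m + 1), by rw [hu_def]; ring⟩).symm
    have hbb : b * b ∈ A := hCA _ (by
      have h := hcomp hb hb
      rw [hmod huu, zpow_one, mul_inv_eq_iff_eq_mul] at h
      exact h)
    obtain ⟨c, hc⟩ := Subgroup.mem_zpowers_iff.1 (hcyc _ hbb)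
    have hcu : a ^ (c * u) = a ^ c := by
      have h1 : b * a ^ c * b⁻¹ = a ^ (u * c) := by rw [← conj_zpow, hb, ← zpow_mul]
      rw [hc, show b * (b * b) * b⁻¹ = b * b by group, ← hc, mul_comm] at h1
      exact h1.symm
    obtain ⟨e, he⟩ := (Int.modEq_iff_dvd.1 (hmod' hcu).symm)
    have hceven : c = 2 * e := by
      have h1 : c * (2 : ℤ) ^ (m + 2) = 2 * e * (2 : ℤ) ^ (m + 2) := by
        calc c * (2 : ℤ) ^ (m + 2) = c * u - c := by rw [hu_def]; ring
          _ = 2 * e * (2 : ℤ) ^ (m + 2) := by rw [he]; ring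
      exact mul_right_cancel₀ (pow_ne_zero _ (by norm_num)) h1
    obtain ⟨p, q, hpq⟩ : IsCoprime (1 + (2 : ℤ) ^ (m + 1)) ((2 : ℤ) ^ (m + 2)) :=
      IsCoprime.pow_right ⟨1, -((2 : ℤ) ^ m), by ring⟩
    set i := -e * p with hi
    set w := b * a ^ i with hw
    have hwA : w ∉ A := by
      intro h
      have hbA : b ∈ A := by
        have := A.mul_mem h (A.zpow_mem haA (-i))
        rwa [hw, mul_assoc, ← zpow_add, add_neg_cancel, zpow_zero, mul_one] at this
      rw [hAc b hbA a haA, mul_inv_cancel_right] at hb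
      have h2 := hmod' (show a ^ (1 : ℤ) = a ^ u by rw [zpow_one]; exact hb)
      obtain ⟨e2, he2⟩ := Int.modEq_iff_dvd.1 h2
      have h3 : (2 : ℤ) ^ (m + 2) * 1 = (2 : ℤ) ^ (m + 2) * (2 * e2) := by
        calc (2 : ℤ) ^ (m + 2) * 1 = u - 1 := by rw [hu_def]; ring
          _ = (2 : ℤ) ^ (m + 2) * (2 * e2) := by rw [he2]; ring
      have h4 := mul_left_cancel₀ (pow_ne_zero _ (by norm_num)) h3
      omega
    have hww : w * w = 1 := by
      rw [hw, mul_zpow_of_conj hb i, ← hc, ← zpow_add, ← zpow_add, hpow]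
      exact ⟨e * q, by rw [hceven, hi, hu_def]; linear_combination (2 * e) * hpq.symm⟩
    have hw1 : w ≠ 1 := fun h => hwA (h ▸ A.one_mem)
    have hw2 : orderOf w = 2 := orderOf_eq_prime (by rw [pow_two]; exact hww) hw1
    have hwact : w * a * w⁻¹ = a ^ u := by
      calc w * a * w⁻¹ = b * (a ^ i * a * (a ^ i)⁻¹) * b⁻¹ := by rw [hw]; group
        _ = a ^ u := by rw [(Commute.zpow_self a i).eq, mul_inv_cancel_right, hb]
    obtain ⟨s, hs1, hs2⟩ := hno w hw2 (fun h => by
      have h5 : w ∈ A := by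
        refine hCA w ?_
        rw [h]; exact (hzc a).symm
      exact hwA h5)
    set w' := s * w * s⁻¹ with hw'
    obtain ⟨k, hk⟩ := hexp s
    obtain ⟨k', hk'⟩ := hexp s⁻¹
    have hw'act : w' * a * w'⁻¹ = a ^ u := by
      calc w' * a * w'⁻¹ = s * (w * (s⁻¹ * a * s⁻¹⁻¹) * w⁻¹) * s⁻¹ := by rw [hw']; group
        _ = a ^ u := by
          rw [hk', ← conj_zpow, hwact, ← zpow_mul, mul_comm u k', zpow_mul, ← conj_zpow]
          congr 1
          rw [← hk']; group
    have hl : w⁻¹ * w' ∈ A := hCA _ (by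
      have h1 : w' * a * w'⁻¹ = w * a * w⁻¹ := hw'act.trans hwact.symm
      have h2 := congrArg (fun t => w⁻¹ * t * w') h1
      simpa [mul_assoc] using h2)
    obtain ⟨l, hl'⟩ := Subgroup.mem_zpowers_iff.1 (hcyc _ hl)
    have hw'eq : w' = w * a ^ l := by rw [hl', mul_inv_cancel_left]
    have hw'2 : w' * w' = 1 := by
      rw [hw', show s * w * s⁻¹ * (s * w * s⁻¹) = s * (w * w) * s⁻¹ by group, hww]; group
    rw [hw'eq, mul_zpow_of_conj hwact l, hww, mul_one, ← zpow_add, hpow] at hw'2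
    obtain ⟨f, hf⟩ := hw'2
    obtain ⟨f', rfl⟩ : (2 : ℤ) ^ (m + 2) ∣ l := by
      refine (IsCoprime.pow_left (⟨-((2 : ℤ) ^ m), 1, by ring⟩ :
        IsCoprime (2 : ℤ) (1 + (2 : ℤ) ^ (m + 1)))).dvd_of_dvd_mul_left ⟨f, ?_⟩
      have : 2 * ((1 + (2 : ℤ) ^ (m + 1)) * l) = 2 * ((2 : ℤ) ^ (m + 2) * f) := by
        calc 2 * ((1 + (2 : ℤ) ^ (m + 1)) * l) = u * l + l := by rw [hu_def]; ring
          _ = 2 * ((2 : ℤ) ^ (m + 2) * f) := by rw [hf]; ring
      exact mul_left_cancel₀ (by norm_num) this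
    rcases Int.even_or_odd f' with ⟨g, rfl⟩ | ⟨g, rfl⟩
    · refine hs1 ?_
      show w' = w
      rw [hw'eq, (hpow _).2 ⟨g, by ring⟩, mul_one]
    · refine hs2 ?_
      show w' = w * z
      rw [hw'eq]
      congr 1
      refine hE _ (A.zpow_mem haA _) (orderOf_eq_prime ?_ ?_)
      · rw [pow_two, ← zpow_add, hpow]
        exact ⟨2 * g + 1, by ring⟩
      · rw [Ne, hpow]
        rintro ⟨g', hg'⟩
        have h3 : (2 : ℤ) ^ (m + 2) * (2 * g + 1) = (2 : ℤ) ^ (m + 2) * (2 * g') := by rw [hg']; ring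
        have h4 := mul_left_cancel₀ (pow_ne_zero _ (by norm_num)) h3
        omega
  -- every exponent is odd; those congruent to 1 modulo 4 are trivial
  have hplus : ∀ (s : P) (k : ℤ), s * a * s⁻¹ = a ^ k → k ≡ 1 [ZMOD 4] → s ∈ A := by
    intro s k hk hk4
    obtain ⟨j, hj⟩ := (IsPGroup.iff_orderOf.1 hP) s
    have hpowk : ∀ i : ℕ, s ^ i * a * (s ^ i)⁻¹ = a ^ (k ^ i) := by
      intro i
      induction i with
      | zero => simp
      | succ i ih => rw [pow_succ, pow_succ]; exact hcomp ih hk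
    have h1 := hpowk (2 ^ j)
    rw [← hj, pow_orderOf_eq_one, one_mul, inv_one, mul_one, hj] at h1
    rcases odd_pow_cases n k hk4 j (hmod' (show a ^ (k ^ 2 ^ j) = a ^ (1 : ℤ) by rw [zpow_one]; exact h1.symm))
      with h | ⟨i, hn3, hi⟩
    · refine hCA s ?_
      rw [hmod h, zpow_one, mul_inv_eq_iff_eq_mul] at hk
      exact hk
    · exact absurd ((hpowk (2 ^ i)).trans (hmod hi)) (hu _ hn3)
  have hAne : a ≠ 1 := by
    intro e
    obtain ⟨c, -, hcA, -⟩ := exists_central_mod hP ⊤ A (fun hle => hxA (hle (Subgroup.mem_top x)))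
    exact hcA (hCA c (by rw [e, mul_one, one_mul]))
  have hn1 : n ≠ 0 := by rintro rfl; exact hAne (orderOf_eq_one_iff.1 (by simpa using hn))
  have hodd : ∀ (s : P) (k : ℤ), s * a * s⁻¹ = a ^ k → Odd k := by
    intro s k hk
    obtain ⟨k', hk'⟩ := hexp s⁻¹
    have h := hcomp hk' hk
    rw [inv_mul_cancel, one_mul, inv_one, mul_one] at h
    obtain ⟨d, hd⟩ := Int.modEq_iff_dvd.1 (hmod' (show a ^ (k' * k) = a ^ (1 : ℤ) by rw [zpow_one]; exact h.symm))
    obtain ⟨n', rfl⟩ : ∃ n', n = n' + 1 := ⟨n - 1, by omega⟩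
    rw [pow_succ] at hd
    refine (Int.not_even_iff_odd).1 fun ⟨r, hr⟩ => ?_
    have : (1 : ℤ) = 2 * (k' * r + (2 : ℤ) ^ n' * d) := by rw [hr] at hd; linarith
    omega
  refine ⟨A, Subgroup.index_eq_two_iff.2 ⟨x, fun b => ?_⟩, hxA, ⟨⟨⟨a, haA⟩, fun w => ?_⟩⟩⟩
  swap
  · obtain ⟨i, hi⟩ := Subgroup.mem_zpowers_iff.1 (hcyc w w.2)
    exact ⟨i, Subtype.ext (by simpa using hi)⟩
  by_cases hb : b ∈ A
  · exact Or.inr ⟨hb, fun h => hxA ((Subgroup.mul_mem_cancel_left A hb).1 h)⟩
  · refine Or.inl ⟨?_, hb⟩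
    obtain ⟨k, hk⟩ := hexp b
    obtain ⟨l, hl⟩ := hexp x
    have four : ∀ (s : P) (k : ℤ), s * a * s⁻¹ = a ^ k → s ∉ A → k % 4 = 3 := by
      intro s k hk hs
      have h1 := Int.odd_iff.1 (hodd s k hk)
      have h2 : ¬ k % 4 = 1 := fun h => hs (hplus s k hk (by rw [Int.ModEq, h]; rfl))
      omega
    refine hplus (b * x) (k * l) (hcomp hk hl) ?_
    rw [Int.ModEq, Int.mul_emod, four b k hk hb, four x l hl hxA]
    rfl



/-- For odd `p` an element of order `p` in a `p`-group without noncyclic normal abelian subgroups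
lies in the cyclic maximal normal abelian subgroup. -/
theorem isCyclic_of_odd {P : Type*} [Group P] [Finite P] {p : ℕ} [hp : Fact p.Prime] (hp2 : p ≠ 2)
    (hP : IsPGroup p P) (hn : ∀ A : Subgroup P, A.Normal → IsMulCommutative A → IsCyclic A) : IsCyclic P := by
  refine Cfsg.Agent.OddLocal.isCyclic_of_uniqueOrderP (Nat.card P) hP (fun e' e he' he he1 => ?_) (Or.inl hp2) le_rfl
  haveI := hP.isNilpotent
  obtain ⟨A, -, ⟨hAn, hAc⟩, hAmax⟩ := (Set.toFinite
    {B : Subgroup P | B.Normal ∧ IsMulCommutative B}).exists_le_maximal (a := ⊥) ⟨inferInstance, inferInstance⟩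
  haveI := hAn
  haveI := hAc
  have hCA : Subgroup.centralizer (A : Set P) = A :=
    Cfsg.Agent.S0015.result A (fun M hM hMc hle => le_antisymm (hAmax ⟨hM, hMc⟩ hle) hle)
  haveI hcyc : IsCyclic A := hn A hAn hAc
  obtain ⟨⟨a, haA⟩, hgen⟩ := hcyc.exists_generator
  have hpow : ∀ x ∈ A, ∃ i : ℤ, a ^ i = x := fun x hx => by
    obtain ⟨i, hi⟩ := hgen ⟨x, hx⟩
    exact ⟨i, congrArg Subtype.val hi⟩
  have hcentA : ∀ x : P, x * a = a * x → x ∈ A := by
    intro x hx
    refine hCA.le (Subgroup.mem_centralizer_iff.mpr fun y hy => ?_)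
    obtain ⟨i, rfl⟩ := hpow y hy
    exact ((show Commute x a from hx).zpow_right i).eq.symm
  choose r hr using fun x : P => hpow (x * a * x⁻¹) (hAn.conj_mem a haA x)
  -- every element of order dividing `p` lies in `A`
  have key : ∀ u : P, u ^ p = 1 → u ∈ A := by
    intro u hu
    by_contra huA
    obtain ⟨n, hn'⟩ := IsPGroup.iff_orderOf.mp hP a
    have hrpow : ∀ i : ℕ, u ^ i * a * (u ^ i)⁻¹ = a ^ (r u ^ i) := by
      intro i
      induction i with
      | zero => simp
      | succ i ih =>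
        rw [pow_succ, pow_succ, mul_comm (r u ^ i) (r u), zpow_mul]
        calc u ^ i * u * a * (u ^ i * u)⁻¹ = u ^ i * (u * a * u⁻¹) * (u ^ i)⁻¹ := by group
          _ = (a ^ (r u ^ i)) ^ r u := by rw [← hr u, ← conj_zpow, ih]
          _ = (a ^ r u) ^ (r u ^ i) := by rw [← zpow_mul, ← zpow_mul, mul_comm]
    have hn0 : n ≠ 0 := by
      rintro rfl
      rw [pow_zero, orderOf_eq_one_iff] at hn'
      exact huA (hcentA u (by rw [hn', mul_one, one_mul]))
    have hrp : ((p : ℤ) ^ n) ∣ r u ^ p - 1 := by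
      have h := hrpow p
      rw [hu, one_mul, inv_one, mul_one] at h
      have h' : a ^ (1 : ℤ) = a ^ (r u ^ p) := by rw [zpow_one]; exact h
      rw [zpow_eq_zpow_iff_modEq, hn'] at h'
      exact_mod_cast Int.modEq_iff_dvd.1 h'
    obtain ⟨t, ht⟩ : (p : ℤ) ∣ r u - 1 := by
      rw [← ZMod.intCast_zmod_eq_zero_iff_dvd, Int.cast_sub, Int.cast_one, ← ZMod.pow_card (r u : ZMod p),
        ← Int.cast_pow, ← Int.cast_one, ← Int.cast_sub, ZMod.intCast_zmod_eq_zero_iff_dvd]
      exact (dvd_pow_self (p : ℤ) hn0).trans hrp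
    obtain ⟨w, hw⟩ : ∃ w : ℤ, ∑ k ∈ Finset.range p, r u ^ k = p * (1 + p * w) := by
      have h1 : ∀ k : ℕ, ∃ c : ℤ, r u ^ k = 1 + k * (p * t) + p ^ 2 * c := by
        intro k
        induction k with
        | zero => exact ⟨0, by simp⟩
        | succ k ih =>
          obtain ⟨c, hc⟩ := ih
          refine ⟨c + k * t * t + p * t * c, ?_⟩
          rw [pow_succ, hc, show r u = 1 + p * t by linarith]
          push_cast
          ring
      choose c hc using h1
      have hg : (∑ k ∈ Finset.range p, (k : ℤ)) * 2 = p * (p - 1) := by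
        have := Finset.sum_range_id_mul_two p
        have h3 : ((∑ k ∈ Finset.range p, k : ℕ) : ℤ) * 2 = ((p * (p - 1) : ℕ) : ℤ) := by exact_mod_cast this
        push_cast [Nat.cast_sub hp.out.one_lt.le] at h3
        linarith
      obtain ⟨q, hq⟩ : Odd p := hp.out.odd_of_ne_two hp2
      have hg' : ∑ k ∈ Finset.range p, (k : ℤ) = p * q := by
        have hpq : (p : ℤ) = 2 * q + 1 := by exact_mod_cast hq
        nlinarith
      refine ⟨q * t + ∑ k ∈ Finset.range p, c k, ?_⟩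
      rw [Finset.sum_congr rfl (fun k _ => hc k), Finset.sum_add_distrib, Finset.sum_add_distrib,
        ← Finset.sum_mul, hg', Finset.sum_const, Finset.card_range, nsmul_eq_mul, mul_one, ← Finset.mul_sum]
      ring
    -- every conjugate of `u` is `u` times an element of order dividing `p` of `A`
    have hconj : ∀ s : P, s * u * s⁻¹ * u⁻¹ ∈ A ∧ (s * u * s⁻¹ * u⁻¹) ^ p = 1 := by
      intro s
      have hd : s * u * s⁻¹ * u⁻¹ ∈ A := by
        refine hcentA _ ?_
        have hA2 : ∀ x : P, ∀ i : ℤ, x * a ^ i * x⁻¹ = a ^ (r x * i) := fun x i => by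
          rw [← conj_zpow, ← hr x, ← zpow_mul]
        have h1 : ∀ x y : P, x * y * a * (x * y)⁻¹ = y * x * a * (y * x)⁻¹ := fun x y => by
          calc x * y * a * (x * y)⁻¹ = x * (y * a * y⁻¹) * x⁻¹ := by group
            _ = y * (x * a * x⁻¹) * y⁻¹ := by rw [← hr y, ← hr x, hA2, hA2, mul_comm]
            _ = y * x * a * (y * x)⁻¹ := by group
        have h2 := h1 s u
        have e : s * u * s⁻¹ * u⁻¹ * a * (s * u * s⁻¹ * u⁻¹)⁻¹ = a := by
          have h3 : s⁻¹ * u⁻¹ * a * (s⁻¹ * u⁻¹)⁻¹ = u⁻¹ * s⁻¹ * a * (u⁻¹ * s⁻¹)⁻¹ := h1 _ _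
          calc s * u * s⁻¹ * u⁻¹ * a * (s * u * s⁻¹ * u⁻¹)⁻¹
              = (s * u) * (s⁻¹ * u⁻¹ * a * (s⁻¹ * u⁻¹)⁻¹) * (s * u)⁻¹ := by group
            _ = a := by rw [h3]; group
        exact mul_inv_eq_iff_eq_mul.mp e
      refine ⟨hd, ?_⟩
      obtain ⟨i, hi⟩ := hpow _ hd
      have hseq : s * u * s⁻¹ = a ^ i * u := by rw [hi, inv_mul_cancel_right]
      have hk : ∀ k : ℕ, (a ^ i * u) ^ k = a ^ (i * ∑ l ∈ Finset.range k, r u ^ l) * u ^ k := by
        intro k
        induction k with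
        | zero => simp
        | succ k ih =>
          have hc : u ^ k * a ^ i = a ^ (r u ^ k * i) * u ^ k := by
            rw [zpow_mul, ← hrpow k, conj_zpow, inv_mul_cancel_right]
          calc (a ^ i * u) ^ (k + 1) = a ^ (i * ∑ l ∈ Finset.range k, r u ^ l) * (u ^ k * a ^ i) * u := by
                rw [pow_succ, ih]; simp only [mul_assoc]
            _ = a ^ (i * ∑ l ∈ Finset.range k, r u ^ l + r u ^ k * i) * (u ^ k * u) := by
                rw [hc, zpow_add]; simp only [mul_assoc]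
            _ = _ := by rw [← pow_succ, Finset.sum_range_succ, mul_add, mul_comm (r u ^ k) i]
      have h0 := hk p
      rw [← hseq, conj_pow, hu, mul_one, mul_inv_cancel, mul_one, hw] at h0
      rw [eq_comm, ← mul_assoc, ← orderOf_dvd_iff_zpow_eq_one, hn'] at h0
      push_cast at h0
      have hco : IsCoprime ((p : ℤ) ^ n) (1 + p * w) := IsCoprime.pow_left ⟨-w, 1, by ring⟩
      have h5 := hco.dvd_of_dvd_mul_right h0
      rw [← hi, ← zpow_natCast, ← zpow_mul, ← orderOf_dvd_iff_zpow_eq_one, hn']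
      exact_mod_cast h5
    -- the subgroup `Ω₁(A) ⟨u⟩`
    let N : Subgroup P :=
      { carrier := {x | x ∈ A ∧ x ^ p = 1}
        one_mem' := ⟨one_mem _, one_pow _⟩
        mul_mem' := fun {x y} hx hy => ⟨mul_mem hx.1 hy.1, by
          rw [(show Commute x y from congrArg Subtype.val (mul_comm' (⟨x, hx.1⟩ : A) ⟨y, hy.1⟩)).mul_pow,
            hx.2, hy.2, one_mul]⟩
        inv_mem' := fun {x} hx => ⟨inv_mem hx.1, by rw [inv_pow, hx.2, inv_one]⟩ }
    haveI hNn : N.Normal := ⟨fun x hx g => ⟨hAn.conj_mem x hx.1 g, by rw [conj_pow, hx.2]; group⟩⟩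
    have hNc : N ≤ Subgroup.centralizer ({u} : Set P) := by
      intro x hx
      obtain ⟨i, rfl⟩ := hpow x hx.1
      have hd : ((p : ℤ) ^ n) ∣ (r u - 1) * i := by
        have h := hx.2
        rw [← zpow_natCast, ← zpow_mul, ← orderOf_dvd_iff_zpow_eq_one, hn'] at h
        push_cast at h
        obtain ⟨c, hc⟩ := h
        exact ⟨t * c, by rw [ht]; linear_combination t * hc⟩
      have h : u * a ^ i * u⁻¹ = a ^ i := by
        rw [← conj_zpow, ← hr u, ← zpow_mul, zpow_eq_zpow_iff_modEq, hn']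
        exact (Int.modEq_iff_dvd.2 (by push_cast; rw [show r u * i - i = (r u - 1) * i by ring]; exact hd)).symm
      exact Subgroup.mem_centralizer_singleton_iff.mpr (by
        first
          | exact (mul_inv_eq_iff_eq_mul.mp h).symm
          | exact mul_inv_eq_iff_eq_mul.mp h)
    set U := N ⊔ Subgroup.zpowers u with hU
    have hUn : U.Normal := ⟨fun x hx g => by
      have hle : U.map (MulAut.conj g).toMonoidHom ≤ U := by
        rw [hU, Subgroup.map_sup, MonoidHom.map_zpowers]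
        refine sup_le ?_ (Subgroup.zpowers_le.mpr ?_)
        · rintro _ ⟨y, hy, rfl⟩
          exact Subgroup.mem_sup_left (hNn.conj_mem y hy g)
        · show g * u * g⁻¹ ∈ U
          rw [show g * u * g⁻¹ = (g * u * g⁻¹ * u⁻¹) * u by group]
          exact Subgroup.mul_mem_sup (hconj g) (Subgroup.mem_zpowers u)
      exact hle ⟨x, hx, rfl⟩⟩
    have hUc : IsMulCommutative U := by
      have hle : U ≤ Subgroup.centralizer (U : Set P) := by
        refine sup_le (fun x hx => ?_) (Subgroup.zpowers_le.mpr ?_)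
        · have : U ≤ Subgroup.centralizer ({x} : Set P) := by
            refine sup_le (fun y hy => Subgroup.mem_centralizer_singleton_iff.mpr
              (congrArg Subtype.val (mul_comm' (⟨y, hy.1⟩ : A) ⟨x, hx.1⟩))) (Subgroup.zpowers_le.mpr ?_)
            exact Subgroup.mem_centralizer_singleton_iff.mpr (Subgroup.mem_centralizer_singleton_iff.mp (hNc hx)).symm
          exact Subgroup.mem_centralizer_iff.mpr fun y hy => Subgroup.mem_centralizer_singleton_iff.mp (this hy)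
        · have : U ≤ Subgroup.centralizer ({u} : Set P) := sup_le hNc
            (Subgroup.zpowers_le.mpr (Subgroup.mem_centralizer_singleton_iff.mpr rfl))
          exact Subgroup.mem_centralizer_iff.mpr fun y hy => Subgroup.mem_centralizer_singleton_iff.mp (this hy)
      exact ⟨⟨fun x y => Subtype.ext (Subgroup.mem_centralizer_iff.mp (hle y.2) x x.2)⟩⟩
    haveI := hn U hUn hUc
    -- a cyclic group has one subgroup of order `p`
    have hz : orderOf (a ^ p ^ (n - 1)) = p := by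
      rw [orderOf_pow_of_dvd (pow_ne_zero _ hp.out.ne_zero) (by rw [hn']; exact pow_dvd_pow p (Nat.sub_le _ _)),
        hn', Nat.pow_div (Nat.sub_le _ _) hp.out.pos, show n - (n - 1) = 1 by omega, pow_one]
    set z := a ^ p ^ (n - 1)
    have hzU : z ∈ U := Subgroup.mem_sup_left ⟨pow_mem haA _, by rw [← hz, pow_orderOf_eq_one]⟩
    have huU : u ∈ U := Subgroup.mem_sup_right (Subgroup.mem_zpowers u)
    have hu1 : u ≠ 1 := fun h => huA (h ▸ one_mem _)
    have hcz : Nat.card (Subgroup.zpowers (⟨z, hzU⟩ : U)) = p := by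
      rw [Nat.card_zpowers, Subgroup.orderOf_mk, hz]
    have hcu : Nat.card (Subgroup.zpowers (⟨u, huU⟩ : U)) = p := by
      rw [Nat.card_zpowers, Subgroup.orderOf_mk, orderOf_eq_prime hu hu1]
    have heq := Cfsg.Agent.FGS2.subgroup_eq_of_card_eq (hcz.trans hcu.symm)
    obtain ⟨i, hi⟩ := Subgroup.mem_zpowers_iff.mp (heq.ge (Subgroup.mem_zpowers _))
    apply huA
    rw [show u = z ^ i from (congrArg Subtype.val hi).symm.trans (by simp)]
    exact zpow_mem (pow_mem haA _) i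
  have heA := key e he
  have he'A := key e' he'
  have h1 : Nat.card (Subgroup.zpowers (⟨e, heA⟩ : A)) = Nat.card (Subgroup.zpowers (⟨e', he'A⟩ : A)) ∨ e = 1 := by
    by_cases h : e = 1
    · exact Or.inr h
    · left
      rw [Nat.card_zpowers, Nat.card_zpowers, Subgroup.orderOf_mk, Subgroup.orderOf_mk,
        orderOf_eq_prime he h, orderOf_eq_prime he' he1]
  rcases h1 with h1 | h1
  · obtain ⟨i, hi⟩ := Subgroup.mem_zpowers_iff.mp ((Cfsg.Agent.FGS2.subgroup_eq_of_card_eq h1).le (Subgroup.mem_zpowers _))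
    exact ⟨i, by simpa using congrArg Subtype.val hi⟩
  · exact h1 ▸ one_mem _

end Cfsg.Agent.OddChar.TwoNormal
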